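import Cfsg.Agent.H77.ElusSub
import Cfsg.Agent.H27.GeoSymp

/-!
# Symplectic similitudes
-/

set_option autoImplicit false

namespace Cfsg.Agent.H77

open Module Cfsg.Agent.H76
open Matrix (SpecialLinearGroup GeneralLinearGroup)
open scoped Matrix

theorem Unif.eq_of_pow_eq {L : Type*} [Field L] {p r n : ℕ} [Fact p.Prime] [CharP L p] {Q : ℤ}
    {s t : Multiset (Lˣ × ℕ)} {c : Lˣ} (hr : 0 < r) (hrp : r ≠ p) (hs : Unif Q r n s)
    (ht : Unif Q r n t) (hs' : ∀ x ∈ s, x.1 ^ r = c) (ht' : ∀ x ∈ t, x.1 ^ r = c) : s = t := by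
  obtain ⟨a, O, h1, h2, h3⟩ := hs.eq_nsmul_isO (e := 0) hr hrp (by simp) (by simp) (by simp) hs'
  obtain ⟨b, O', h4, h5, h6⟩ := ht.eq_nsmul_isO (e := 0) hr hrp (by simp) (by simp) (by simp) ht'
  obtain rfl := Nat.eq_of_mul_eq_mul_left hr (h1.symm.trans h4)
  rw [nsmul_zero, add_zero] at h3 h6
  rcases eq_or_ne a 0 with rfl | h7
  · rw [h3, h6, zero_nsmul, zero_nsmul]
  · rw [h3, h6, (h2 h7).unique (h5 h7)]

theorem prod_range_two_mul {M : Type*} [CommMonoid M] (g : ℕ → M) (m : ℕ) :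
    ∏ i ∈ Finset.range (2 * m), g i =
      (∏ i ∈ Finset.range m, g (2 * i)) * ∏ i ∈ Finset.range m, g (2 * i + 1) := by
  induction m with
  | zero => simp
  | succ m ih =>
    rw [mul_add, mul_one, Finset.prod_range_succ, Finset.prod_range_succ, ih,
      Finset.prod_range_succ, Finset.prod_range_succ]
    ac_rfl

variable {F : Type*} [Field F] [Fintype F] {p : ℕ} [Fact p.Prime] [CharP F p]
  {L : Type*} [Field L] [Algebra F L] [IsAlgClosed L] {s : Multiset (Lˣ × ℕ)}

theorem exists_mem_of_forall_sl [Algebra.IsAlgebraic F L] {n r : ℕ} {H : Subgroup (GL (Fin n) F)}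
    (h : ∀ x : SpecialLinearGroup (Fin n) F,
      (∃ c : F, ((x ^ r : SpecialLinearGroup (Fin n) F) : Matrix (Fin n) (Fin n) F) =
        c • (1 : Matrix (Fin n) (Fin n) F)) →
      (∀ c : F, (x : Matrix (Fin n) (Fin n) F) ≠ c • (1 : Matrix (Fin n) (Fin n) F)) →
      ∃ P : SpecialLinearGroup (Fin n) F, P⁻¹ * x * P ∈ H.comap SpecialLinearGroup.toGL)
    (hs : PElt p (Fintype.card F : ℤ) n r s) (hd : ddet s = 1) : ∃ h ∈ H, ujord L h = s :=
  (forall_sl_iff L (R' := fun s => ∃ h ∈ H, ujord L h = s) fun _ _ => Iff.rfl).mp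
    (fun x h1 h2 => let ⟨P, hP⟩ := h x h1 h2
      ⟨_, hP, by rw [map_mul, map_mul, map_inv, ujord_conj]⟩) s hs hd

variable {ι : Type} [Fintype ι] [DecidableEq ι] {f : (ι → F) → (ι → F) → F}

omit [Fintype F] in
theorem exists_mem_sim {g : End F (ι → F)} {c : F} (hc : c ≠ 0)
    (hg : ∀ u v, f (g u) (g v) = c * f u v) (h : HasJ L g s) :
    ∃ h ∈ Geo.similarityGroup f, ujord L h = s := by
  obtain ⟨x, rfl⟩ := exists_gl_toLin' h.isUnit
  exact ⟨x, ⟨Units.mk0 c hc, hg⟩, h.ujord_eq⟩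

omit [Fintype F] in
theorem alt_exists_sim_sq {V : Type*} [AddCommGroup V] [Module F V] [FiniteDimensional F V]
    {B : V →ₗ[F] V →ₗ[F] F} (hB : IsEForm (-1) B) (ha : ∀ v, B v v = 0) (z : F) :
    ∃ g : End F V, g ^ 2 = z • 1 ∧ ∀ u v, B (g u) (g v) = -z * B u v := by
  obtain ⟨m, hm⟩ := H27.even_finrank_of_alt hB.nondegenerate ha
  obtain ⟨φ, hφ⟩ := H27.exists_equiv_jBilin hB.nondegenerate ha (hm.trans (two_mul m).symm)
  let g : End F (Fin m ⊕ Fin m → F) := LinearMap.pi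
    (Sum.rec (fun i => z • LinearMap.proj (Sum.inr i)) fun i => LinearMap.proj (Sum.inl i))
  refine ⟨φ.conj g, LinearMap.ext fun v => ?_, fun u v => ?_⟩
  · obtain ⟨v, rfl⟩ := φ.surjective v
    simp only [sq, End.mul_apply, LinearEquiv.conj_apply_apply, φ.symm_apply_apply,
      LinearMap.smul_apply, End.one_apply, ← map_smul]
    congr 1
    ext (i | i) <;> simp [g]
  · obtain ⟨u, rfl⟩ := φ.surjective u
    obtain ⟨v, rfl⟩ := φ.surjective v
    simp only [LinearEquiv.conj_apply_apply, φ.symm_apply_apply, hφ, H27.jBilin_apply_sum,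
      Finset.mul_sum]
    exact Finset.sum_congr rfl fun i _ => by simp [g]; ring

omit [Fintype F] [Fintype ι] [DecidableEq ι] in
theorem isEForm_geoBilin (hf : Geo.IsSymplecticForm f) :
    IsEForm (-1) (H27.geoBilin hf.bilinear) :=
  isEForm_of_isAlt (H27.geoBilin_isAlt hf) (H27.geoBilin_nondegenerate _ hf.nondegenerate)

theorem exists_mem_sim_of_fadm [Algebra.IsAlgebraic F L] (hf : Geo.IsSymplecticForm f) {d : Lˣ}
    (hd : d ^ (Fintype.card F : ℤ) = d)
    (h : FAdm Even (Fintype.card F : ℤ) (Fintype.card ι) (twist d⁻¹ s)) :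
    ∃ h ∈ Geo.similarityGroup f, ujord L h = s := by
  obtain ⟨g, h1, h2⟩ := exists_pres_alt (isEForm_geoBilin hf) hf.alternating
    (h.cast (finrank_fintype_fun_eq_card F).symm)
  obtain ⟨b, hb⟩ := exists_algebraMap_eq hd
  have h3 := h2.smul hb.symm
  rw [twist_twist, mul_inv_cancel, twist_one] at h3
  refine exists_mem_sim (c := b * b) (mul_self_ne_zero.mpr ?_) (fun u v => ?_) h3
  · rintro rfl; exact d.ne_zero (by rw [← hb, map_zero])
  · rw [LinearMap.smul_apply, LinearMap.smul_apply, hf.bilinear.smul_left, hf.bilinear.smul_right,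
      mul_assoc]
    exact congrArg (fun t => b * (b * t)) (h1 u v)

/-- a symplectic similitude with a dominant rational eigenvalue is a multiple of an isometry -/
theorem fadm_of_mem_sim [Algebra.IsAlgebraic F L] (hf : Geo.IsSymplecticForm f) {x : GL ι F}
    (hx : x ∈ Geo.similarityGroup f) {d : Lˣ} (hd : d ^ (Fintype.card F : ℤ) = d)
    (h : ∀ c : Lˣ, (ujord L x).map (frob (-1)) = twist c (ujord L x) → c⁻¹ * d⁻¹ = d) :
    FAdm Even (Fintype.card F : ℤ) (Fintype.card ι) (twist d⁻¹ (ujord L x)) := by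
  obtain ⟨c, hc⟩ := hx
  have h1 := h _ (tw_of_sim (dualLaw_id L) (isEForm_geoBilin hf).sep hc)
  obtain ⟨b, hb⟩ := exists_algebraMap_eq (F := F) (d := d⁻¹) (by rw [inv_zpow, hd])
  have h2 : b * b * c = 1 := (algebraMap F L).injective (by
    rw [map_inv, inv_inv, mul_inv_eq_iff_eq_mul] at h1
    rw [map_mul, map_mul, hb, map_one]
    exact congrArg Units.val (show d⁻¹ * d⁻¹ * Units.map (algebraMap F L : F →* L) c = 1 by
      rw [h1]; group))
  refine (((hasJ_ujord L x).smul hb.symm).fadm_alt (isEForm_geoBilin hf) hf.alternating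
    fun u v => ?_).cast (finrank_fintype_fun_eq_card F)
  simp only [H27.geoBilin_apply, LinearMap.smul_apply, hf.bilinear.smul_left,
    hf.bilinear.smul_right, Matrix.toLin'_apply, hc, ← mul_assoc, h2, one_mul]

theorem exists_of_dvd_index_sp {n r : ℕ} {f : (Fin n → F) → (Fin n → F) → F}
    (hf : Geo.IsSymplecticForm f) (he : Even n) (hr : r.Prime) (hrq : ¬ r ∣ Fintype.card F)
    (h : r ∣ (Geo.similarityGroup f).relIndex (Geo.specialLinear (Fin n) F)) :
    ∃ i, Odd i ∧ i ≤ n ∧ (r : ℤ) ∣ (Fintype.card F : ℤ) ^ i - 1 := by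
  obtain ⟨m, rfl⟩ := even_iff_two_dvd.mp he
  have h1 : Nat.card (H27.isomGroup (H27.geoBilin hf.bilinear)) ∣
      Nat.card (Geo.similarityGroup f) :=
    Subgroup.card_dvd_of_injective ((H27.isomToGL _).codRestrict _ fun g => ⟨1, fun u v => by
        rw [H27.isomToGL_mulVec, H27.isomToGL_mulVec]
        exact (g.2 u v).trans (one_mul _).symm⟩)
      fun u v huv => H27.isomToGL_injective _ (congrArg (·.1) huv)
  have h2 := Int.natCast_dvd_natCast.mpr (relIndex_mul_dvd_card_GL h1)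
  obtain ⟨e, h3⟩ := card_GL_int (F := F) (2 * m)
  have hp := Nat.prime_iff_prime_int.mp hr
  rw [H27.card_isomGroup (isEForm_geoBilin hf).nondegenerate hf.alternating (finrank_fin_fun F),
    H27.spOrder, Nat.cast_mul, h3, Nat.cast_mul, Nat.cast_prod, prod_range_two_mul, ← mul_assoc,
    ← mul_assoc, Finset.prod_congr rfl (g := fun i => (Fintype.card F : ℤ) ^ (2 * i + 1 + 1) - 1)
      fun i _ => by
        rw [Nat.cast_sub (Nat.one_le_pow _ _ Fintype.card_pos), Nat.cast_pow, Nat.cast_one]; rfl,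
    mul_dvd_mul_iff_right (Finset.prod_ne_zero_iff.mpr fun i _ => sub_ne_zero.mpr
      (pow_ne_one_of_two_le (Q := Fintype.card F) Fintype.one_lt_card (by omega)))] at h2
  obtain ⟨i, hi, h4⟩ := (hp.dvd_finsetProd_iff _).mp ((hp.dvd_or_dvd
    (((Int.natCast_dvd_natCast.mpr h).mul_right _).trans h2)).resolve_left
      fun h => hrq (Int.natCast_dvd_natCast.mp (hp.dvd_of_dvd_pow h)))
  exact ⟨2 * i + 1, odd_two_mul_add_one i, by have := Finset.mem_range.mp hi; omega, h4⟩

end Cfsg.Agent.H77
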