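import Cfsg.Agent.H77.ElusExtSp
import Cfsg.Agent.H27.TenGeo

/-!
# Eigenspaces of tensor products of linear maps
-/

set_option autoImplicit false

namespace Cfsg.Agent.H77

open Module TensorProduct Cfsg.Agent.H76 Cfsg.Agent.H31
open Cfsg.Agent.H27 (tB tenFrame)
open scoped Matrix

section Ten

variable {F U W : Type*} [Field F] [AddCommGroup U] [Module F U] [AddCommGroup W] [Module F W]
  {α : End F U} {β : End F W} {c z : F}

/-- Contraction of the second factor of a tensor product with a linear form. -/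
def tenC (U : Type*) [AddCommGroup U] [Module F U] (φ : Dual F W) : U ⊗[F] W →ₗ[F] U :=
  (TensorProduct.rid F U).toLinearMap ∘ₗ φ.lTensor U

@[simp] theorem tenC_tmul (φ : Dual F W) (u : U) (w : W) : tenC U φ (u ⊗ₜ w) = φ w • u := by
  simp [tenC]

theorem sim_finrank_ker' (h : Sim α β) (c : F) : finrank F (LinearMap.ker (α - c • 1)) =
    finrank F (LinearMap.ker (β - c • 1)) := by
  obtain ⟨e, he⟩ := h
  rw [← e.finrank_map_eq, Submodule.map_equiv_eq_comap_symm]
  refine congrArg (fun X : Submodule F W => finrank F X) (Submodule.ext fun v => ?_)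
  obtain ⟨v, rfl⟩ := e.surjective v
  simp [sub_eq_zero, ← he, ← map_smul]

theorem sim_tenMap_comm : Sim (TensorProduct.map α β) (TensorProduct.map β α) :=
  ⟨TensorProduct.comm F U W, fun v => (map_comm β α v).symm⟩

theorem exists_dual_of_ne_smul (h : ∀ z : F, β ≠ z • 1) :
    ∃ (w : W) (φ : Dual F W), φ w = 0 ∧ φ (β w) ≠ 0 := by
  obtain ⟨w, hw⟩ : ∃ w, LinearIndependent F ![w, β w] := by
    by_contra! h1
    exact (β.exists_eq_smul_id_of_forall_notLinearIndependent h1).elim h
  obtain ⟨φ, h1, h2⟩ := Submodule.exists_dual_map_eq_bot_of_notMem (p := F ∙ w) (x := β w)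
    (fun h1 => by
      obtain ⟨a, ha⟩ := Submodule.mem_span_singleton.mp h1
      exact one_ne_zero (neg_eq_zero.mp (LinearIndependent.pair_iff.mp hw a (-1)
        (by simp [ha])).2)) inferInstance
  exact ⟨w, φ, (Submodule.mem_bot F).mp (h2 ▸ Submodule.mem_map_of_mem
    (Submodule.mem_span_singleton_self w)), h1⟩

theorem exists_smul_of_tenMap [Nontrivial U] [Nontrivial W] (hz : z ≠ 0)
    (h : TensorProduct.map α β = z • 1) : ∃ a : F, a ≠ 0 ∧ α = a • 1 ∧ a • β = z • 1 := by
  obtain ⟨u, hu⟩ := exists_ne (0 : U)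
  obtain ⟨w, hw⟩ := exists_ne (0 : W)
  obtain ⟨φ, h1⟩ := Projective.exists_dual_eq_one F hw
  obtain ⟨ψ, h2⟩ := Projective.exists_dual_eq_one F hu
  have h3 : ∀ x, φ (β w) • α x = z • x := fun x => by
    simpa [h1] using congrArg (fun g : End F (U ⊗[F] W) => tenC U φ (g (x ⊗ₜ w))) h
  have h4 : φ (β w) ≠ 0 := fun h4 => by simpa [h4, hz, hu] using (h3 u).symm
  have h5 : α = (z / φ (β w)) • 1 := LinearMap.ext fun x => by
    rw [← smul_right_inj h4, h3, LinearMap.smul_apply, smul_smul, mul_div_cancel₀ _ h4,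
      End.one_apply]
  refine ⟨_, div_ne_zero hz h4, h5, LinearMap.ext fun x => ?_⟩
  simpa [h2, h5, ← smul_tmul'] using congrArg
    (fun g : End F (U ⊗[F] W) => tenC W ψ (TensorProduct.comm F U W (g (u ⊗ₜ x)))) h

theorem tenMap_smul_left : TensorProduct.map (z • 1 : End F U) β = (z • β).lTensor U := by
  rw [TensorProduct.map_smul_left, LinearMap.lTensor_smul]; rfl

theorem tenMap_smul_right : TensorProduct.map α (z • 1 : End F W) = (z • α).rTensor W := by
  rw [TensorProduct.map_smul_right, LinearMap.rTensor_smul]; rfl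

variable [FiniteDimensional F U] [FiniteDimensional F W]

theorem isUnit_of_tenMap [Nontrivial W] (h : IsUnit (TensorProduct.map α β)) : IsUnit α := by
  rw [LinearMap.isUnit_iff_ker_eq_bot, LinearMap.ker_eq_bot'] at h ⊢
  obtain ⟨w, hw⟩ := exists_ne (0 : W)
  obtain ⟨φ, h1⟩ := Projective.exists_dual_eq_one F hw
  exact fun u hu => by simpa [h1] using congrArg (tenC U φ) (h (u ⊗ₜ w) (by simp [hu]))

theorem isUnit_of_tenMap' [Nontrivial U] (h : IsUnit (TensorProduct.map α β)) : IsUnit β :=
  isUnit_of_tenMap (β := α) (by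
    rwa [LinearMap.isUnit_iff_isUnit_det, sim_tenMap_comm.det_eq,
      ← LinearMap.isUnit_iff_isUnit_det])

theorem finrank_ker_lTensor (β : End F W) (c : F) :
    finrank F (LinearMap.ker (β.lTensor U - c • 1)) =
      finrank F U * finrank F (LinearMap.ker (β - c • 1)) := by
  have h1 := (β.lTensor U - c • 1).finrank_range_add_finrank_ker
  have h2 : β.lTensor U - c • 1 = (β - c • 1).lTensor U := by
    rw [LinearMap.lTensor_sub, LinearMap.lTensor_smul, End.one_eq_id, End.one_eq_id,
      LinearMap.lTensor_id]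
  rw [finrank_tensorProduct, ← (β - c • 1).finrank_range_add_finrank_ker, mul_add,
    ← H27.finrank_range_lTensor, ← h2] at h1
  omega

theorem finrank_ker_rTensor (α : End F U) (c : F) :
    finrank F (LinearMap.ker (α.rTensor W - c • 1)) =
      finrank F W * finrank F (LinearMap.ker (α - c • 1)) :=
  (sim_finrank_ker' sim_tenMap_comm c).trans (finrank_ker_lTensor α c)

omit [FiniteDimensional F W] in
theorem exists_tenMap_inj (hα : IsUnit α) (hβ : ∀ z : F, β ≠ z • 1) (c : F) : ∃ w,
    LinearMap.range ((TensorProduct.map α β - c • 1) ∘ₗ (TensorProduct.mk F U W).flip w) ≤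
      LinearMap.range (TensorProduct.map α β - c • 1) ∧ finrank F (LinearMap.range
      ((TensorProduct.map α β - c • 1) ∘ₗ (TensorProduct.mk F U W).flip w)) = finrank F U := by
  obtain ⟨w, φ, h1, h2⟩ := exists_dual_of_ne_smul hβ
  refine ⟨w, LinearMap.range_comp_le_range _ _, LinearMap.finrank_range_of_inj
    (LinearMap.ker_eq_bot.mp (LinearMap.ker_eq_bot'.mpr fun u hu => ?_))⟩
  exact LinearMap.ker_eq_bot'.mp ((LinearMap.isUnit_iff_ker_eq_bot α).mp hα) u
    (by simpa [h1, h2] using congrArg (tenC U φ) hu)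

theorem finrank_ker_tenMap_le (hα : IsUnit α) (hβ : ∀ z : F, β ≠ z • 1) (c : F) :
    finrank F (LinearMap.ker (TensorProduct.map α β - c • 1)) + finrank F U ≤
      finrank F U * finrank F W := by
  obtain ⟨w, h1, h2⟩ := exists_tenMap_inj hα hβ c
  have := Submodule.finrank_mono h1
  have := (TensorProduct.map α β - c • 1).finrank_range_add_finrank_ker
  rw [finrank_tensorProduct] at this
  omega

theorem finrank_ker_tenMap_le' (hβ : IsUnit β) (hα : ∀ z : F, α ≠ z • 1) (c : F) :
    finrank F (LinearMap.ker (TensorProduct.map α β - c • 1)) + finrank F W ≤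
      finrank F U * finrank F W := by
  rw [sim_finrank_ker' sim_tenMap_comm, mul_comm]
  exact finrank_ker_tenMap_le hβ hα c

theorem finrank_ker_tenMap_lt (hα : IsUnit α) (hα' : ∀ z : F, α ≠ z • 1) (hβ : IsUnit β)
    (hβ' : ∀ z : F, β ≠ z • 1) (hW : 3 ≤ finrank F W) (c : F) :
    finrank F (LinearMap.ker (TensorProduct.map α β - c • 1)) + finrank F U <
      finrank F U * finrank F W := by
  obtain ⟨w, h1, h2⟩ := exists_tenMap_inj hα hβ' c
  have h3 := (TensorProduct.map α β - c • 1).finrank_range_add_finrank_ker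
  rw [finrank_tensorProduct] at h3
  by_contra h4
  have h5 := Submodule.eq_of_le_of_finrank_le h1 (by omega)
  obtain ⟨u, ψ, h6, h7⟩ := exists_dual_of_ne_smul hα'
  obtain ⟨φ, h8, h9⟩ := (Submodule.span F (Set.range ![w, β w])).exists_le_ker_of_lt_top
    (Submodule.lt_top_of_finrank_lt_finrank ((finrank_range_le_card _).trans_lt (by simpa)))
  refine h8 (LinearMap.ext fun x => ?_)
  obtain ⟨x, rfl⟩ := (LinearMap.isUnit_iff_range_eq_top β).mp hβ ▸ Submodule.mem_top (x := x)
  obtain ⟨y, hy⟩ := h5.ge (LinearMap.mem_range_self _ (u ⊗ₜ x))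
  have h10 : φ w = 0 := h9 (Submodule.subset_span ⟨0, rfl⟩)
  have h11 : φ (β w) = 0 := h9 (Submodule.subset_span ⟨1, rfl⟩)
  simpa [h10, h11, h6, h7] using
    congrArg (fun v => ψ (tenC U φ v)) hy.symm

theorem finrank_ker_tenMap_le_min (h : IsUnit (TensorProduct.map α β))
    (h' : ∀ z : F, TensorProduct.map α β ≠ z • 1) (c : F) :
    finrank F (LinearMap.ker (TensorProduct.map α β - c • 1)) + min (finrank F U) (finrank F W) ≤
      finrank F U * finrank F W := by
  have : Nontrivial (U ⊗[F] W) := by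
    by_contra! h1
    exact h' 0 (Subsingleton.elim _ _)
  have h1 := finrank_pos (R := F) (M := U ⊗[F] W)
  rw [finrank_tensorProduct] at h1
  have := nontrivial_of_finrank_pos (Nat.pos_of_mul_pos_right h1)
  have := nontrivial_of_finrank_pos (Nat.pos_of_mul_pos_left h1)
  by_cases h2 : ∀ z : F, β ≠ z • 1
  · have := finrank_ker_tenMap_le (isUnit_of_tenMap h) h2 c
    omega
  · have := finrank_ker_tenMap_le' (isUnit_of_tenMap' h) (α := α)
      (fun a ha => by
        obtain ⟨b, rfl⟩ := not_forall.mp h2 |>.imp fun _ => not_not.mp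
        exact h' (b * a) (by
          rw [tenMap_smul_right, ha, smul_smul, LinearMap.rTensor_smul, End.one_eq_id,
            LinearMap.rTensor_id, End.one_eq_id])) c
    omega

theorem add_min_le_of_finrank_ker (h : IsUnit (TensorProduct.map α β)) {k : ℕ}
    (hk : finrank F (LinearMap.ker (TensorProduct.map α β - c • 1)) = k) (h0 : 0 < k)
    (h1 : k < finrank F U * finrank F W) :
    k + min (finrank F U) (finrank F W) ≤ finrank F U * finrank F W :=
  hk ▸ finrank_ker_tenMap_le_min h (fun z hz => by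
    rw [hz.trans (by rw [← sub_add_cancel z c, add_smul]), add_sub_cancel_right] at hk
    rcases eq_or_ne (z - c) 0 with h2 | h2
    · rw [h2, zero_smul, LinearMap.ker_zero, finrank_top, finrank_tensorProduct] at hk
      omega
    · rw [LinearMap.ker_smul _ _ h2, End.one_eq_id, LinearMap.ker_id, finrank_bot] at hk
      omega) c

end Ten

section Data

variable {F U W : Type*} [Field F] [AddCommGroup U] [Module F U] [AddCommGroup W] [Module F W]
  [FiniteDimensional F U] [FiniteDimensional F W] {α : End F U} {β : End F W}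
  {L : Type*} [Field L] [Algebra F L] {s : Multiset (Lˣ × ℕ)}

omit [FiniteDimensional F W] in
theorem HasJ.rTensor (h : HasJ L α s) (b : ℕ) : HasJ L (α.rTensor (Fin b → F)) (b • s) :=
  (hasJ_piMap_const h b).of_sim ⟨piScalarRight F F U (Fin b), fun v => by
    induction v with
    | zero => simp only [map_zero]
    | tmul x y => ext; simp
    | add x y hx hy => simp only [map_add, hx, hy]⟩

omit [FiniteDimensional F U] in
theorem HasJ.lTensor (h : HasJ L β s) (a : ℕ) : HasJ L (β.lTensor (Fin a → F)) (a • s) :=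
  (h.rTensor a).of_sim sim_tenMap_comm

variable [Fintype F] [IsAlgClosed L] [Algebra.IsAlgebraic F L] {p : ℕ} [Fact p.Prime] [CharP F p]

omit [FiniteDimensional F W] in
theorem HasJ.pElt (h : HasJ L α s) {r : ℕ} {z : F} (h1 : α ^ r = z • 1) (h2 : ∀ z : F, α ≠ z • 1) :
    PElt p (Fintype.card F : ℤ) (finrank F U) r s := by
  obtain ⟨g, h3, rfl⟩ := h.exists_gl (Fin (finrank F U)) (Fintype.card_fin _)
  refine (pElt_ujord_iff L g h.adm).mpr ⟨⟨z, ?_⟩, fun c hc => h2 c ?_⟩
  · rw [Units.val_pow_eq_pow_val, ← toLin'_pow_eq_smul_iff, sim_pow_eq_smul_iff h3, h1]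
  · rw [← pow_one α, ← sim_pow_eq_smul_iff h3, toLin'_pow_eq_smul_iff, pow_one, hc]

omit [Fintype F] [Algebra.IsAlgebraic F L] in
theorem exists_ten_ujord_iff {ι : Type} [Fintype ι] [DecidableEq ι] [Nonempty ι] {a b : ℕ}
    (e : ι ≃ Fin a × Fin b) (P : GL ι F) :
    (∃ h ∈ Geo.tensorProductSubgroup a b e P, ujord L h = s) ↔
      ∃ (α : End F (Fin a → F)) (β : End F (Fin b → F)), HasJ L (TensorProduct.map α β) s := by
  simp only [H27.mem_tensorProductSubgroup_iff]
  refine ⟨fun ⟨g, ⟨α, β, h1⟩, h2⟩ => ⟨α, β, h2 ▸ (hasJ_ujord L g).of_sim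
    ⟨tenFrame e P, fun v => (h1 v).symm⟩⟩, fun ⟨α, β, h⟩ => ?_⟩
  have h1 := h.conj (tenFrame e P)
  obtain ⟨g, hg⟩ := exists_gl_toLin' h1.isUnit
  exact ⟨g, ⟨α, β, fun v => by simpa using LinearMap.congr_fun hg (tenFrame e P v)⟩,
    (hg ▸ h1).ujord_eq⟩

end Data

section Form

variable {F U W : Type*} [Field F] [AddCommGroup U] [Module F U] [AddCommGroup W] [Module F W]
  {α : End F U} {β : End F W} {A : LinearMap.BilinForm F U} {B : LinearMap.BilinForm F W}
  {ε ε' : F}

theorem pres_tenMap (hα : Pres A α) (hβ : Pres B β) : Pres (tB A B) (TensorProduct.map α β) :=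
  fun u v => by
    rw [← LinearMap.rTensor_comp_lTensor, LinearMap.comp_apply, LinearMap.comp_apply,
      H27.tB_iso_rTensor hα, H27.tB_iso_lTensor hβ]

/-- An isometry `α ⊗ β` of odd order `r` is a tensor product of isometries of order `r`. -/
theorem exists_pres_of_tenMap [Nontrivial U] [Nontrivial W] (hA : IsEForm ε A) (hB : IsEForm ε' B)
    (h : Pres (tB A B) (TensorProduct.map α β)) {r : ℕ} (hr : Odd r)
    (h1 : TensorProduct.map α β ^ r = 1) : ∃ (α' : End F U) (β' : End F W), Pres A α' ∧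
      Pres B β' ∧ α' ^ r = 1 ∧ β' ^ r = 1 ∧ TensorProduct.map α' β' = TensorProduct.map α β := by
  obtain ⟨k, rfl⟩ := hr
  obtain ⟨l, h2, h3, h4⟩ := exists_smul_of_tenMap (α := α ^ (2 * k + 1)) (β := β ^ (2 * k + 1))
    one_ne_zero (by rw [← TensorProduct.map_pow, h1, one_smul])
  obtain ⟨u, hu⟩ := exists_ne (0 : U)
  obtain ⟨w, hw⟩ := exists_ne (0 : W)
  obtain ⟨u', h5⟩ := H27.exists_apply_eq_one hA.nondegenerate hu
  obtain ⟨w', h6⟩ := H27.exists_apply_eq_one hB.nondegenerate hw
  have h7 : ∀ x y v v', A (α x) (α y) * B (β v) (β v') = A x y * B v v' := fun x y v v' => by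
    simpa using h (x ⊗ₜ v) (y ⊗ₜ v')
  set m := A (α u) (α u')
  have h8 : m * B (β w) (β w') = 1 := by rw [h7, h5, h6, one_mul]
  have h9 : ∀ x y, A (α x) (α y) = m * A x y := fun x y => by
    have := h7 x y w w'
    rw [h6] at this
    linear_combination m * this - A (α x) (α y) * h8
  have h10 : ∀ j x y, A ((α ^ j) x) ((α ^ j) y) = m ^ j * A x y := fun j => by
    induction j with
    | zero => simp
    | succ j ih => intro x y; rw [pow_succ', End.mul_apply, End.mul_apply, h9, ih]; ring
  have h11 : l * l = m ^ (2 * k + 1) := by simpa [h3, h5] using h10 (2 * k + 1) u u'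
  have h12 := left_ne_zero_of_mul_eq_one h8
  refine ⟨(m ^ k / l) • α, (l / m ^ k) • β, fun x y => ?_, fun x y => ?_, ?_, ?_, ?_⟩
  · simp only [LinearMap.smul_apply, map_smul, smul_eq_mul, h9]
    field_simp
    linear_combination -A x y * h11
  · have := h7 u u' x y
    simp only [LinearMap.smul_apply, map_smul, smul_eq_mul]
    field_simp
    rw [h5] at this
    linear_combination B (β x) (β y) * h11 + m ^ (2 * k) * this
  · rw [smul_pow, h3, smul_smul, div_pow, ← pow_mul, mul_comm k, pow_mul, ← h11]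
    convert one_smul F (1 : End F U)
    field_simp
    ring
  · rw [smul_pow, div_pow, ← pow_mul, mul_comm k, pow_mul, ← h11]
    refine (congrArg (· • _) ?_).trans (h4.trans (one_smul _ _))
    field_simp
    ring
  · rw [TensorProduct.map_smul_left, TensorProduct.map_smul_right, smul_smul,
      div_mul_div_cancel₀ h2, div_self (pow_ne_zero _ h12), one_smul]

variable [FiniteDimensional F W]

theorem sym_exists_nd_le (hB : IsEForm 1 B) (h2 : (2 : F) ≠ 0) {C : Submodule F W}
    (hC : NondegOn B C) {m : ℕ} (hm : m ≤ finrank F C) :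
    ∃ E ≤ C, NondegOn B E ∧ finrank F E = m := by
  induction m generalizing C with
  | zero => exact ⟨⊥, bot_le, fun x hx _ => hx, by simp⟩
  | succ k ih =>
    obtain ⟨v, h1, h3⟩ : ∃ v ∈ C, B v v ≠ 0 := by
      by_contra! h
      obtain rfl : C = ⊥ := (Submodule.eq_bot_iff C).mpr fun x hx => hC x hx fun y hy =>
        (mul_eq_zero.mp (by
          have := h _ (C.add_mem hx hy)
          simp only [map_add, LinearMap.add_apply, h x hx, h y hy, hB.symm x y] at this
          simpa [two_mul] using this)).resolve_left h2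
      simp at hm
    have h4 : NondegOn B (F ∙ v) := fun x hx h => by
      obtain ⟨a, rfl⟩ := Submodule.mem_span_singleton.mp hx
      simp [show a = 0 by simpa [h3] using h v (Submodule.mem_span_singleton_self v)]
    have h5 := (Submodule.span_singleton_le_iff_mem v C).mpr h1
    have h6 := ef_finrank_inf_perp hB h4 h5
    rw [finrank_span_singleton (by rintro rfl; simp at h3)] at h6
    obtain ⟨E, h7, h8, h9⟩ := ih (ef_nondegOn_inf_perp hB h4 hC h5) (by omega)
    have h10 : E ≤ perp B (F ∙ v) := h7.trans inf_le_right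
    exact ⟨(F ∙ v) ⊔ E, sup_le h5 (h7.trans inf_le_left), ef_nondegOn_sup hB h4 h8 h10, by
      rw [finrank_sup_of_perp hB h4 le_rfl h10, finrank_span_singleton (by rintro rfl; simp at h3)]
      omega⟩

variable [Fintype F] {p r : ℕ} [Fact p.Prime] [CharP F p] [Fact r.Prime]

theorem finrank_fixK_add_cOf_le (hB : IsEForm ε B) (hβ : Pres B β) (hrp : r ≠ p) (hr2 : r ≠ 2)
    (h : β ^ r = 1) (h1 : β ≠ 1) :
    finrank F (fixK β) + cOf (orderOf (Fintype.card F : ZMod r)) ≤ finrank F W := by
  obtain ⟨a, a', -, h2⟩ := exists_freeStr_prime hB hβ hrp hr2 h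
  have h3 := (h2.ne_one_iff hB (orderOf_zmod_pos (natCast_card_ne_zero' hrp))).mp h1
  rw [← h2.add_eq hB]
  exact Nat.add_le_add_left (Nat.le_mul_of_pos_right _ h3) _

/-- No isometry `α ⊗ β` of odd prime order `r ≠ p` moves only a single block. -/
theorem finrank_fixK_tenMap_lt [FiniteDimensional F U] (hA : IsEForm ε A) (hB : IsEForm ε' B)
    (hU : 2 ≤ finrank F U) (hW : 3 ≤ finrank F W) (h : Pres (tB A B) (TensorProduct.map α β))
    (hrp : r ≠ p) (hr2 : r ≠ 2) (h1 : TensorProduct.map α β ^ r = 1)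
    (h2 : TensorProduct.map α β ≠ 1) : finrank F (fixK (TensorProduct.map α β)) +
      cOf (orderOf (Fintype.card F : ZMod r)) < finrank F U * finrank F W := by
  have hr := (Fact.out : r.Prime).odd_of_ne_two hr2
  have := nontrivial_of_finrank_pos (R := F) (M := U) (by omega)
  have := nontrivial_of_finrank_pos (R := F) (M := W) (by omega)
  obtain ⟨α, β, h3, h4, h5, h6, h7⟩ := exists_pres_of_tenMap hA hB h hr h1
  rw [← h7] at h2 ⊢
  have h8 := cOf_pos (orderOf_zmod_pos (natCast_card_ne_zero' (F := F) hrp))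
  rcases eq_or_ne α 1 with rfl | h9
  · have h9 := finrank_fixK_add_cOf_le hB h4 hrp hr2 h6 (by rintro rfl; simp at h2)
    have h10 := finrank_ker_lTensor (U := U) β 1
    rw [one_smul, one_smul] at h10
    rw [show TensorProduct.map 1 β = β.lTensor U from rfl, h10]
    nlinarith
  have h10 := finrank_fixK_add_cOf_le hA h3 hrp hr2 h5 h9
  rcases eq_or_ne β 1 with rfl | h11
  · have h11 := finrank_ker_rTensor (W := W) α 1
    rw [one_smul, one_smul] at h11
    rw [show TensorProduct.map α 1 = α.rTensor W from rfl, h11]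
    nlinarith
  have h12 := finrank_fixK_add_cOf_le hB h4 hrp hr2 h6 h11
  have h13 := finrank_ker_tenMap_lt (hA.sep.isUnit_of_pres h3)
    (ne_smul_of_pow_odd hA h3 hr h5 (by omega)) (hB.sep.isUnit_of_pres h4)
    (ne_smul_of_pow_odd hB h4 hr h6 (by omega)) hW 1
  rw [one_smul] at h13
  exact lt_of_le_of_lt (Nat.add_le_add_left (by omega) _) h13

end Form

end Cfsg.Agent.H77
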