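import Cfsg.Agent.H77.SgDefs

/-!
Overgroups of the norm-one torus of `GL_n(q)`: the statements for all primes `n ≥ 7`.
-/

set_option autoImplicit false

namespace Cfsg.Agent.H77.Sg

open Cfsg Module

universe u v w

/-- The standing hypotheses without the numerical estimates. -/
structure C0 {F : Type u} {K : Type v} [Field F] [Field K] [Algebra F K] (n q t R : ℕ)
    (X : Subgroup (K ≃ₗ[F] K)) : Prop where
  hq : Nat.card F = q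
  hn : finrank F K = n
  pn : n.Prime
  n7 : 7 ≤ n
  card : Nat.card K = R * (q - 1) * t + 1
  hR : (R = 1 ∧ n.Coprime (q - 1)) ∨ (R = n ∧ n ∣ q - 1)
  cop : t.Coprime (q - 1)
  copn : t.Coprime n
  big : (R * n) ^ 2 + 1 < t
  mem : ∀ a : Kˣ, mulH F K a ∈ X ↔ ∃ (c : F) (s : Kˣ), s ^ t = 1 ∧ (a : K) = c • (s : K)
  ker : ∀ a : Kˣ, Algebra.norm F (a : K) = 1 →
    ∃ (c : F) (s : Kˣ), c ^ n = 1 ∧ s ^ t = 1 ∧ (a : K) = c • (s : K)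
  frob : ∃ φ ∈ X, ∀ x, φ x = x ^ q

def Block0 : Prop := ∀ (F : Type u) (K : Type v) [Field F] [Field K] [Algebra F K] [Finite F]
  [Finite K] (n q t R : ℕ) (X : Subgroup (K ≃ₗ[F] K)), C0 n q t R X → Tr X →
    ∀ Δ : K → K → Prop, (∀ x y, Δ x y → x ≠ 0 ∧ y ≠ 0) → (∀ x y, Δ x y → Δ y x) →
    (∀ x y z, Δ x y → Δ y z → Δ x z) → (∀ g ∈ X, ∀ x y, Δ x y → Δ (g x) (g y)) →
    (∀ (x : K) (c : F), x ≠ 0 → c ≠ 0 → Δ x (c • x)) →
    (∀ (x : K) (s : Kˣ), s ^ t = 1 → Δ x (s * x) → s = 1) →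
    (∃ x y, Δ x y ∧ y ∉ F ∙ x) → ∀ g ∈ X, Nm g

def Str0 : Prop := ∀ (F : Type u) (K : Type v) [Field F] [Field K] [Algebra F K] [Finite F]
  [Finite K] (n q t R : ℕ) (X : Subgroup (K ≃ₗ[F] K)), C0 n q t R X → (∃ g ∈ X, ¬ Nm g) →
    Tr (SS X t)

def Uc0 : Prop := ∀ (F : Type u) (K : Type v) [Field F] [Field K] [Algebra F K] [Finite F]
  [Finite K] (n q t R : ℕ) (X : Subgroup (K ≃ₗ[F] K)), C0 n q t R X →
    t.Coprime ((Pt F K t).relIndex X) ∧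
    ∀ Y : Subgroup (K ≃ₗ[F] K), Pt F K t ≤ Y → Y ≤ X → ∃ U : H12.UC Y,
      U.P = (Pt F K t).subgroupOf Y ∧ U.C = (mulH F K).range.subgroupOf Y ∧
      (∀ g : Y, g ∈ U.N ↔ Nm (g : K ≃ₗ[F] K)) ∧ U.e ≤ n ∧
      ∀ c : U.C, U.τ c = 1 ↔ ∃ a : F, ∀ x, ((c : Y) : K ≃ₗ[F] K) x = a • x

def E10 : Prop := ∀ (F : Type u) (K : Type v) [Field F] [Field K] [Algebra F K] [Finite F]
  [Finite K] (n q t R : ℕ) (X : Subgroup (K ≃ₗ[F] K)), C0 n q t R X → (∃ g ∈ X, ¬ Nm g) →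
    ∃ j ∈ SS X t, Nm j ∧ j ∉ (mulH F K).range

def Small0 : Prop := ∀ (F : Type u) (K : Type v) [Field F] [Field K] [Algebra F K] [Finite F]
  [Finite K] (n q t R : ℕ) (X : Subgroup (K ≃ₗ[F] K)), C0 n q t R X → (∃ g ∈ X, ¬ Nm g) →
    ∀ ψ : X → ℂ, IsIrrCharacter X ψ → ¬ (Pt F K t).subgroupOf X ≤ H11.charKer ψ →
      R * n < charDegree ψ

/-- Exceptional characters do not occur in a small character vanishing off the kernel of `τ`. -/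
def Exc0 : Prop := ∀ (G : Type w) [Group G] [Fintype G] (U : H12.UC G) (π χ : G → ℂ),
  IsCharacter G π → (∀ c : U.C, U.τ c ≠ 1 → π c = 0) →
    (∀ ψ, IsIrrCharacter G ψ → ¬ U.P ≤ H11.charKer ψ →
      charDegree π * U.e < charDegree ψ * (Nat.card U.P - 1)) →
    IsIrrCharacter G χ → classInner π χ ≠ 0 →
    ∀ x ∈ U.P, ∀ y ∈ U.P, x ≠ 1 → y ≠ 1 → χ x = χ y

/-- The part of a character lying over one character of a central subgroup. -/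
def Part0 : Prop := ∀ (G : Type w) [Group G] [Fintype G] (Z : Subgroup G) (π χ : G → ℂ),
  Z ≤ Subgroup.center G → IsCharacter G π → (∀ z ∈ Z, z ≠ 1 → π z = 0) → IsIrrCharacter G χ →
    classInner π χ ≠ 0 → ∃ π' : G → ℂ, IsCharacter G π' ∧ classInner π' χ ≠ 0 ∧
      charDegree π' * Nat.card Z = charDegree π ∧ ∀ g, (∀ z ∈ Z, π (z * g) = 0) → π' g = 0

/-- The consequences of the character theory for invariant relations on vectors and points. -/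
structure Cn0 {F : Type u} {K : Type v} [Field F] [Field K] [Algebra F K] (q t R : ℕ)
    (X : Subgroup (K ≃ₗ[F] K)) : Prop extends Cnt q t R X where
  ineqP : ∀ Γ : K → K → Prop, (∀ g ∈ X, ∀ x y, Γ x y → Γ (g x) (g y)) →
    (∀ (x y : K) (d : F), d ≠ 0 → Γ x y → Γ x (d • y)) → (∀ x y, Γ x y → y ∉ F ∙ x) →
    ∀ k β : ℕ, (∀ x, x ≠ 0 → {y | Γ x y}.ncard = (q - 1) * k) → ∀ s : Kˣ, s ^ t = 1 → s ≠ 1 →
      {x | x ≠ 0 ∧ Γ x (s * x)}.ncard = (q - 1) * (β * t) →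
      ((β : ℤ) * (t - 1) - k) ^ 2 ≤ (R : ℤ) ^ 3 * k

/-- The vector part. -/
def CntV0 : Prop := ∀ (F : Type u) (K : Type v) [Field F] [Field K] [Algebra F K] [Finite F]
  [Finite K] (n q t R : ℕ) (X : Subgroup (K ≃ₗ[F] K)), C0 n q t R X → (∃ g ∈ X, ¬ Nm g) →
    Cnt q t R X

/-- The vector part and the point part. -/
def Cnt0 : Prop := ∀ (F : Type u) (K : Type v) [Field F] [Field K] [Algebra F K] [Finite F]
  [Finite K] (n q t R : ℕ) (X : Subgroup (K ≃ₗ[F] K)), C0 n q t R X → (∃ g ∈ X, ¬ Nm g) →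
    Cn0 q t R X

/-- Every pair of distinct points is conjugate to a pair `(z, s z)`. -/
def NuP {F : Type u} {K : Type v} [Field F] [Field K] [Algebra F K] (t : ℕ)
    (X : Subgroup (K ≃ₗ[F] K)) : Prop :=
  ∀ x y : K, x ≠ 0 → y ∉ F ∙ x → ∃ s : Kˣ, s ^ t = 1 ∧ s ≠ 1 ∧
    ∃ (z : K) (d : F), z ≠ 0 ∧ d ≠ 0 ∧ ∃ g ∈ X, g x = z ∧ d • g y = s * z

def NuP0 : Prop := ∀ (F : Type u) (K : Type v) [Field F] [Field K] [Algebra F K] [Finite F]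
  [Finite K] (n q t R : ℕ) (X : Subgroup (K ≃ₗ[F] K)), C0 n q t R X → (∃ g ∈ X, ¬ Nm g) →
    Cn0 q t R X → 2 * R ^ 6 + 1 < t → NuP t X

/-- The case `n = 7`, `q = 8`. -/
def NuP8 : Prop := ∀ (F : Type u) (K : Type v) [Field F] [Field K] [Algebra F K] [Finite F]
  [Finite K] (X : Subgroup (K ≃ₗ[F] K)), C0 7 8 42799 7 X → (∃ g ∈ X, ¬ Nm g) →
    Cn0 8 42799 7 X → NuP 42799 X

def NuV0 : Prop := ∀ (F : Type u) (K : Type v) [Field F] [Field K] [Algebra F K] [Finite F]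
  [Finite K] (n q t R : ℕ) (X : Subgroup (K ≃ₗ[F] K)), C0 n q t R X → Cnt q t R X → NuP t X →
    2 * (R * (q - 1)) ^ 3 < (q - 1) * (t - 1) → Nu t X

def Lines0 : Prop := ∀ (F : Type u) (K : Type v) [Field F] [Field K] [Algebra F K] [Finite F]
  [Finite K] (n q t : ℕ) (X : Subgroup (K ≃ₗ[F] K)), C0 n q t n X → Cnt q t n X → Nu t X →
    ∀ x y x' y' : K, x ≠ 0 → y ∉ F ∙ x → x' ≠ 0 → y' ∉ F ∙ x' →
      ∃ g ∈ X, g x ∈ Submodule.span F {x', y'} ∧ g y ∈ Submodule.span F {x', y'}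

def Fin0 : Prop := ∀ (F : Type u) (K : Type v) [Field F] [Field K] [Algebra F K] [Finite F]
  [Finite K] (n q t R : ℕ) (X : Subgroup (K ≃ₗ[F] K)), C0 n q t R X → Cnt q t R X → Nu t X →
    (Odd q → 2 * (R * (q - 1)) ^ 4 * t < ((q - 1) * (t - 1)) ^ 2) → Two X

def Ct0 : Prop := ∀ (F : Type u) (K : Type v) [Field F] [Field K] [Algebra F K] [Finite F]
  [Finite K] (M X : Subgroup (K ≃ₗ[F] K)), (finrank F K).Prime → 7 ≤ finrank F K →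
    (∀ g ∈ M, LinearMap.det (g : K →ₗ[F] K) = 1) →
    (∀ g : K ≃ₗ[F] K, LinearMap.det (g : K →ₗ[F] K) = 1 → Nm g → g ∈ M) →
    (∀ g, g ∈ X ↔ ∃ m ∈ M, ∃ c : F, c ≠ 0 ∧ ∀ x, g x = c • m x) →
    ∃ t R, C0 (finrank F K) (Nat.card F) t R X ∧
      (2 * R ^ 6 + 1 < t ∨ (finrank F K = 7 ∧ Nat.card F = 8 ∧ t = 42799 ∧ R = 7)) ∧
      2 * (R * (Nat.card F - 1)) ^ 3 < (Nat.card F - 1) * (t - 1) ∧
      (Odd (Nat.card F) →
        2 * (R * (Nat.card F - 1)) ^ 4 * t < ((Nat.card F - 1) * (t - 1)) ^ 2)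

/-- Assembly of part one. -/
theorem two_of (ct : Ct0.{u, v}) (cnt : Cnt0.{u, v}) (nuP : NuP0.{u, v}) (nu8 : NuP8.{u, v})
    (nuV : NuV0.{u, v}) (fin : Fin0.{u, v}) {F : Type u} {K : Type v} [Field F] [Field K]
    [Algebra F K] [Finite F] [Finite K] (M X : Subgroup (K ≃ₗ[F] K)) (hp : (finrank F K).Prime)
    (h7 : 7 ≤ finrank F K) (hM : ∀ g ∈ M, LinearMap.det (g : K →ₗ[F] K) = 1)
    (hN : ∀ g : K ≃ₗ[F] K, LinearMap.det (g : K →ₗ[F] K) = 1 → Nm g → g ∈ M)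
    (hX : ∀ g, g ∈ X ↔ ∃ m ∈ M, ∃ c : F, c ≠ 0 ∧ ∀ x, g x = c • m x) (h : ∃ g ∈ X, ¬ Nm g) :
    Two X := by
  obtain ⟨t, R, c, b1, b2, b3⟩ := ct F K M X hp h7 hM hN hX
  have c' := cnt F K _ _ _ _ X c h
  refine fin F K _ _ _ _ X c c'.toCnt (nuV F K _ _ _ _ X c c'.toCnt ?_ b2) b3
  rcases b1 with b1 | ⟨e1, e2, rfl, rfl⟩
  · exact nuP F K _ _ _ _ X c h c' b1
  · rw [e1, e2] at c
    rw [e2] at c'
    exact nu8 F K X c h c'

end Cfsg.Agent.H77.Sg
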