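import Cfsg.Agent.H77.ElusSim
import Cfsg.Agent.H27.AltExt
import Mathlib.FieldTheory.Galois.NormalBasis

/-!
# Semilinear maps over an extension field
-/

set_option autoImplicit false

namespace Cfsg.Agent.H77

open Module Polynomial Cfsg.Agent.H76
open Matrix (SpecialLinearGroup GeneralLinearGroup)
open scoped Matrix

section Semi

variable {F K V : Type*} [Field F] [Field K] [Algebra F K] [AddCommGroup V] [Module F V]
  [Module K V] {f g : End F V}

variable (K) in
/-- `f` is `K`-semilinear. -/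
def Semi (f : End F V) : Prop := ∀ a : K, ∃ b : K, ∀ v, f (a • v) = b • f v

variable (K) in
/-- `f` is `K`-linear. -/
def KLin (f : End F V) : Prop := ∀ (a : K) v, f (a • v) = a • f v

omit [Algebra F K] in
theorem KLin.semi (h : KLin K f) : Semi K f := fun a => ⟨a, h a⟩

omit [Algebra F K] in
/-- A `K`-linear map, bundled. -/
def KLin.toEnd (h : KLin K f) : End K V := ⟨⟨f, f.map_add⟩, h⟩

omit [Algebra F K] in
theorem KLin.toEnd_pow_apply (h : KLin K f) (k : ℕ) (v : V) : (h.toEnd ^ k) v = (f ^ k) v := by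
  rw [End.pow_apply, End.pow_apply]
  rfl

variable [IsScalarTower F K V]

theorem kLin_restrictScalars (g : End K V) : KLin K (g.restrictScalars F : End F V) := g.map_smul

theorem restrictScalars_pow (g : End K V) (k : ℕ) :
    (g.restrictScalars F : End F V) ^ k = (g ^ k).restrictScalars F := by
  ext v
  rw [LinearMap.restrictScalars_apply, End.pow_apply, End.pow_apply]
  rfl

theorem Semi.smul (h : Semi K f) (c : F) : Semi K (c • f) := fun a =>
  let ⟨b, hb⟩ := h a
  ⟨b, fun v => by rw [LinearMap.smul_apply, LinearMap.smul_apply, hb, smul_comm]⟩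

theorem KLin.smul (h : KLin K f) (c : F) : KLin K (c • f) := fun a v => by
  rw [LinearMap.smul_apply, LinearMap.smul_apply, h, smul_comm]

theorem KLin.ker_eq (h : KLin K f) (c : F) : LinearMap.ker (f - c • 1) =
    (LinearMap.ker (h.toEnd - algebraMap F K c • 1)).restrictScalars F := by
  ext v
  simp only [Submodule.restrictScalars_mem, LinearMap.mem_ker, LinearMap.sub_apply,
    LinearMap.smul_apply, algebraMap_smul]
  rfl

theorem finrank_restrictScalars' (W : Submodule K V) :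
    finrank F (W.restrictScalars F) = finrank F K * finrank K W :=
  (finrank_mul_finrank F K W).symm

theorem KLin.dvd_finrank_ker (h : KLin K f) (c : F) :
    finrank F K ∣ finrank F (LinearMap.ker (f - c • 1)) := by
  rw [h.ker_eq, finrank_restrictScalars']
  exact dvd_mul_right _ _

variable [FiniteDimensional F V]

theorem Semi.two_mul_le (h : Semi K f) (h' : ¬ KLin K f) (hu : IsUnit f) (c : F) :
    2 * finrank F (LinearMap.ker (f - c • 1)) ≤ finrank F V := by
  obtain ⟨a, v, ha⟩ : ∃ a v, f (a • v) ≠ a • f v := by simpa [KLin] using h'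
  obtain ⟨b, hb⟩ := h a
  have h1 : b - a ≠ 0 := sub_ne_zero.mpr fun h => ha (by rw [hb, h])
  have h2 : a ≠ 0 := by rintro rfl; simp at ha
  have h3 := Submodule.finrank_add_finrank_le_of_disjoint
    (s := LinearMap.ker (f - c • 1))
    (t := (LinearMap.ker (f - c • 1)).map ((LinearEquiv.smulOfNeZero K V a h2).restrictScalars F :
      V →ₗ[F] V)) (Submodule.disjoint_def.mpr ?_)
  · rwa [LinearEquiv.finrank_map_eq, ← two_mul] at h3
  rintro _ h4 ⟨w, h5, rfl⟩
  change (f - c • 1) (a • w) = 0 at h4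
  change (f - c • 1) w = 0 at h5
  rw [LinearMap.sub_apply, sub_eq_zero, LinearMap.smul_apply, End.one_apply] at h4 h5
  rw [hb, smul_comm, ← h5, ← sub_eq_zero, ← sub_smul, smul_eq_zero, or_iff_right h1,
    map_eq_zero_iff _ ((End.isUnit_iff _).mp hu).1] at h4
  rw [h4, map_zero]

theorem Semi.dvd_or_le (h : Semi K f) (hu : IsUnit f) (c : F) :
    finrank F K ∣ finrank F (LinearMap.ker (f - c • 1)) ∨
      2 * finrank F (LinearMap.ker (f - c • 1)) ≤ finrank F V :=
  (em _).imp (fun h' => KLin.dvd_finrank_ker h' c) fun h' => h.two_mul_le h' hu c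

omit [FiniteDimensional F V] in
theorem Semi.exists_algHom [Nontrivial V] (h : Semi K f) (hu : IsUnit f) :
    ∃ σ : K →ₐ[F] K, ∀ a v, f (a • v) = σ a • f v := by
  choose s hs using h
  obtain ⟨v, hv⟩ := exists_ne (0 : V)
  have h1 : ∀ a b : K, a • f v = b • f v → a = b := fun a b h =>
    smul_left_injective K ((map_ne_zero_iff _ ((End.isUnit_iff _).mp hu).1).mpr hv) h
  exact ⟨{
    toFun := s
    map_one' := h1 _ _ (by rw [← hs, one_smul, one_smul])
    map_mul' := fun a b => h1 _ _ (by rw [← hs, mul_smul, hs, hs, mul_smul])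
    map_zero' := h1 _ _ (by rw [← hs, zero_smul, zero_smul, map_zero])
    map_add' := fun a b => h1 _ _ (by rw [← hs, add_smul, map_add, hs, hs, add_smul])
    commutes' := fun c => h1 _ _ (by rw [← hs, algebraMap_smul, algebraMap_smul, map_smul]) }, hs⟩

omit [FiniteDimensional F V] in
theorem Semi.kLin_of_pow [Finite K] (h : Semi K f) (hu : IsUnit f) {r : ℕ} {z : F}
    (hr : f ^ r = z • 1) (hk : r.Coprime (finrank F K)) : KLin K f := by
  rcases subsingleton_or_nontrivial V with _ | _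
  · exact fun _ _ => Subsingleton.elim _ _
  have := Finite.of_injective _ (algebraMap F K).injective
  have := Fintype.ofFinite F
  obtain ⟨σ, hσ⟩ := h.exists_algHom hu
  have h1 : ∀ (i : ℕ) a v, (f ^ i) (a • v) = (σ ^ i) a • (f ^ i) v := fun i => by
    induction i with
    | zero => simp
    | succ i ih => intro a v; rw [pow_succ', pow_succ', End.mul_apply, ih, hσ]; rfl
  obtain ⟨v, hv⟩ := exists_ne (0 : V)
  have h2 : σ ^ r = 1 := AlgHom.ext fun a => smul_left_injective K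
    ((map_ne_zero_iff _ ((End.isUnit_iff _).mp (hu.pow r)).1).mpr hv) (by
      beta_reduce
      rw [← h1, hr, LinearMap.smul_apply, LinearMap.smul_apply, smul_comm]; rfl)
  obtain ⟨i, rfl⟩ := (FiniteField.bijective_frobeniusAlgHom_pow F K).2 σ
  beta_reduce at h2 hσ
  rw [← pow_mul, ← orderOf_dvd_iff_pow_eq_one, FiniteField.orderOf_frobeniusAlgHom] at h2
  rw [Nat.eq_zero_of_dvd_of_lt (hk.symm.dvd_of_dvd_mul_right h2) i.2] at hσ
  exact hσ

omit [FiniteDimensional F V] in
/-- Coordinatewise application of a field automorphism. -/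
theorem exists_semi_basis {ι : Type*} (b : Basis ι K V) (σ : K →ₐ[F] K) :
    ∃ θ : End F V, (∀ a v, θ (a • v) = σ a • θ v) ∧ ∀ i, θ (b i) = b i := by
  refine ⟨(b.repr.symm.restrictScalars F).toLinearMap ∘ₗ
    Finsupp.mapRange.linearMap σ.toLinearMap ∘ₗ (b.repr.restrictScalars F).toLinearMap,
    fun a v => b.repr.injective ?_, fun i => b.repr.injective ?_⟩ <;> ext j
  · simp
  · simp

end Semi

section Comb

variable {L : Type*} [Field L] {p : ℕ} [hp : Fact p.Prime] [CharP L p] {Q : ℤ} {r n : ℕ}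
  {s : Multiset (Lˣ × ℕ)}

omit [CharP L p] in
theorem PElt.eq_refl (hp2 : 2 ≠ p) (hs : PElt p Q n 2 s) (h : Unif Q 1 n s) :
    ∃ d a, d ^ Q = d ∧ 0 < a ∧ a < n ∧
      s = Multiset.replicate a (-d, 1) + Multiset.replicate (n - a) (d, 1) := by
  classical
  obtain ⟨x, hx, y, hy, h1⟩ := hs.exists_ne hp.out Nat.prime_two hp2
  obtain ⟨a, b, h2⟩ : ∃ a b, s = Multiset.replicate a (-y.1, 1) + Multiset.replicate b (y.1, 1) :=
    ⟨_, _, (Multiset.filter_add_not (fun z : Lˣ × ℕ => ¬ z.1 = y.1) s).symm.trans (congrArg₂ _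
      (Multiset.eq_replicate_card.mpr fun z hz => Prod.ext ((units_eq_or_eq_neg
        (hs.pk.1 z (Multiset.mem_of_mem_filter hz) y hy)).resolve_left (Multiset.mem_filter.mp hz).2)
        (h.one z (Multiset.mem_of_mem_filter hz)))
      (Multiset.eq_replicate_card.mpr fun z hz => Prod.ext (not_not.mp (Multiset.mem_filter.mp hz).2)
        (h.one z (Multiset.mem_of_mem_filter hz))))⟩
  have h3 := h.adm.wt_eq
  have h4 : ∀ c, s ≠ Multiset.replicate n (c, 1) := fun c h => h1 (by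
    rw [h] at hx hy
    rw [Multiset.eq_of_mem_replicate hx, Multiset.eq_of_mem_replicate hy])
  rw [h2, wt_add, wt_replicate, wt_replicate, mul_one, mul_one] at h3
  subst h3
  exact ⟨y.1, a, per_one_iff.mp (h.per y hy), Nat.pos_of_ne_zero fun h => h4 y.1 (by simpa [h] using h2),
    Nat.lt_add_of_pos_right (Nat.pos_of_ne_zero fun h => h4 (-y.1) (by simpa [h] using h2)),
    by rwa [Nat.add_sub_cancel_left]⟩

omit [CharP L p] in
theorem PElt.isO_of_orderOf (hr : r.Prime) (hrp : r ≠ p) (hr2 : r ≠ 2)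
    (hc : orderOf (Q : ZMod r) = r - 1) (hs : PElt p Q r r s) :
    ∃ d, d ^ Q = d ∧ IsO p r (d ^ r) s := by
  have h0 := hr.two_le
  have h1 : ¬ (r : ℤ) ∣ Q - 1 := by rw [dvd_sub_one_iff]; omega
  obtain ⟨d, g, a, h2, h3, h4, h5⟩ := split_of_pk hr hrp h1 hs.adm hs.pk
  have h6 := hs.le_of_not_dvd hp.out hr hrp h1
  rw [hc] at h4 h5 h6
  obtain rfl : a = 1 := by
    rcases a with _ | _ | a
    · omega
    · rfl
    · rw [mul_add, mul_add] at h5; omega
  rw [show nf Q s = 1 by omega, Multiset.replicate_one] at h3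
  obtain ⟨b, O, h7, h8, h9⟩ := h4.eq_nsmul_isO hr.pos hrp (Multiset.nodup_singleton (d, 1))
    (c := d ^ r) (by simpa using fun h => h.ne (by omega) h2) (by simp; omega)
    fun x hx => hs.pk.1 x (h3 ▸ Multiset.mem_add.mpr (Or.inr hx)) (d, 1) (by simp [h3])
  obtain rfl := Nat.eq_of_mul_eq_mul_left (by omega) h7
  rw [one_nsmul, one_nsmul, add_comm, ← h3] at h9
  exact ⟨d, h2, h9 ▸ h8 one_ne_zero⟩

theorem exists_pElt_big [IsAlgClosed L] (hr : r.Prime) (hrp : r ≠ p) (hr2 : r ≠ 2)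
    (hQ : ¬ (r : ℤ) ∣ Q) {c : ℕ} (hc : c = max (orderOf (Q : ZMod r)) 2) (hn : c ≤ n) :
    ∃ o : Multiset (Lˣ × ℕ), PElt p Q n r (o + Multiset.replicate (n - c) (1, 1)) ∧
      ddet (o + Multiset.replicate (n - c) (1, 1)) = 1 ∧ o.Nodup ∧ Multiset.card o = c ∧
      ∀ x ∈ o, x.1 ^ r = 1 ∧ x.1 ≠ 1 := by
  have := Fact.mk hr
  have h0 := hr.two_le
  obtain ⟨o, h1, h2, h3, h4, h5⟩ : ∃ o : Multiset (Lˣ × ℕ), o.Nodup ∧ Adm Q c o ∧
      (∀ x ∈ o, x.2 = 1) ∧ ddet o = 1 ∧ ∀ x ∈ o, x.1 ^ r = 1 ∧ x.1 ≠ 1 := by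
    have h1 : (Q : ZMod r) ≠ 0 := fun h => hQ ((ZMod.intCast_zmod_eq_zero_iff_dvd _ _).mp h)
    by_cases h : (r : ℤ) ∣ Q - 1
    · obtain ⟨o, h1, h2, h3, h4⟩ := exists_nodup_symm (L := L) hr hrp hr2 (j := 1) (by omega)
      exact ⟨o, h1, (adm_of_fst_fixed h2.adm.pos fun x hx => fixed_of_pow_eq h
        ((h4 x hx).1.trans (one_pow r).symm) (one_zpow Q)).cast
          (by rw [h2.adm.wt_eq, hc, dvd_sub_one_iff.mp h]; rfl), h2.one, h3, h4⟩
    · have h2 := orderOf_zmod_lt h1
      have h3 := orderOf_zmod_pos h1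
      obtain ⟨o, h4, h5, h6⟩ := exists_nodup_unif (L := L) hr hrp hQ h (j := 1) (by omega)
      exact ⟨o, h4, h5.adm.cast (by rw [dvd_sub_one_iff] at h; omega), h5.one,
        ddet_eq_one_of_not_dvd hr h h5.adm fun x hx => (h6 x hx).1, h6⟩
  exact ⟨o, exists_pElt_nodup hr hrp h2 h3 h5 h1 (by omega) hn, by simp [h4], h1,
    (wt_eq_card h3).symm.trans h2.wt_eq, h5⟩

end Comb

section Data

variable {F K V : Type*} [Field F] [Fintype F] [Field K] [Algebra F K] [AddCommGroup V]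
  [Module F V] [Module K V] [IsScalarTower F K V] [FiniteDimensional F V] {f : End F V}
  {p : ℕ} [Fact p.Prime] [CharP F p] {L : Type*} [Field L] [Algebra F L] [IsAlgClosed L]
  [Algebra.IsAlgebraic F L] {s : Multiset (Lˣ × ℕ)} {d : Lˣ} {r : ℕ}

omit [Algebra.IsAlgebraic F L] in
theorem HasJ.finrank_ker_eq {m e : ℕ} (h : HasJ L f (s + Multiset.replicate m (d, e)))
    (hs : ∀ x ∈ s, x.1 ≠ d) {c : F} (hc : algebraMap F L c = d) :
    finrank F (LinearMap.ker (f - c • 1)) = m := by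
  classical
  rw [h.finrank_ker h.pos, hc, Multiset.filter_add,
    Multiset.filter_eq_nil.mpr fun x hx h => hs x hx (Units.ext h), Multiset.filter_eq_self.mpr
    fun x hx => by rw [Multiset.eq_of_mem_replicate hx], zero_add, Multiset.card_replicate]

omit [Algebra.IsAlgebraic F L] in
theorem HasJ.finrank_ker_tv {n : ℕ} (h : HasJ L f (udata 1 (2 ::ₘ Multiset.replicate (n - 2) 1)))
    (hn : 2 ≤ n) : finrank F (LinearMap.ker (f - (1 : F) • 1)) = n - 1 := by
  classical
  rw [h.finrank_ker h.pos, Multiset.filter_eq_self.mpr fun x hx => by simp [(mem_udata.mp hx).1],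
    udata]
  simp
  omega

theorem HasJ.dvd_or_le {m e : ℕ} (h : HasJ L f (s + Multiset.replicate m (d, e))) (hf : Semi K f)
    (hs : ∀ x ∈ s, x.1 ≠ d) (hd : d ^ (Fintype.card F : ℤ) = d) :
    finrank F K ∣ m ∨ 2 * m ≤ finrank F V := by
  obtain ⟨c, hc⟩ := exists_algebraMap_eq (F := F) hd
  exact h.finrank_ker_eq hs hc ▸ hf.dvd_or_le h.isUnit c

theorem exists_semi_isO [Finite K] (hr : r.Prime) (hK : finrank F K = r) (hV : finrank F V = r)
    (hd : d ^ (Fintype.card F : ℤ) = d) (hs : IsO p r (d ^ r) s) :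
    ∃ f : End F V, Semi K f ∧ ¬ KLin K f ∧ HasJ L f s := by
  obtain ⟨c, hc⟩ := exists_algebraMap_eq (F := F) hd
  have h0 : c ≠ 0 := by rintro rfl; exact d.ne_zero (by rw [← hc, map_zero])
  have := finite_adjoinRoot (X_pow_sub_C_ne_zero hr.pos (c ^ r))
  have : Module.Finite K V := Module.Finite.of_restrictScalars_finite F K V
  have h1 := finrank_mul_finrank F K V
  rw [hK, hV, Nat.mul_eq_left hr.ne_zero, ← finrank_self K] at h1
  let e := LinearEquiv.ofFinrankEq K V h1.symm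
  let φ := FiniteField.frobeniusAlgHom F K
  have h2 : ∀ (i : ℕ) a, ((c • φ.toLinearMap) ^ i) a = c ^ i • (φ ^ i) a := fun i a => by
    rw [_root_.smul_pow, LinearMap.smul_apply, End.pow_apply, AlgHom.coe_pow]
    rfl
  have h3 := hasJOn_of_orbit (f := c • φ.toLinearMap) (m := X ^ r - C (c ^ r))
    ((aeval_X_pow_sub_C_eq_zero _ _ _).mpr (LinearMap.ext fun a => by
      rw [h2, ← hK, ← FiniteField.orderOf_frobeniusAlgHom, pow_orderOf_eq_one]; rfl))
    (hs.hasJ hr (by simp [hc])) (D := F ∙ IsGalois.normalBasis F K 1) le_top (fun _ _ => trivial)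
    (by
      rw [← (IsGalois.normalBasis F K).span_eq, Submodule.span_le]
      rintro _ ⟨σ, rfl⟩
      obtain ⟨i, rfl⟩ := (FiniteField.bijective_frobeniusAlgEquivOfAlgebraic_pow F K).2 σ
      refine Submodule.mem_iSup_of_mem i.1 ⟨(c ^ i.1)⁻¹ • _, Submodule.smul_mem _ _
        (Submodule.mem_span_singleton_self _), ?_⟩
      rw [map_smul, h2, inv_smul_smul₀ (pow_ne_zero _ h0), IsGalois.normalBasis_apply (_ ^ _),
        AlgHom.coe_pow, AlgEquiv.coe_pow]
      rfl)
    (by rw [finrank_span_singleton ((IsGalois.normalBasis F K).ne_zero 1), finrank_top, hK,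
      natDegree_X_pow_sub_C, mul_one])
  rw [finrank_span_singleton ((IsGalois.normalBasis F K).ne_zero 1), one_nsmul, hasJOn_top] at h3
  have h4 : ∀ a b : K, (e.restrictScalars F).conj (c • φ.toLinearMap) (a • e b) =
      φ a • (e.restrictScalars F).conj (c • φ.toLinearMap) (e b) := fun a b => by
    simpa [LinearEquiv.conj_apply] using
      (congrArg (c • ·) (map_smul e (φ a) (φ b))).trans (smul_comm _ _ _)
  refine ⟨_, fun a => ⟨φ a, e.surjective.forall.mpr (h4 a)⟩, fun h => ?_,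
    h3.conj (e.restrictScalars F)⟩
  have h5 : φ = 1 := AlgHom.ext fun a => smul_left_injective K
    ((map_ne_zero_iff _ ((End.isUnit_iff _).mp (h3.conj (e.restrictScalars F)).isUnit).1).mpr
      ((map_ne_zero_iff _ e.injective).mpr one_ne_zero)) ((h4 a 1).symm.trans (h a _))
  exact hr.ne_one (by rw [← hK, ← FiniteField.orderOf_frobeniusAlgHom, orderOf_eq_one_iff, ← h5])

omit [Algebra.IsAlgebraic F L] in
theorem hasJ_of_isCompl {U W : Submodule K V} (h : IsCompl U W) {c c' : F} {d d' : Lˣ}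
    (hc : (d : L) = algebraMap F L c) (hc' : (d' : L) = algebraMap F L c')
    (h1 : ∀ v ∈ U, f v = c' • v) (h2 : ∀ v ∈ W, f v = c • v) :
    HasJ L f (Multiset.replicate (finrank F K * finrank K U) (d', 1) +
      Multiset.replicate (finrank F V - finrank F K * finrank K U) (d, 1)) := by
  have h3 := (Submodule.isCompl_restrictScalars_iff F).mpr h
  have h4 := (hasJOn_of_smul hc' (W := U.restrictScalars F) h1).add_of_isCompl
    (hasJOn_of_smul hc (W := W.restrictScalars F) h2) h3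
  rwa [Nat.eq_sub_of_add_eq' (Submodule.finrank_add_eq_of_isCompl h3),
    finrank_restrictScalars'] at h4

theorem exists_kLin_refl {d' : Lˣ} (hd : d ^ (Fintype.card F : ℤ) = d)
    (hd' : d' ^ (Fintype.card F : ℤ) = d') {a : ℕ} (ha : a ≤ finrank F V) (hk : finrank F K ∣ a) :
    ∃ f : End F V, KLin K f ∧ HasJ L f (Multiset.replicate a (d', 1) +
      Multiset.replicate (finrank F V - a) (d, 1)) := by
  obtain ⟨c, hc⟩ := exists_algebraMap_eq (F := F) hd
  obtain ⟨c', hc'⟩ := exists_algebraMap_eq (F := F) hd'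
  obtain ⟨a, rfl⟩ := hk
  have : Module.Finite K V := Module.Finite.of_restrictScalars_finite F K V
  rcases Nat.eq_zero_or_pos (finrank F K) with h0 | h0
  · have h1 := (hasJ_one (V := V) (L := L)).smul hc.symm
    rw [twist, Multiset.map_replicate, mul_one] at h1
    exact ⟨_, KLin.smul (f := 1) (fun _ _ => rfl) c, by simpa [h0] using h1⟩
  obtain ⟨U, -, rfl⟩ := exists_le_finrank_eq (⊤ : Submodule K V) (m := a)
    (Nat.le_of_mul_le_mul_left (by rwa [finrank_top, finrank_mul_finrank]) h0)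
  obtain ⟨W, h⟩ := U.exists_isCompl
  exact ⟨_, kLin_restrictScalars (LinearMap.ofIsCompl h (algebraMap F K c' • U.subtype)
    (algebraMap F K c • W.subtype)), hasJ_of_isCompl h hc.symm hc'.symm
      (fun v hv => (LinearMap.ofIsCompl_apply_left h ⟨v, hv⟩).trans (algebraMap_smul K c' v))
      fun v hv => (LinearMap.ofIsCompl_apply_right h ⟨v, hv⟩).trans (algebraMap_smul K c v)⟩

theorem HasJ.eq_of_unif {t : Multiset (Lˣ × ℕ)} (h : HasJ L f t) (hr : r.Prime) (hrp : r ≠ p)
    (hQ : (r : ℤ) ∣ Fintype.card F - 1) {z : F} (hf : f ^ r = z • 1)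
    (hs : Unif (Fintype.card F : ℤ) r (finrank F V) s)
    (hz : ∀ x ∈ s, (x.1 : L) ^ r = algebraMap F L z) : t = s := by
  have : CharP L p := charP_of_injective_algebraMap (algebraMap F L).injective p
  have h1 := (h.pow_eq_smul_iff p r z).mp hf
  rcases s.empty_or_exists_mem with rfl | ⟨y, hy⟩
  · exact eq_zero_of_wt_eq_zero h.pos (h.wt_eq.trans hs.adm.wt_eq.symm)
  have h2 : ∀ x ∈ t, x.1 ^ r = y.1 ^ r := fun x hx => Units.ext ((h1 x hx).1.trans (hz y hy).symm)
  have h3 : PK p t r := ⟨fun x hx y hy => (h2 x hx).trans (h2 y hy).symm, fun x hx => (h1 x hx).2⟩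
  exact Unif.eq_of_pow_eq hr.pos hrp ⟨h.adm, snd_eq_one_of_pk Fact.out hr hrp h.pos h3,
    fun x hx => per_of_dvd hr hQ (pow_fixed_of_pk h.adm h3 hx) fun h4 =>
      (hs.per y hy).ne hr.ne_one (fixed_of_pow_eq hQ (h2 x hx).symm h4)⟩ hs h2
    fun x hx => Units.ext ((hz x hx).trans (hz y hy).symm)

omit [Fact p.Prime] [CharP F p] in
theorem isSquare_algebraMap [Finite K] (hK : finrank F K = 2) (z : F) :
    IsSquare (algebraMap F K z) := by
  have := Fintype.ofFinite K
  by_cases h : ringChar K = 2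
  · exact FiniteField.isSquare_of_char_two h _
  rcases eq_or_ne z 0 with rfl | hz
  · simp
  have h1 := FiniteField.odd_card_of_char_ne_two h
  have h2 := Fintype.card_pos (α := F)
  rw [FiniteField.isSquare_iff h ((_root_.map_ne_zero _).mpr hz)]
  rw [Module.card_eq_pow_finrank (K := F), hK] at h1 ⊢
  obtain ⟨j, hj⟩ := (Nat.odd_pow_iff two_ne_zero).mp (Nat.odd_iff.mpr h1)
  rw [show Fintype.card F ^ 2 / 2 = (Fintype.card F - 1) * (j + 1) by
    rw [hj, show (2 * j + 1) ^ 2 = 1 + 2 * (2 * j * (j + 1)) by ring, Nat.add_sub_cancel]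
    omega, pow_mul, ← map_pow,
    FiniteField.pow_card_sub_one_eq_one z hz, map_one, one_pow]

theorem exists_kLin_unif [Finite K] (hK : finrank F K = 2) (hp2 : 2 ≠ p)
    (hs : Unif (Fintype.card F : ℤ) 2 (finrank F V) s) (h : PK p s 2) :
    ∃ f : End F V, KLin K f ∧ HasJ L f s := by
  rcases s.empty_or_exists_mem with rfl | ⟨y, hy⟩
  · exact ⟨1, fun _ _ => rfl, by simpa [← hs.adm.wt_eq] using hasJ_one (V := V) (L := L) (F := F)⟩
  obtain ⟨z, hz⟩ := exists_algebraMap_eq (F := F) (pow_fixed_of_pk hs.adm h hy)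
  obtain ⟨α, hα⟩ := isSquare_algebraMap hK z
  have h1 : ((α • 1 : End K V).restrictScalars F : End F V) ^ 2 = z • 1 := by
    ext v
    simp [sq, smul_smul, ← hα]
  obtain ⟨t, ht⟩ := exists_hasJ (L := L) ((isUnit_pow_iff two_ne_zero).mp (h1 ▸
    isUnit_one.smul (Units.mk0 z (by rintro rfl; exact (y.1 ^ 2).ne_zero (by rw [← hz, map_zero])))))
  exact ⟨_, kLin_restrictScalars _, ht.eq_of_unif Nat.prime_two hp2
    (even_iff_two_dvd.mp ((odd_card_cast hp2).sub_odd odd_one)) h1 hs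
      (fun x hx => by rw [hz, ← h.1 x hx y hy]; rfl) ▸ ht⟩

end Data

section Geo

universe u

variable {F : Type u} [Field F] [Fintype F] {ι : Type} [Fintype ι] [DecidableEq ι] [Nonempty ι]
  {K : Subalgebra F (Matrix ι ι F)} {k : ℕ}

theorem exists_ext_of_isFieldSubalgebra (hK : Geo.IsFieldSubalgebra k K) :
    ∃ (E : Type u) (_ : Field E) (_ : Finite E) (_ : Algebra F E) (_ : Module E (ι → F))
      (_ : IsScalarTower F E (ι → F)), finrank F E = k ∧
      (∀ a : E, ∃ m ∈ K, ∀ v : ι → F, a • v = m *ᵥ v) ∧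
      (∀ m ∈ K, ∃ a : E, ∀ v : ι → F, a • v = m *ᵥ v) ∧
      ∀ g : GL ι F, g ∈ Geo.subalgebraNormalizer K ↔ Semi E (Matrix.toLin' (g : Matrix ι ι F)) := by
  let _ : Field K := (H27.isField_of_isFieldSubalgebra hK).toField
  let _ := H27.homModule K.val
  refine ⟨K, _, inferInstance, inferInstance, _, H27.homModule_isScalarTower K.val, hK.finrank_eq,
    fun a => ⟨a, a.2, fun _ => rfl⟩, fun a ha => ⟨⟨a, ha⟩, fun _ => rfl⟩, fun g => ?_⟩
  have key : ∀ a b : K, (g : Matrix ι ι F) * a * ((g⁻¹ : GL ι F) : Matrix ι ι F) = b ↔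
      ∀ v, Matrix.toLin' (g : Matrix ι ι F) (a • v) = b • Matrix.toLin' (g : Matrix ι ι F) v :=
    fun a b => by
      rw [Units.mul_inv_eq_iff_eq_mul, Matrix.ext_iff_mulVec]
      simp only [← Matrix.mulVec_mulVec]
      rfl
  refine ⟨fun hg a => ⟨⟨_, (hg a).mp a.2⟩, (key _ _).mp rfl⟩, fun hg a => ?_⟩
  choose σ hσ using fun a => (hg a).imp fun b => (key a b).mpr
  refine ⟨fun ha => (hσ ⟨a, ha⟩).symm ▸ (σ ⟨a, ha⟩).2, fun ha => ?_⟩
  obtain ⟨b, hb⟩ := Finite.injective_iff_surjective.mp (show Function.Injective σ from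
    fun a b h => Subtype.ext ((Units.mul_right_inj g).mp ((Units.mul_left_inj g⁻¹).mp
      ((hσ a).trans (h ▸ (hσ b).symm))))) ⟨_, ha⟩
  exact (Units.mul_right_inj g).mp ((Units.mul_left_inj g⁻¹).mp
    ((hσ b).trans (congrArg Subtype.val hb))) ▸ b.2

theorem exists_ext_ujord (L : Type*) [Field L] [Algebra F L] [IsAlgClosed L]
    (hK : Geo.IsFieldSubalgebra k K) :
    ∃ (E : Type u) (_ : Field E) (_ : Finite E) (_ : Algebra F E) (_ : Module E (ι → F))
      (_ : IsScalarTower F E (ι → F)), finrank F E = k ∧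
      ∀ s, (∃ h ∈ Geo.subalgebraNormalizer K, ujord L h = s) ↔
        ∃ f : End F (ι → F), Semi E f ∧ HasJ L f s := by
  obtain ⟨E, _, _, _, _, _, h1, -, -, h2⟩ := exists_ext_of_isFieldSubalgebra hK
  refine ⟨E, _, ‹_›, _, _, ‹_›, h1, fun s => ⟨?_, ?_⟩⟩
  · rintro ⟨g, hg, rfl⟩
    exact ⟨_, (h2 g).mp hg, hasJ_ujord L g⟩
  · rintro ⟨f, h3, h4⟩
    obtain ⟨g, rfl⟩ := exists_gl_toLin' h4.isUnit
    exact ⟨g, (h2 g).mpr h3, h4.ujord_eq⟩

end Geo

end Cfsg.Agent.H77
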