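import Cfsg.Agent.H26.PC3OGeo

/-!
Orthogonal field extension subgroups of orthogonal groups in odd characteristic when the
dimension over the extension field is three: generation lemmas.
-/

set_option autoImplicit false

namespace Cfsg.Agent.H77

open Module H26 H26.PForm H27

section Field

variable {F K : Type*} [Field F] [Field K] [Algebra F K]

theorem c3_mem_of_sq (hr : (finrank F K).Prime) (h3 : 3 ≤ finrank F K) {c : K} {η : F}
    (h : c * c = algebraMap F K η) : ∃ μ : F, algebraMap F K μ = c := by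
  have : FiniteDimensional F K := Module.finite_of_finrank_pos hr.pos
  refine exists_algebraMap_of_stabilizes hr (D := (F ∙ (1 : K)) ⊔ F ∙ c) (a₀ := 1)
    (Submodule.mem_sup_left (Submodule.mem_span_singleton_self _)) one_ne_zero (fun h1 => ?_)
    fun a ha => ?_
  · have h2 := finrank_sup_span_le (F ∙ (1 : K)) c
    have h4 := finrank_span_singleton_le (F := F) (1 : K)
    rw [h1, finrank_top] at h2
    omega
  · obtain ⟨s, hs, l, rfl⟩ := mem_sup_span.1 ha
    obtain ⟨m, rfl⟩ := Submodule.mem_span_singleton.1 hs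
    refine mem_sup_span.2 ⟨(l * η) • 1, Submodule.smul_mem _ _
      (Submodule.mem_span_singleton_self _), m, ?_⟩
    rw [mul_add, mul_smul_comm, mul_smul_comm, h, mul_one, Algebra.algebraMap_eq_smul_one,
      smul_smul, add_comm]

theorem c3_exists_smul_sq [Finite F] [Finite K] (h2 : (2 : K) ≠ 0) (hr : (finrank F K).Prime)
    (h3 : 3 ≤ finrank F K) (x : K) : ∃ (l : F) (a : K), l ≠ 0 ∧ x = l • (a * a) := by
  classical
  by_cases hx : IsSquare x
  · obtain ⟨a, rfl⟩ := hx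
    exact ⟨1, a, one_ne_zero, (one_smul _ _).symm⟩
  have := Fintype.ofFinite K
  have h2F : (2 : F) ≠ 0 := fun h => h2 (by rw [← map_ofNat (algebraMap F K) 2, h, map_zero])
  obtain ⟨l, hl⟩ := FiniteField.exists_nonsquare (F := F) fun h => h2F (by
    exact_mod_cast (ringChar.spec F 2).2 (h ▸ dvd_rfl))
  have hl0 : l ≠ 0 := by rintro rfl; exact hl IsSquare.zero
  have h4 : ¬ IsSquare (algebraMap F K l) := by
    rintro ⟨c, hc⟩
    obtain ⟨μ, rfl⟩ := c3_mem_of_sq hr h3 hc.symm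
    exact hl ⟨μ, (algebraMap F K).injective (by rw [hc, map_mul])⟩
  have hx0 : x ≠ 0 := by rintro rfl; exact hx IsSquare.zero
  have h5 : quadraticChar K (algebraMap F K l * x) = 1 := by
    rw [map_mul, quadraticChar_neg_one_iff_not_isSquare.2 h4,
      quadraticChar_neg_one_iff_not_isSquare.2 hx]
    norm_num
  obtain ⟨a, ha⟩ := (quadraticChar_one_iff_isSquare
    (mul_ne_zero ((map_ne_zero _).2 hl0) hx0)).1 h5
  refine ⟨l⁻¹, a, inv_ne_zero hl0, ?_⟩
  rw [← ha, ← Algebra.smul_def, smul_smul, inv_mul_cancel₀ hl0, one_smul]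

end Field

variable {F K : Type*} [Field F] [Field K] [Algebra F K] {V : Type*} [AddCommGroup V]
  [Module F V] [Module K V] [IsScalarTower F K V]

/-- The quadratic form `P` over `F` is the trace of the quadratic form `P₁` on a three-dimensional
space over `K`, and `M` is a group of isometries containing the squares of isometries over `K`. -/
structure C3T (P : PForm F V) (P₁ : PForm K V) (lam : K →ₗ[F] F) (M : Subgroup (V ≃ₗ[F] V)) :
    Prop where
  f_tr : ∀ x y, P.f x y = lam (P₁.f x y)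
  h_tr : ∀ x, P.h x = lam (P₁.h x)
  lam_ne : lam ≠ 0
  Λ₀ : P.Λ = ⊥
  Λ₁ : P₁.Λ = ⊥
  d₀ : P.d ≤ 3
  d₁ : P₁.d ≤ 3
  two : (2 : K) ≠ 0
  prime : (finrank F K).Prime
  r3 : 3 ≤ finrank F K
  three : finrank K V = 3
  sq : ∀ g ∈ P₁.isom, resHom F (g * g) ∈ M
  isom : M ≤ P.isom

namespace C3T

variable {P : PForm F V} {P₁ : PForm K V} {lam : K →ₗ[F] F} {M : Subgroup (V ≃ₗ[F] V)}
  (X : C3T P P₁ lam M)
include X

theorem res (e y : V) (ν : K) (h : P₁.EV e y ν) : resHom F h.equiv ∈ M := by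
  have hΛ := X.Λ₁
  have h2K := X.two
  have h7 := h.smul_right 2⁻¹
  have h8 : h.equiv = h7.equiv * h7.equiv := LinearEquiv.ext fun x => by
    rw [mul_apply', EV.equiv_apply, EV.equiv_apply, EV.equiv_apply, h7.eich_eich h7, ← add_smul,
      f_self_Λ hΛ, h_smul_of_Λ hΛ, σ_eq_of_Λ hΛ, ← h.nu_eq hΛ]
    congr 2
    · rw [← two_mul, mul_inv_cancel₀ h2K, one_smul]
    · field_simp
      ring
  rw [h8]
  exact X.sq _ h7.equiv_mem_isom

theorem f_zero {x y : V} (h : P₁.f x y = 0) : P.f x y = 0 := by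
  rw [X.f_tr, h, map_zero]

theorem sing {x : V} (h : P₁.Sing x) : P.Sing x := by
  rw [sing_iff_of_Λ X.Λ₀, X.h_tr, (sing_iff_of_Λ X.Λ₁).1 h, map_zero]

theorem f_smul (x y : V) (a : K) : P.f x (a • y) = lam (a * P₁.f x y) := by
  rw [X.f_tr, f_smul_right_Λ X.Λ₁]

theorem f_smul' (x y : V) (a : K) : P.f (a • x) y = lam (a * P₁.f x y) := by
  rw [X.f_tr, P₁.f_smul_left]

theorem f_smulF (x y : V) (c : F) : P₁.f x (c • y) = c • P₁.f x y := by
  rw [f_comm_of_Λ X.Λ₁, f_smul_F', f_comm_of_Λ X.Λ₁]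

theorem exists_lam_eq {c : K} (hc : c ≠ 0) (η : F) : ∃ a, lam (a * c) = η :=
  exists_map_mul_eq X.lam_ne hc η

theorem finite : FiniteDimensional F K := Module.finite_of_finrank_pos X.prime.pos

theorem finiteK : FiniteDimensional K V := Module.finite_of_finrank_pos (by rw [X.three]; omega)

theorem finiteF : FiniteDimensional F V := by
  have := X.finite
  have := X.finiteK
  exact Module.Finite.trans K V

theorem two' : (2 : F) ≠ 0 := fun h => X.two (by
  rw [← map_ofNat (algebraMap F K) 2, h, map_zero])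

theorem conj {a b : V} {μ : K} (hv : P₁.EV a b μ) {e y : V} {ν : F} (h : P.Ei M e y ν) :
    P.Ei M (P₁.eich a b μ e) (P₁.eich a b μ y) ν :=
  h.conj (X.res _ _ _ hv) (X.isom (X.res _ _ _ hv))

theorem mem_perp_kline {v z : V} : z ∈ P.perp (kline F K v) ↔ P₁.f z v = 0 := by
  constructor
  · intro h
    exact eq_of_forall_map_mul_eq X.lam_ne fun a => by
      rw [← X.f_smul, h _ (smul_mem_kline a v), mul_zero, map_zero]
  · intro h w hw
    obtain ⟨a, rfl⟩ := mem_kline.1 hw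
    rw [X.f_smul, h, mul_zero, map_zero]

theorem A_conj {a b : V} {μ : K} (hv : P₁.EV a b μ) {x : V} (h : C3O.A P P₁ M x) :
    C3O.A P P₁ M (P₁.eich a b μ x) := by
  intro y hy
  obtain ⟨ν, h1⟩ := h (hv.equiv⁻¹ y) (by rw [← isom_f_right hv.equiv_mem_isom]; exact hy)
  have := X.conj hv h1
  rw [← hv.equiv_apply (hv.equiv⁻¹ y), apply_inv_apply] at this
  exact ⟨ν, this⟩

theorem ei_smul {c : F} {e y : V} {ν : F} (he : P.Sing e) (h : P.Ei M e (c • y) ν)
    (hy : P.f y (c • e) = 0) : P.Ei M (c • e) y (P.h y) := by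
  refine Ei.of_smul_left ?_ (EV.of_h (he.smul c) hy)
  rw [σ_eq_of_Λ X.Λ₀, ← h_smul_of_Λ X.Λ₀, ← h.ev.nu_eq X.Λ₀]
  exact h

theorem exists_ns_perp {e e' : V} (he : P₁.Sing e) (he' : P₁.Sing e') (h : P₁.f e e' ≠ 0) :
    ∃ w, P₁.f w e = 0 ∧ P₁.f w e' = 0 ∧ P₁.h w ≠ 0 := by
  have := X.finiteK
  obtain ⟨b, hb0, hb1, hb2⟩ := exists_perp_pair_ne_zero (P := P₁) X.three.ge e e'
  obtain ⟨z, hz, hz', hzb⟩ := exists_perp_pair_f_eq he he' h hb0 hb1 hb2 1
  by_contra hc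
  push Not at hc
  have := hc (z + b) (by rw [P₁.f_add_left, hz, hb1, add_zero])
    (by rw [P₁.f_add_left, hz', hb2, add_zero])
  rw [h_add_of_Λ X.Λ₁, hc z hz hz', hc b hb1 hb2, hzb] at this
  simp at this

theorem exists_sing : ∃ e, e ≠ 0 ∧ P₁.Sing e := by
  obtain ⟨e, -, he0, he⟩ := P₁.exists_sing ⊤ (by rw [finrank_top, X.three]; exact X.d₁)
  exact ⟨e, he0, he⟩

/-- The orthogonal complement of a singular vector is spanned by the vector and one more. -/
theorem eq_of_perp {v y : V} (hv : P₁.Sing v) (hv0 : v ≠ 0) (hy : P₁.f y v = 0) (hyv : y ∉ K ∙ v)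
    {z : V} (hz : P₁.f z v = 0) : ∃ a b : K, z = a • v + b • y := by
  have := X.finiteK
  have h1 : (K ∙ v) ⊔ K ∙ y = P₁.perp (K ∙ v) := by
    refine Submodule.eq_of_le_of_finrank_le (sup_le ?_ ?_) ?_
    · exact (Submodule.span_singleton_le_iff_mem _ _).2 (mem_perp_span_singleton.2 hv.f_self)
    · exact (Submodule.span_singleton_le_iff_mem _ _).2 (mem_perp_span_singleton.2 hy)
    · have h2 := P₁.finrank_perp (K ∙ v)
      rw [finrank_sup_span_of_notMem hyv]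
      rw [finrank_span_singleton hv0, X.three] at *
      omega
  obtain ⟨s, hs, b, rfl⟩ := mem_sup_span.1 (h1.ge (mem_perp_span_singleton.2 hz))
  obtain ⟨a, rfl⟩ := Submodule.mem_span_singleton.1 hs
  exact ⟨a, b, rfl⟩

theorem h_ne_of_perp {v y : V} (hv : P₁.Sing v) (hv0 : v ≠ 0) (hy : P₁.f y v = 0)
    (hyv : y ∉ K ∙ v) : P₁.h y ≠ 0 := fun h => by
  have := X.finiteK
  refine hyv (mem_span_singleton_of (P := P₁) fun z hz => ?_)
  obtain ⟨a, b, rfl⟩ := X.eq_of_perp hv hv0 hy hyv hz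
  rw [P₁.f_add_left, P₁.f_smul_left, P₁.f_smul_left, f_symm_zero hy, f_self_Λ X.Λ₁, h]
  ring

variable [Finite F] [Finite K]

theorem trans {p : V → Prop} (hp : ∀ e y ν, P₁.EV e y ν → ∀ x, p x → p (P₁.eich e y ν x))
    (hs : ∀ (c : F) x, c ≠ 0 → p x → p (c • x))
    {x x' : V} (hx0 : x ≠ 0) (hx0' : x' ≠ 0) (hx : P₁.Sing x) (hx' : P₁.Sing x') (h : p x) :
    p x' := by
  have := X.finiteK
  have step : ∀ x x', P₁.Sing x → P₁.Sing x' → P₁.f x x' ≠ 0 → p x → p x' := by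
    intro x x' hx hx' hc h
    obtain ⟨w, h1, h2, h3⟩ := X.exists_ns_perp hx hx' hc
    obtain ⟨l, s, hl, hls⟩ := c3_exists_smul_sq X.two X.prime X.r3 (-(P₁.f x x' * P₁.h w)⁻¹)
    have hl' : algebraMap F K l ≠ 0 := (map_ne_zero _).2 hl
    rw [Algebra.smul_def] at hls
    have h4 : P₁.Sing ((P₁.f x x')⁻¹ • x' + (algebraMap F K l * P₁.f x x')⁻¹ • x + s • w) := by
      simp only [sing_iff_of_Λ X.Λ₁, h_add_of_Λ X.Λ₁, h_smul_of_Λ X.Λ₁, P₁.f_add_left,
        P₁.f_smul_left, f_smul_right_Λ X.Λ₁, f_symm_zero h1, f_symm_zero h2,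
        (sing_iff_of_Λ X.Λ₁).1 hx, (sing_iff_of_Λ X.Λ₁).1 hx', f_comm_of_Λ X.Λ₁ x' x]
      have : s * s = -(algebraMap F K l * P₁.f x x' * P₁.h w)⁻¹ := by
        field_simp
        field_simp at hls
        linear_combination -hls
      rw [this]
      field_simp
      ring
    obtain ⟨k1, k2⟩ := exists_eich_map h4 hx (hx'.smul (algebraMap F K l))
      (by simp only [f_add_right, f_smul_right_Λ X.Λ₁, hx.f_self, f_symm_zero h1]; field_simp; ring)
      (by simp only [P₁.f_smul_left, f_add_right, f_smul_right_Λ X.Λ₁, hx'.f_self, f_symm_zero h2,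
        f_comm_of_Λ X.Λ₁ x' x]; field_simp; ring)
    have k3 := hs l⁻¹ _ (inv_ne_zero hl) (k2 ▸ hp _ _ _ k1 x h)
    rwa [algebraMap_smul, smul_smul, inv_mul_cancel₀ hl, one_smul] at k3
  by_cases hc : P₁.f x' x = 0
  · obtain ⟨z, -, hz, h1, h2⟩ := exists_sing_ne_ne (S := ⊥) (by rw [perp_bot]; trivial)
      (by simpa using hx0) (by simpa using hx0') hx hc
    exact step _ _ hz hx' (f_symm_ne h2) (step _ _ hx hz h1 h)
  · exact step _ _ hx hx' (f_symm_ne hc) h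

theorem E_le_of_A_sing {δ : V} (hδ : P₁.Sing δ) (hδ0 : δ ≠ 0) (h : C3O.A P P₁ M δ) : P.E ≤ M := by
  have := X.finiteK
  have := X.finiteF
  have h1 : ∀ e, P₁.Sing e → e ≠ 0 → C3O.A P P₁ M e := fun e he he0 =>
    (X.trans (p := fun e => P₁.Sing e ∧ C3O.A P P₁ M e)
      (fun _ _ _ hv _ hx => ⟨hv.sing_eich hx.1, X.A_conj hv hx.2⟩)
      (fun c x hc hx => ⟨by rw [← algebraMap_smul K]; exact hx.1.smul _, fun y hy => by
        have hy' : P₁.f y x = 0 := by rwa [X.f_smulF, smul_eq_zero, or_iff_right hc] at hy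
        obtain ⟨ν, hν⟩ := hx.2 (c • y) (by rw [f_smul_F', hy', smul_zero])
        exact ⟨_, X.ei_smul (X.sing hx.1) hν (X.f_zero hy)⟩⟩) hδ0 he0 hδ he ⟨hδ, h⟩).2
  have h2 : ∀ e, P₁.Sing e → e ≠ 0 → P.Full M e := by
    intro e he he0
    refine full_of_Λ X.Λ₀ (X.sing he) fun y hy => ?_
    by_cases hc : P₁.f y e = 0
    · exact h1 e he he0 y hc
    obtain ⟨e', he', h3⟩ := he.exists_partner' he0
    have h4 : P₁.f e e' ≠ 0 := f_symm_ne (by rw [h3]; exact one_ne_zero)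
    obtain ⟨b, hb0, hb1, hb2⟩ := exists_perp_pair_ne_zero (P := P₁) X.three.ge e e'
    obtain ⟨a, ha⟩ := X.exists_lam_eq one_ne_zero (-1)
    obtain ⟨z, hz1, hz2, hz3⟩ := exists_perp_pair_f_eq he he' h4 hb0 hb1 hb2 (a * 1)
    have he0' : e' ≠ 0 := by rintro rfl; exact h4 (P₁.f_zero_right _)
    obtain ⟨_, k1⟩ := h1 e he he0 z hz1
    obtain ⟨_, k2⟩ := h1 _ (he'.smul (P₁.f y e)) (smul_ne_zero hc he0') b
      (by rw [f_smul_right, hb2, mul_zero])
    obtain ⟨_, k3⟩ := k1.diff k2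
      (by rw [X.f_smul, f_comm_of_Λ X.Λ₁ e e', h3, mul_one, ← X.f_tr, hy])
      (X.f_zero (f_symm_zero hb1))
    rw [X.f_smul, hz2, mul_zero, map_zero, X.f_tr z b, hz3, ha, ε_eq_one_of_Λ X.Λ₀] at k3
    have k4 := (Ygrp M (X.sing he)).add_mem
      (h1 e he he0 (y - P₁.f y e • e') (by rw [f_sub_left, P₁.f_smul_left, h3, mul_one, sub_self]))
      ⟨_, k3⟩
    convert k4 using 1
    module
  obtain ⟨e', he', h3⟩ := hδ.exists_partner' hδ0
  obtain ⟨a, ha⟩ := X.exists_lam_eq one_ne_zero 1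
  have h4 : P.f (a • e') δ ≠ 0 := by rw [X.f_smul', h3, ha]; exact one_ne_zero
  refine (h2 δ hδ hδ0).E_le (h2 _ (he'.smul a) ?_) h4
  intro h5
  rw [h5] at h4
  exact h4 (P.f_zero_left _)

theorem E_le_of_ei_ne {δ x : V} {ν : F} (hδ : P₁.Sing δ) (h : P.Ei M δ x ν) (h0 : P₁.f x δ ≠ 0) :
    P.E ≤ M := by
  have := X.finiteK
  have hδ0 : δ ≠ 0 := by rintro rfl; exact h0 (P₁.f_zero_right _)
  obtain ⟨e', he', h3⟩ := hδ.exists_partner' hδ0
  have h4 : P₁.f δ e' ≠ 0 := f_symm_ne (by rw [h3]; exact one_ne_zero)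
  obtain ⟨b, hb0, hb1, hb2⟩ := exists_perp_pair_ne_zero (P := P₁) X.three.ge δ e'
  obtain ⟨z, hz1, -, hz3⟩ := exists_perp_pair_f_eq hδ he' h4 hb0 hb1 hb2 1
  have h5 : ∀ y, P₁.f y (P₁.σ (P₁.f x δ)⁻¹ • δ) = 0 ↔ P₁.f y δ = 0 := fun y => by
    rw [f_smul_right, P₁.σσ, mul_eq_zero, or_iff_right (inv_ne_zero h0)]
  refine X.E_le_of_A_sing hδ hδ0 fun y hy => ?_
  refine (irr_aux (T := ⊤) (U := Ygrp M (X.sing hδ)) (hδ.smul _) (fun y μ hv _ => ?_) ⟨ν, h⟩
    (f_smul_inv h0) ⟨b, trivial, z, trivial, (h5 _).2 hb1, (h5 _).2 hz1, by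
      rw [hz3]; exact one_ne_zero⟩).2 y trivial ((h5 _).2 hy)
  have := X.conj hv h
  rw [eich_apply_of_orth₂ _ _ ((h5 _).2 hδ.f_self) (f_symm_zero ((h5 _).1 hv.orth))] at this
  exact ⟨ν, this⟩

omit [Finite F] [Finite K] in
theorem exists_notMem_range : ∃ c : K, ∀ μ : F, algebraMap F K μ ≠ c := by
  have := X.finite
  obtain ⟨c, -, hc⟩ := exists_notMem_of_finrank_lt (A := (⊤ : Submodule F K)) (B := F ∙ (1 : K))
    (by have := finrank_span_singleton_le (F := F) (1 : K); have := X.r3; rw [finrank_top]; omega)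
  exact ⟨c, fun μ h => hc (Submodule.mem_span_singleton.2
    ⟨μ, by rw [← h, Algebra.algebraMap_eq_smul_one]⟩)⟩

theorem E_le_of_star (hS : C3O.Star P P₁ M) {δ x : V} {ν : F} (hδ : P₁.Sing δ)
    (h : P.Ei M δ x ν) (hδ0 : δ ≠ 0) (hxδ : x ∉ K ∙ δ) : P.E ≤ M := by
  have := X.finiteK
  have := X.finite
  by_cases h0 : P₁.f x δ = 0
  swap
  · exact X.E_le_of_ei_ne hδ h h0
  obtain ⟨c, hc⟩ := X.exists_notMem_range
  obtain ⟨y₁, hy₁, k1⟩ := P₁.exists_perp_f_left hxδ c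
  obtain ⟨y₂, hy₂, k2⟩ := P₁.exists_perp_f_left (W := K ∙ x) (x := δ) (fun h => by
    obtain ⟨a, rfl⟩ := Submodule.mem_span_singleton.1 h
    exact hxδ (Submodule.mem_span_singleton.2 ⟨a⁻¹, by
      rw [smul_smul, inv_mul_cancel₀ (left_ne_zero_of_smul hδ0), one_smul]⟩)) 1
  rw [mem_perp_span_singleton] at hy₁ hy₂
  obtain ⟨hu, k3⟩ := hδ.partner (y := y₁ + y₂) (by rw [P₁.f_add_left, hy₁, k2, zero_add])
  have k4 : P₁.f (y₁ + y₂ - P₁.σ (P₁.h (y₁ + y₂)) • δ) x = c := by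
    rw [f_sub_left, P₁.f_add_left, P₁.f_smul_left, k1, hy₂, f_symm_zero h0]; ring
  generalize y₁ + y₂ - P₁.σ (P₁.h (y₁ + y₂)) • δ = u at hu k3 k4
  rw [f_comm_of_Λ X.Λ₁] at k3 k4
  obtain ⟨φ, hφ, hφc⟩ := LinearMap.exists_extend_of_notMem (0 : (F ∙ (1 : K)) →ₗ[F] F)
    (v := c) (fun h => by
      obtain ⟨μ, hμ⟩ := Submodule.mem_span_singleton.1 h
      exact hc μ (by rw [← hμ, Algebra.algebraMap_eq_smul_one])) 1
  obtain ⟨a, ha⟩ := exists_forall_map_mul_eq X.lam_ne φ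
  have ha1 : lam a = 0 := by
    have := LinearMap.congr_fun hφ ⟨1, Submodule.mem_span_singleton_self _⟩
    rw [← one_mul a, ha]
    exact this
  have ha2 : lam (a * c) = 1 := by rw [mul_comm, ha, hφc]
  obtain ⟨b, hb, hb0⟩ := exists_notMem_of_finrank_lt
    (A := LinearMap.ker (lam.prod (lam.comp (LinearMap.mulRight F c)))) (B := ⊥) (by
      have h1 := (lam.prod (lam.comp (LinearMap.mulRight F c))).finrank_range_add_finrank_ker
      have h2 := Submodule.finrank_le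
        (LinearMap.range (lam.prod (lam.comp (LinearMap.mulRight F c))))
      have h3 := X.r3
      rw [finrank_prod, finrank_self] at h2
      rw [finrank_bot]
      omega)
  rw [LinearMap.mem_ker, LinearMap.prod_apply, Prod.ext_iff] at hb
  have hb1 : lam b = 0 := hb.1
  have hb2 : lam (b * c) = 0 := hb.2
  have h3 := (hS u hu a b).conj_ei h
  rw [eich_apply_of_orth₂ _ _ (by rw [X.f_smul, k3, mul_one, ha1])
    (by rw [X.f_smul, k3, mul_one, hb1]), eich_apply_Λ X.Λ₀, X.f_smul, X.f_smul, k4, ha2, hb2,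
    one_smul, zero_mul, add_zero, zero_smul, sub_zero] at h3
  refine X.E_le_of_ei_ne hδ h3 ?_
  rw [P₁.f_add_left, P₁.f_smul_left, h0, f_comm_of_Λ X.Λ₁, k3, mul_one, zero_add]
  simpa using hb0

/-- A rank one element in the unipotent radical of a singular `K`-line produces long root
elements. -/
theorem star_of_rank_one {s : V ≃ₗ[F] V} (hs : s ∈ M) {v y₀ : V} (hv : P₁.Sing v) (hv0 : v ≠ 0)
    {d : K} (hd : d ≠ 0) (hy : P₁.f y₀ v = 0) (hyv : y₀ ∉ K ∙ v)
    (h : ∀ z, P₁.f z v = 0 → s z = z + P.f z y₀ • d • v) : C3O.Star P P₁ M := by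
  have := X.finiteK
  have hsI := X.isom hs
  have h1 : ∀ a : K, s (a • v) = a • v := fun a => by
    rw [h _ (by rw [P₁.f_smul_left, hv.f_self, mul_zero]), X.f_smul', f_symm_zero hy, mul_zero,
      map_zero, zero_smul, add_zero]
  have h2 : ∀ κ : K, P.Ei M (κ • v) (d • v) 0 := by
    intro κ
    obtain ⟨y, hy1, hy2⟩ := P₁.exists_perp_f_left hyv κ
    rw [mem_perp_span_singleton] at hy1
    have hn := EV.of_h hv hy1
    have h3 : ∀ x, (s * resHom F hn.equiv * s⁻¹) x =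
        P₁.eich v y (P₁.h y) x + P.f x (κ • v) • d • v - P.f x (d • v) • κ • v := by
      intro x
      have k1 : P₁.f (s⁻¹ x) v = P₁.f x v := eq_of_forall_map_mul_eq X.lam_ne fun a => by
        rw [← X.f_smul, ← X.f_smul, ← isom_f_right hsI, h1]
      have k2 : P₁.f (s⁻¹ x) y = P₁.f x y + P.f x (d • v) • κ :=
        eq_of_forall_map_mul_eq X.lam_ne fun a => by
          rw [← X.f_smul, ← isom_f_right hsI, h _ (by rw [P₁.f_smul_left, hy1, mul_zero]),
            f_add_right, f_smul_right_Λ X.Λ₀, X.f_smul, X.f_smul', hy2, mul_add, map_add,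
            mul_smul_comm, map_smul, smul_eq_mul, mul_comm (lam _)]
      rw [mul_apply', mul_apply', resHom_apply, EV.equiv_apply, eich_apply_Λ X.Λ₁,
        eich_apply_Λ X.Λ₁, map_sub, map_add, apply_inv_apply, h1, k1, k2,
        h _ (by rw [P₁.f_smul_left, hy1, mul_zero]), X.f_smul', hy2, X.f_smul x v κ, mul_comm κ,
        ← smul_assoc (P.f x (d • v)) κ v]
      module
    refine Ei.of_eq (EV.of_sing (X.sing (hv.smul κ)) (X.sing (hv.smul d)) (X.f_zero ?_))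
      (M.mul_mem (M.mul_mem (M.mul_mem hs (X.res _ _ _ hn)) (M.inv_mem hs))
        (M.inv_mem (X.res _ _ _ hn))) fun x => ?_
    · rw [P₁.f_smul_left, f_smul_right, hv.f_self, mul_zero, mul_zero]
    · obtain ⟨x, rfl⟩ := (resHom F hn.equiv).surjective x
      rw [mul_apply', inv_apply_apply, h3, eich_apply_Λ X.Λ₀, resHom_apply, EV.equiv_apply,
        X.f_smul, X.f_smul, X.f_smul, X.f_smul, hn.f_eich_left, zero_mul, add_zero]
  intro u hu a b
  by_cases hb : b • u = 0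
  · rw [hb]
    exact Ei.zero (X.sing (hu.smul a))
  have h3 := X.trans (p := fun w => P₁.Sing w ∧ ∀ κ : K, P.Ei M (κ • w) w 0)
    (fun e y μ he w hw => ⟨he.sing_eich hw.1, fun κ => by
      rw [← map_smul]
      exact X.conj he (hw.2 κ)⟩)
    (fun c w hc hw => ⟨by rw [← algebraMap_smul K]; exact hw.1.smul _, fun κ => by
      have k1 := hw.2 ((c * c) • κ)
      rw [smul_assoc, mul_smul] at k1
      have k2 := k1.smul_left c (by
        rw [← algebraMap_smul K]; exact X.sing ((hw.1.smul _).smul _))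
      rwa [σ_eq_of_Λ X.Λ₀, mul_zero, ← smul_comm] at k2⟩)
    (smul_ne_zero hd hv0) hb (hv.smul d) (hu.smul b)
    ⟨hv.smul d, fun κ => by rw [smul_smul]; exact h2 _⟩
  have h4 := h3.2 (a / b)
  rwa [smul_smul, div_mul_cancel₀ _ (left_ne_zero_of_smul hb)] at h4

end C3T

end Cfsg.Agent.H77
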