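import Mathlib

/-!
Sums of polynomial functions of small degree over finite vector spaces, and sums over orbits.
-/

set_option autoImplicit false

namespace Cfsg.Agent.H77

open Module

section Poly

variable {F : Type*} [Field F] {A : Type*} [AddCommGroup A] [Module F A] [FiniteDimensional F A]

/-- A polynomial function of degree at most `n`. -/
def PDeg (n : ℕ) (g : A → F) : Prop :=
  ∃ f : MvPolynomial (Fin (finrank F A)) F, f.totalDegree ≤ n ∧
    ∀ s, g s = MvPolynomial.eval ((Module.finBasis F A).equivFun s) f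

namespace PDeg

variable {m n : ℕ} {g g' : A → F}

theorem mono (h : PDeg m g) (hmn : m ≤ n) : PDeg n g := by
  obtain ⟨f, h1, h2⟩ := h
  exact ⟨f, h1.trans hmn, h2⟩

theorem const (c : F) : PDeg n (fun _ : A => c) :=
  ⟨MvPolynomial.C c, by simp, fun s => by simp⟩

theorem add (h : PDeg n g) (h' : PDeg n g') : PDeg n (fun s => g s + g' s) := by
  obtain ⟨f, h1, h2⟩ := h
  obtain ⟨f', h1', h2'⟩ := h'
  exact ⟨f + f', (MvPolynomial.totalDegree_add _ _).trans (max_le h1 h1'),
    fun s => by rw [map_add, ← h2, ← h2']⟩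

theorem mul (h : PDeg m g) (h' : PDeg n g') : PDeg (m + n) (fun s => g s * g' s) := by
  obtain ⟨f, h1, h2⟩ := h
  obtain ⟨f', h1', h2'⟩ := h'
  exact ⟨f * f', (MvPolynomial.totalDegree_mul _ _).trans (add_le_add h1 h1'),
    fun s => by rw [map_mul, ← h2, ← h2']⟩

theorem sum {ι : Type*} (S : Finset ι) {G : ι → A → F} (h : ∀ i ∈ S, PDeg n (G i)) :
    PDeg n (fun s => ∑ i ∈ S, G i s) := by
  classical
  induction S using Finset.induction_on with
  | empty => simpa using const (A := A) (n := n) (0 : F)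
  | insert i S hi ih =>
    simp only [Finset.sum_insert hi]
    exact (h i (Finset.mem_insert_self _ _)).add (ih fun j hj => h j (Finset.mem_insert_of_mem hj))

theorem linear (φ : A →ₗ[F] F) : PDeg 1 (fun s => φ s) := by
  refine ⟨∑ i, MvPolynomial.C (φ (Module.finBasis F A i)) * MvPolynomial.X i,
    MvPolynomial.totalDegree_finsetSum_le fun j _ => (MvPolynomial.totalDegree_mul _ _).trans
      (by simp), fun s => ?_⟩
  beta_reduce
  conv_lhs => rw [← (Module.finBasis F A).sum_repr s, map_sum]
  simp [mul_comm]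

theorem sum_eq_zero [Fintype F] [Fintype A] (h : PDeg n g)
    (hn : n < (Fintype.card F - 1) * finrank F A) : ∑ s, g s = 0 := by
  classical
  obtain ⟨f, h1, h2⟩ := h
  rw [← MvPolynomial.sum_eval_eq_zero f (by simpa using h1.trans_lt hn)]
  exact Fintype.sum_equiv (Module.finBasis F A).equivFun.toEquiv _ _ h2

end PDeg

variable {W W' : Type*} [AddCommGroup W] [Module F W] [AddCommGroup W'] [Module F W']

variable (F) in
/-- A vector valued polynomial function of degree at most `n`. -/
def VDeg (n : ℕ) (γ : A → W) : Prop := ∀ φ : W →ₗ[F] F, PDeg n (fun s => φ (γ s))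

namespace VDeg

variable {m n : ℕ} {γ γ₁ : A → W} {γ' : A → W'}

theorem mono (h : VDeg F m γ) (hmn : m ≤ n) : VDeg F n γ := fun φ => (h φ).mono hmn

theorem const (c : W) : VDeg F n (fun _ : A => c) := fun φ => PDeg.const (φ c)

theorem add (h : VDeg F n γ) (h' : VDeg F n γ₁) : VDeg F n (fun s => γ s + γ₁ s) := fun φ => by
  simpa only [map_add] using (h φ).add (h' φ)

theorem linear (L : A →ₗ[F] W) : VDeg F 1 (fun s => L s) := fun φ => PDeg.linear (φ ∘ₗ L)

theorem map (h : VDeg F n γ) (L : W →ₗ[F] W') : VDeg F n (fun s => L (γ s)) :=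
  fun φ => h (φ ∘ₗ L)

theorem bilin [FiniteDimensional F W] (B : W →ₗ[F] W' →ₗ[F] F) (h : VDeg F m γ)
    (h' : VDeg F n γ') : PDeg (m + n) (fun s => B (γ s) (γ' s)) := by
  have h1 : ∀ s, B (γ s) (γ' s) = ∑ i, (Module.finBasis F W).coord i (γ s) *
      B (Module.finBasis F W i) (γ' s) := fun s => by
    conv_lhs => rw [← (Module.finBasis F W).sum_repr (γ s), map_sum, LinearMap.sum_apply]
    simp
  simp only [h1]
  exact PDeg.sum _ fun i _ => (h _).mul (h' _)

end VDeg

end Poly

section Orbit

variable {G α R : Type*} [AddCommGroup G] [Fintype G] [DecidableEq α] [CommRing R]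
  (act : G → α → α) (h0 : ∀ a, act 0 a = a) (hadd : ∀ s t a, act (s + t) a = act s (act t a))
include h0 hadd

theorem sum_eq_zero_of_orbits (n : α → R) (S : Finset α) (hS : ∀ a ∈ S, ∀ s, act s a ∈ S)
    (h : ∀ a ∈ S, ∑ b ∈ Finset.univ.image (act · a), n b = 0) : ∑ a ∈ S, n a = 0 := by
  induction S using Finset.strongInduction with
  | H S ih =>
    rcases S.eq_empty_or_nonempty with rfl | ⟨a, ha⟩
    · simp
    have h1 : Finset.univ.image (act · a) ⊆ S := fun b hb => by
      obtain ⟨s, -, rfl⟩ := Finset.mem_image.1 hb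
      exact hS a ha s
    rw [← Finset.sum_sdiff h1, h a ha, add_zero]
    refine ih _ (Finset.sdiff_ssubset h1 ⟨a, Finset.mem_image.2 ⟨0, Finset.mem_univ _, h0 a⟩⟩)
      (fun b hb s => ?_) fun b hb => h b (Finset.mem_sdiff.1 hb).1
    rw [Finset.mem_sdiff] at hb ⊢
    refine ⟨hS b hb.1 s, fun h2 => hb.2 ?_⟩
    obtain ⟨t, -, ht⟩ := Finset.mem_image.1 h2
    exact Finset.mem_image.2 ⟨-s + t, Finset.mem_univ _, by
      rw [hadd, ht, ← hadd, neg_add_cancel, h0]⟩

theorem sum_orbit_eq (a : α) (χ : G → R) (hχ : ∀ s, ∑ t with act t a = a, χ (s + t) = 1)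
    (n : α → R) : ∑ b ∈ Finset.univ.image (act · a), n b = ∑ s, χ s * n (act s a) := by
  refine Finset.sum_image' _ fun s _ => ?_
  rw [← one_mul (n _), ← hχ s, Finset.sum_mul]
  refine Finset.sum_bij' (fun t _ => s + t) (fun t _ => -s + t) (fun t ht => ?_) (fun t ht => ?_)
    (fun t _ => by simp) (fun t _ => by simp) fun t ht => ?_
  · simp only [Finset.mem_filter, Finset.mem_univ, true_and] at ht ⊢
    rw [hadd, ht]
  · simp only [Finset.mem_filter, Finset.mem_univ, true_and] at ht ⊢
    rw [hadd, ht, ← hadd, neg_add_cancel, h0]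
  · simp only [Finset.mem_filter, Finset.mem_univ, true_and] at ht
    rw [hadd, ht]

end Orbit

theorem finrank_le_three_mul {F A : Type*} [Field F] [AddCommGroup A] [Module F A]
    [FiniteDimensional F A] (D : A →ₗ[F] A) (h : ∀ x, D (D (D x)) = 0) :
    finrank F A ≤ 3 * finrank F (LinearMap.ker D) := by
  have key : ∀ U : Submodule F A, finrank F U ≤ finrank F (U.map D) + finrank F (LinearMap.ker D) :=
    fun U => by
      have h1 := (D.domRestrict U).finrank_range_add_finrank_ker
      rw [LinearMap.range_domRestrict, LinearMap.ker_domRestrict] at h1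
      have h2 : finrank F ((LinearMap.ker D).comap U.subtype) ≤ finrank F (LinearMap.ker D) := by
        rw [← Submodule.finrank_map_subtype_eq, Submodule.map_comap_subtype]
        exact Submodule.finrank_mono inf_le_right
      omega
  have h1 := key ⊤
  have h2 := key (Submodule.map D ⊤)
  have h3 : finrank F (Submodule.map D (Submodule.map D ⊤)) ≤ finrank F (LinearMap.ker D) := by
    refine Submodule.finrank_mono ?_
    rintro _ ⟨_, ⟨x, -, rfl⟩, rfl⟩
    exact h x
  rw [finrank_top] at h1
  omega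

end Cfsg.Agent.H77
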