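import Cfsg.Agent.H77.C3TZ
import Cfsg.Agent.H77.C3TPoly

/-!
Orthogonal field extension subgroups, dimension three over the extension field: an averaging
argument shows that the images of the singular `K`-lines are disjoint in the semilinear case.
-/

set_option autoImplicit false
set_option linter.unusedSectionVars false

namespace Cfsg.Agent.H77

open Module H26 H26.PForm H27

variable {F K : Type*} [Field F] [Field K] [Algebra F K] {V : Type*} [AddCommGroup V]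
  [Module F V] [Module K V] [IsScalarTower F K V]

/-- The coordinate of `g x` along `g δ`. -/
def c3X (P₁ : PForm K V) (θ : K) (δ : V) (g : V ≃ₗ[F] V) : V →ₗ[F] K :=
  LinearMap.mulLeft F θ ∘ₗ (P₁.fL (g δ)).restrictScalars F ∘ₗ g.toLinearMap

theorem c3X_apply (P₁ : PForm K V) (θ : K) (δ : V) (g : V ≃ₗ[F] V) (x : V) :
    c3X P₁ θ δ g x = θ * P₁.f (g x) (g δ) := rfl

/-- The canonical bilinear form attached to a vector in the image of a singular `K`-line. -/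
noncomputable def c3N (P₁ : PForm K V) (θ : K) (δ : V) (g : V ≃ₗ[F] V) : V →ₗ[F] V →ₗ[F] F :=
  (Algebra.traceForm F K).compl₁₂ (c3X P₁ θ δ g) (c3X P₁ θ δ g)

theorem c3N_apply (P₁ : PForm K V) (θ : K) (δ : V) (g : V ≃ₗ[F] V) (x y : V) :
    c3N P₁ θ δ g x y = Algebra.trace F K (c3X P₁ θ δ g x * c3X P₁ θ δ g y) := rfl

theorem c3X_surj (P₁ : PForm K V) {θ : K} (hθ : θ ≠ 0) {δ : V} (hδ : δ ≠ 0) (g : V ≃ₗ[F] V)
    (c : K) : ∃ x, c3X P₁ θ δ g x = c := by
  obtain ⟨z, hz⟩ := P₁.exists_f_left_eq (g.map_ne_zero_iff.2 hδ) (c / θ)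
  exact ⟨g⁻¹ z, by rw [c3X_apply, apply_inv_apply, hz, mul_div_cancel₀ _ hθ]⟩

theorem c3_fixed (hr : (finrank F K).Prime) {σ : K ≃ₐ[F] K} (hσ : σ ≠ 1) {b : K} (hb : σ b = b) :
    ∃ c : F, algebraMap F K c = b := by
  refine exists_algebraMap_of_stabilizes hr (D := LinearMap.ker (σ.toLinearMap - LinearMap.id))
    (a₀ := 1) (by simp) one_ne_zero (fun h => hσ (AlgEquiv.ext fun x => ?_)) fun a ha => ?_
  · simpa [sub_eq_zero] using Submodule.eq_top_iff'.1 h x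
  · simp only [LinearMap.mem_ker, LinearMap.sub_apply, AlgEquiv.toLinearMap_apply,
      LinearMap.id_apply, sub_eq_zero] at ha ⊢
    rw [map_mul, ha, hb]

namespace C3T

variable {P : PForm F V} {P₁ : PForm K V} {lam : K →ₗ[F] F} {M : Subgroup (V ≃ₗ[F] V)}
  (X : C3T P P₁ lam M)
include X

variable [FiniteDimensional K V] [FiniteDimensional F V] [Finite F] [Finite K]

theorem trace_ne : Algebra.trace F K ≠ 0 := by
  have := X.finite
  exact Algebra.trace_ne_zero F K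

theorem c3N_rad {θ : K} (hθ : θ ≠ 0) {δ : V} (hδ : δ ≠ 0) (g : V ≃ₗ[F] V) (x : V) :
    (∀ y, c3N P₁ θ δ g x y = 0) ↔ P₁.f (g x) (g δ) = 0 := by
  refine ⟨fun h => ?_, fun h y => by rw [c3N_apply, c3X_apply, h, mul_zero, zero_mul, map_zero]⟩
  have : c3X P₁ θ δ g x = 0 := eq_of_forall_map_mul_eq X.trace_ne fun a => by
    obtain ⟨y, rfl⟩ := c3X_surj P₁ hθ hδ g a
    rw [mul_comm, ← c3N_apply, h, mul_zero, map_zero]
  rwa [c3X_apply, mul_eq_zero, or_iff_right hθ] at this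

theorem act_eq_of_perp {g : V ≃ₗ[F] V} (hg : g ∈ M) {u₁ u₂ : V}
    (h : ∀ x, P₁.f (g x) u₂ = 0 ↔ P₁.f x u₁ = 0) : act g (kline F K u₁) = kline F K u₂ := by
  rw [← perp_perp (P := P) (act g _), ← perp_perp (P := P) (kline F K u₂), act_perp (X.isom hg)]
  congr 1
  ext z
  rw [mem_act, X.mem_perp_kline, X.mem_perp_kline, ← h, apply_inv_apply]

theorem semi_aut (hS : C3Semi P₁ M) {θ : K} (hθ : ∀ c, lam c = Algebra.trace F K (c * θ))
    {g : V ≃ₗ[F] V} (hg : g ∈ M) {u₁ u₂ : V} (h1 : P₁.Sing u₁) (h1' : u₁ ≠ 0) (h2 : P₁.Sing u₂)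
    (h : act g (kline F K u₁) = kline F K u₂) (hu : g u₁ = u₂) :
    ∃ σ : K ≃ₐ[F] K, (∀ a, g (a • u₁) = σ a • u₂) ∧
      ∀ x, θ * P₁.f (g x) u₂ = σ (θ * P₁.f x u₁) := by
  have h2' : u₂ ≠ 0 := hu ▸ g.map_ne_zero_iff.2 h1'
  choose σ hσ using hS g hg u₁ u₂ h1 h1' h2 h2' h
  have h3 : ∀ a, g (a • u₁) = σ a • u₂ := fun a => by simpa [hu] using hσ a 1
  have inj := smul_left_injective K h2'
  let τ : K →ₐ[F] K :=
    { toFun := σ
      map_one' := inj (by simp only [← h3, one_smul, hu])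
      map_mul' := fun a b => inj (by simp only [← h3, mul_smul, hσ])
      map_zero' := inj (by simp only [← h3, zero_smul, map_zero])
      map_add' := fun a b => inj (by simp only [← h3, add_smul, map_add])
      commutes' := fun c => inj (by simp only [← h3, algebraMap_smul, map_smul, hu]) }
  let τ' := AlgEquiv.ofBijective τ (Finite.injective_iff_bijective.1 τ.toRingHom.injective)
  refine ⟨τ', h3, fun x => eq_of_forall_map_mul_eq X.trace_ne fun b => ?_⟩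
  obtain ⟨a, rfl⟩ := τ'.surjective b
  rw [← map_mul, Algebra.trace_eq_of_algEquiv, mul_comm θ, ← mul_assoc, ← hθ, mul_comm θ,
    ← mul_assoc, ← hθ, ← X.f_smul, ← X.f_smul, ← isom_f (X.isom hg) x, h3]
  rfl

theorem c3N_eq (hS : C3Semi P₁ M) {θ : K} (hθ : ∀ c, lam c = Algebra.trace F K (c * θ))
    {g : V ≃ₗ[F] V} (hg : g ∈ M) {δ : V} (h1 : P₁.Sing δ) (h1' : δ ≠ 0) (h2 : P₁.Sing (g δ))
    (h : act g (kline F K δ) = kline F K (g δ)) : c3N P₁ θ δ g = c3N P₁ θ δ 1 := by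
  obtain ⟨σ, -, h3⟩ := X.semi_aut hS hθ hg h1 h1' h2 h rfl
  ext x y
  rw [c3N_apply, c3N_apply, c3X_apply, c3X_apply, h3, h3, ← map_mul, Algebra.trace_eq_of_algEquiv]
  rfl

section Root

variable {δ w : V} (hδ : P₁.Sing δ) (hδ0 : δ ≠ 0) (hw : P₁.f w δ = 0) (hη : P₁.h w ≠ 0)
  {e : K → V ≃ₗ[F] V} (he : ∀ s x, e s x = P₁.eich δ (s • w) (P₁.h (s • w)) x)
include hδ hw he

theorem e_mem (s : K) : e s ∈ M := by
  have h := EV.of_h hδ (y := s • w) (by rw [P₁.f_smul_left, hw, mul_zero])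
  rw [show e s = resHom F h.equiv from LinearEquiv.ext (he s)]
  exact X.res _ _ _ h

theorem e_add (s t : K) (x : V) : e (s + t) x = e s (e t x) := by
  rw [he, he, he, (EV.of_h hδ (y := s • w) (by rw [P₁.f_smul_left, hw, mul_zero])).eich_eich
    (EV.of_h hδ (y := t • w) (by rw [P₁.f_smul_left, hw, mul_zero])), add_smul, h_add_of_Λ X.Λ₁,
    f_comm_of_Λ X.Λ₁ (s • w)]

omit hδ hw in
theorem e_apply (s : K) (x : V) : e s x = x + s • (P₁.f x δ • w - P₁.f x w • δ) +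
    (s * s * -(P₁.h w * P₁.f x δ)) • δ := by
  rw [he, eich_apply_Λ X.Λ₁, f_smul_right_Λ X.Λ₁, h_smul_of_Λ X.Λ₁]
  module

theorem e_kline (s a : K) : e s (a • δ) = a • δ := by
  rw [X.e_apply he, P₁.f_smul_left, P₁.f_smul_left, hδ.f_self, f_symm_zero hw]
  simp

theorem e_cube (s : K) (x : V) : ∃ a : K, e s (e s x - x) - (e s x - x) = a • δ := by
  have h1 : P₁.f (e s x - x) δ = 0 := by
    rw [he, f_sub_left, (EV.of_h hδ (y := s • w)
      (by rw [P₁.f_smul_left, hw, mul_zero])).f_eich_left, sub_self]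
  rw [X.e_apply he s (e s x - x), h1]
  exact ⟨-(s * P₁.f (e s x - x) w), by module⟩

include hδ0 hη in
theorem mem_of_e_fix {s : K} (hs : s ≠ 0) {x : V} (h : e s x = x) : x ∈ kline F K δ := by
  rw [X.e_apply he, add_assoc, add_eq_left] at h
  have h1 := congrArg (P₁.f · w) h
  simp only [P₁.f_add_left, P₁.f_smul_left, f_sub_left, f_symm_zero hw, f_self_Λ X.Λ₁,
    f_zero_left, mul_zero, sub_zero, add_zero, mul_eq_zero, hs, X.two, hη, or_false,
    false_or] at h1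
  rw [h1, mul_zero, neg_zero, mul_zero, zero_smul, zero_smul, add_zero, zero_sub, smul_neg,
    neg_eq_zero, smul_smul, smul_eq_zero, or_iff_left hδ0, mul_eq_zero, or_iff_right hs] at h
  obtain ⟨a, b, rfl⟩ := X.eq_of_perp hδ hδ0 hw (fun k1 => by
    obtain ⟨b, rfl⟩ := Submodule.mem_span_singleton.1 k1
    exact hη ((sing_iff_of_Λ X.Λ₁).1 (hδ.smul b))) h1
  rw [P₁.f_add_left, P₁.f_smul_left, P₁.f_smul_left, f_symm_zero hw, f_self_Λ X.Λ₁, mul_zero,
    zero_add, mul_eq_zero, or_iff_left (mul_ne_zero X.two hη)] at h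
  rw [h, zero_smul, add_zero]
  exact smul_mem_kline _ _

theorem c3N_act (θ : K) (g : V ≃ₗ[F] V) (s : K) :
    (c3N P₁ θ δ g).compl₁₂ (e s).toLinearMap (e s).toLinearMap = c3N P₁ θ δ (g * e s) := by
  ext x y
  have h1 := X.e_kline hδ hw he s 1
  rw [one_smul] at h1
  simp only [LinearMap.compl₁₂_apply, c3N_apply, c3X_apply, mul_apply', h1, LinearEquiv.coe_coe]

include hδ0 hη in
theorem stab_aut (hS : C3Semi P₁ M) {θ : K} (hθ : ∀ c, lam c = Algebra.trace F K (c * θ))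
    (hθ0 : θ ≠ 0) {g : V ≃ₗ[F] V} (hg : g ∈ M) (h2 : P₁.Sing (g δ))
    (hne : c3N P₁ θ δ g ≠ c3N P₁ θ δ 1) {s : K}
    (hs : (c3N P₁ θ δ g).compl₁₂ (e s).toLinearMap (e s).toLinearMap = c3N P₁ θ δ g) :
    ∃ σ : K ≃ₐ[F] K, (∀ x, c3X P₁ θ δ g (e s x) = σ (c3X P₁ θ δ g x)) ∧ (σ = 1 → s = 0) := by
  have h1 := X.e_kline hδ hw he s 1
  rw [one_smul] at h1
  have hk := M.mul_mem (M.mul_mem hg (X.e_mem hδ hw he s)) (M.inv_mem hg)
  have h3 := X.act_eq_of_perp hk (u₁ := g δ) (u₂ := g δ) fun x => by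
    obtain ⟨x, rfl⟩ := g.surjective x
    rw [← X.c3N_rad hθ0 hδ0, ← hs, X.c3N_act hδ hw he, X.c3N_rad hθ0 hδ0]
    simp only [mul_apply', inv_apply_apply, h1]
  obtain ⟨σ, h4, h5⟩ := X.semi_aut hS hθ hk h2 (g.map_ne_zero_iff.2 hδ0) h2 h3
    (by rw [mul_apply', mul_apply', inv_apply_apply, h1])
  refine ⟨σ, fun x => ?_, fun h6 => ?_⟩
  · rw [c3X_apply, c3X_apply, ← h5, mul_apply', mul_apply', inv_apply_apply]
  · by_contra h7
    refine hne (X.c3N_eq hS hθ hg hδ hδ0 h2 (Submodule.eq_of_le_of_finrank_eq (fun z hz => ?_)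
      (by rw [finrank_act, finrank_kline hδ0, finrank_kline (g.map_ne_zero_iff.2 hδ0)])).symm)
    obtain ⟨a, rfl⟩ := mem_kline.1 hz
    refine mem_act.2 (X.mem_of_e_fix hδ hδ0 hw hη he h7 (g.injective ?_))
    have := h4 a
    rw [h6, AlgEquiv.one_apply] at this
    rw [apply_inv_apply]
    exact this

omit hδ hw in
theorem e_vdeg [FiniteDimensional F K] (x : V) : ∃ (γ : K → V) (c : K), VDeg F 1 γ ∧
    VDeg F 2 (fun s : K => (s * s * c) • δ) ∧ ∀ s, e s x = γ s + (s * s * c) • δ := by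
  refine ⟨_, _, (VDeg.const x).add (VDeg.linear
    ((LinearMap.toSpanSingleton K V (P₁.f x δ • w - P₁.f x w • δ)).restrictScalars F)),
    fun φ => ?_, fun s => X.e_apply he s x⟩
  exact VDeg.bilin ((LinearMap.mul F K).compr₂ (φ ∘ₗ
    (LinearMap.toSpanSingleton K V δ).restrictScalars F ∘ₗ LinearMap.mulRight F _))
    (VDeg.linear LinearMap.id) (VDeg.linear LinearMap.id)

include hδ0 hη in
theorem sum_orbit_zero [Fintype K] [DecidableEq (V →ₗ[F] V →ₗ[F] F)] (hS : C3Semi P₁ M) {θ : K}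
    (hθ : ∀ c, lam c = Algebra.trace F K (c * θ))
    (hθ0 : θ ≠ 0) {g : V ≃ₗ[F] V} (hg : g ∈ M) (h2 : P₁.Sing (g δ))
    (hne : c3N P₁ θ δ g ≠ c3N P₁ θ δ 1) (x y : V) :
    ∑ N ∈ Finset.univ.image (fun s => (c3N P₁ θ δ g).compl₁₂ (e s).toLinearMap (e s).toLinearMap),
      N x y = 0 := by
  classical
  have := X.finite
  have := Fintype.ofFinite F
  have hq : 5 < (Fintype.card F - 1) * finrank F K := by
    have h1 := H30.two_ne_zero_iff_odd_card.1 X.two'
    have h3 := Fintype.one_lt_card (α := F)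
    have h4 : 2 ≤ Fintype.card F - 1 := by obtain ⟨k, hk⟩ := h1; omega
    have := X.r3
    nlinarith
  have h0 : ∀ x, e 0 x = x := fun x => by rw [X.e_apply he]; simp
  have hA := sum_orbit_eq (R := F)
    (fun s (N : V →ₗ[F] V →ₗ[F] F) => N.compl₁₂ (e s).toLinearMap (e s).toLinearMap)
    (fun N => by ext x y; simp [h0])
    (fun s t N => by ext x y; simp [add_comm s t, X.e_add hδ hw he]) (c3N P₁ θ δ g)
  obtain ⟨γ, c, k1, k2, k3⟩ := X.e_vdeg he x
  obtain ⟨γ', c', k1', k2', k3'⟩ := X.e_vdeg he y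
  have k4 : VDeg F 2 fun s => e s y := by simpa only [k3'] using (k1'.mono (by omega)).add k2'
  have hst := fun s hs => X.stab_aut hδ hδ0 hw hη he hS hθ hθ0 hg h2 hne (s := s) hs
  set N := c3N P₁ θ δ g with hN
  set T := Finset.univ.filter
    fun t => N.compl₁₂ (e t).toLinearMap (e t).toLinearMap = N with hT
  have hT' : ∀ t, t ∈ T ↔ N.compl₁₂ (e t).toLinearMap (e t).toLinearMap = N := fun t => by simp [hT]
  have hT0 : 0 ∈ T := (hT' 0).2 (by ext x y; simp [h0])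
  by_cases h1 : ∀ t ∈ T, t = 0
  · rw [hA (fun _ => 1) (fun s => by
      rw [Finset.sum_const, show T = {0} from Finset.eq_singleton_iff_unique_mem.2 ⟨hT0, h1⟩]
      simp)]
    have k5 : VDeg F 2 fun s => e s x := by simpa only [k3] using (k1.mono (by omega)).add k2
    simpa using (k5.bilin N k4).sum_eq_zero (by omega)
  push Not at h1
  obtain ⟨s₀, hs₀, hs₀0⟩ := h1
  have hTadd : ∀ s ∈ T, ∀ t ∈ T, s + t ∈ T := fun s hs t ht => (hT' _).2 (by
    ext x y
    have j1 := LinearMap.congr_fun₂ ((hT' _).1 hs) (e t x) (e t y)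
    have j2 := LinearMap.congr_fun₂ ((hT' _).1 ht) x y
    simp only [LinearMap.compl₁₂_apply, LinearEquiv.coe_coe, X.e_add hδ hw he] at j1 j2 ⊢
    rw [j1, j2])
  have hTneg : ∀ s ∈ T, -s ∈ T := fun s hs => (hT' _).2 (by
    ext x y
    have j1 := LinearMap.congr_fun₂ ((hT' _).1 hs) (e (-s) x) (e (-s) y)
    simp only [LinearMap.compl₁₂_apply, LinearEquiv.coe_coe, ← X.e_add hδ hw he, add_neg_cancel,
      h0] at j1 ⊢
    exact j1.symm)
  choose σ hσ hσ' using hst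
  have hσ₀ : σ s₀ ((hT' _).1 hs₀) ≠ 1 := fun h => hs₀0 (hσ' _ _ h)
  have hr : finrank F K = 3 := by
    refine le_antisymm ?_ X.r3
    have j1 := finrank_le_three_mul ((σ s₀ ((hT' _).1 hs₀)).toLinearMap - LinearMap.id) fun a => by
      obtain ⟨z, rfl⟩ := c3X_surj P₁ hθ0 hδ0 g a
      obtain ⟨b, hb⟩ := X.e_cube hδ hw he s₀ z
      simp only [LinearMap.sub_apply, AlgEquiv.toLinearMap_apply, LinearMap.id_apply, ← hσ,
        ← map_sub, hb, X.e_kline hδ hw he, sub_self]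
    have j2 : LinearMap.ker ((σ s₀ ((hT' _).1 hs₀)).toLinearMap - LinearMap.id) ≤ F ∙ (1 : K) :=
      fun b hb => by
        obtain ⟨c, rfl⟩ := c3_fixed X.prime hσ₀ (b := b) (by simpa [sub_eq_zero] using hb)
        exact Submodule.mem_span_singleton.2 ⟨c, (Algebra.algebraMap_eq_smul_one c).symm⟩
    have j3 := (Submodule.finrank_mono j2).trans (finrank_span_singleton_le _)
    omega
  have hcard : T.card ≤ 3 := by
    rw [← hr, ← Fintype.card_coe]
    refine le_trans (Fintype.card_le_of_injective (fun t : T => σ t ((hT' _).1 t.2))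
      fun s t hst => Subtype.ext ?_) AlgEquiv.card_le
    have j1 := hTadd _ s.2 _ (hTneg _ t.2)
    rw [← sub_eq_zero, sub_eq_add_neg]
    refine hσ' _ ((hT' _).1 j1) (AlgEquiv.ext fun a => ?_)
    obtain ⟨z, rfl⟩ := c3X_surj P₁ hθ0 hδ0 g a
    beta_reduce at hst
    rw [← hσ, X.e_add hδ hw he, hσ _ ((hT' _).1 s.2), hst, ← hσ, ← X.e_add hδ hw he,
      add_neg_cancel, h0, AlgEquiv.one_apply]
  have hne' : s₀ ≠ -s₀ := fun h => mul_ne_zero X.two hs₀0 (by linear_combination h)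
  have hT3 : {0, s₀, -s₀} = T := by
    refine Finset.eq_of_subset_of_card_le (fun t ht => ?_) (hcard.trans_eq ?_)
    · simp only [Finset.mem_insert, Finset.mem_singleton] at ht
      rcases ht with rfl | rfl | rfl
      exacts [hT0, hs₀, hTneg _ hs₀]
    · exact (Finset.card_eq_three.2 ⟨_, _, _, hs₀0.symm, (neg_ne_zero.2 hs₀0).symm, hne', rfl⟩).symm
  have h3 : (3 : F) = 0 := by
    have j1 := hTadd _ hs₀ _ hs₀
    rw [← hT3] at j1
    simp only [Finset.mem_insert, Finset.mem_singleton] at j1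
    rcases j1 with j1 | j1 | j1
    · exact absurd (by linear_combination j1) hne'
    · exact absurd (by linear_combination j1) hs₀0
    · refine (algebraMap F K).injective (mul_right_cancel₀ hs₀0 ?_)
      rw [map_ofNat, map_zero]
      linear_combination j1
  obtain ⟨μ, hμ⟩ := Projective.exists_dual_eq_one F hs₀0
  have h4 : ∀ a b : K, N (a • δ) (b • δ) = 0 := fun a b => by
    obtain ⟨a', ha⟩ := c3_fixed X.prime hσ₀ (b := c3X P₁ θ δ g (a • δ))
      (by rw [← hσ, X.e_kline hδ hw he])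
    obtain ⟨b', hb⟩ := c3_fixed X.prime hσ₀ (b := c3X P₁ θ δ g (b • δ))
      (by rw [← hσ, X.e_kline hδ hw he])
    rw [hN, c3N_apply, ← ha, ← hb, ← map_mul, Algebra.trace_algebraMap, hr, nsmul_eq_mul,
      Nat.cast_ofNat, h3, zero_mul]
  rw [hA (fun s => (-μ) s * μ s) (fun s => by
    rw [← hT3, Finset.sum_insert (by simp [hs₀0.symm, hs₀0]), Finset.sum_pair hne']
    simp only [LinearMap.neg_apply, map_add, map_neg, map_zero, hμ]
    linear_combination (-(μ s) ^ 2 - 1) * h3)]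
  have k5 := ((PDeg.linear (-μ)).mul (PDeg.linear μ)).mul
    ((k1.bilin N k4).add (k2.bilin N k1'))
  refine Eq.trans (Finset.sum_congr rfl fun s _ => ?_) (k5.sum_eq_zero (by omega))
  simp only [LinearMap.compl₁₂_apply, LinearEquiv.coe_coe]
  rw [k3, map_add, LinearMap.add_apply, k3' s, map_add (N (_ • δ)), h4, add_zero]

end Root

theorem sum_c3N (hS : C3Semi P₁ M) {θ : K} (hθ : ∀ c, lam c = Algebra.trace F K (c * θ))
    (hθ0 : θ ≠ 0) {δ : V} (hδ : P₁.Sing δ) (hδ0 : δ ≠ 0) (S : Finset (V →ₗ[F] V →ₗ[F] F))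
    (h : ∀ N, N ∈ S ↔ ∃ g ∈ M, P₁.Sing (g δ) ∧ N = c3N P₁ θ δ g) (x y : V) :
    ∑ N ∈ S, N x y = c3N P₁ θ δ 1 x y := by
  classical
  have := Fintype.ofFinite K
  obtain ⟨v', hv', h3⟩ := hδ.exists_partner' hδ0
  obtain ⟨w, hw, -, hη⟩ := X.exists_ns_perp hδ hv' (f_symm_ne (by rw [h3]; exact one_ne_zero))
  let e : K → V ≃ₗ[F] V := fun s =>
    resHom F (EV.of_h hδ (y := s • w) (by rw [P₁.f_smul_left, hw, mul_zero])).equiv
  have he : ∀ s x, e s x = P₁.eich δ (s • w) (P₁.h (s • w)) x := fun _ _ => rfl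
  have h0 : ∀ x, e 0 x = x := fun x => by rw [X.e_apply he]; simp
  have h1 : ∀ s, e s δ = δ := fun s => by simpa using X.e_kline hδ hw he s 1
  rw [← Finset.add_sum_erase S _ ((h _).2 ⟨1, M.one_mem, hδ, rfl⟩), add_eq_left]
  refine sum_eq_zero_of_orbits
    (fun s (N : V →ₗ[F] V →ₗ[F] F) => N.compl₁₂ (e s).toLinearMap (e s).toLinearMap)
    (fun N => by ext x y; simp [h0])
    (fun s t N => by ext x y; simp [add_comm s t, X.e_add hδ hw he]) _ _ (fun N hN s => ?_)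
    fun N hN => ?_
  · rw [Finset.mem_erase, h] at hN ⊢
    obtain ⟨hne, g, hg, h4, rfl⟩ := hN
    refine ⟨fun h5 => hne ?_, g * e s, M.mul_mem hg (X.e_mem hδ hw he s),
      by rwa [mul_apply', h1], X.c3N_act hδ hw he θ g s⟩
    have h6 : c3N P₁ θ δ (1 * e (-s)) = c3N P₁ θ δ 1 :=
      X.c3N_eq hS hθ (M.mul_mem M.one_mem (X.e_mem hδ hw he _)) hδ hδ0
        (by rwa [one_mul, h1]) (by rw [one_mul, act_resHom_kline]; rfl)
    rw [← h6, ← X.c3N_act hδ hw he, ← h5]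
    ext x y
    simp [← X.e_add hδ hw he, h0]
  · rw [Finset.mem_erase, h] at hN
    obtain ⟨hne, g, hg, h4, rfl⟩ := hN
    exact X.sum_orbit_zero hδ hδ0 hw hη he hS hθ hθ0 hg h4 hne x y

theorem disjoint_of_semi (hS : C3Semi P₁ M) :
    ∀ U ∈ orb P₁ M, ∀ U' ∈ orb P₁ M, U ≠ U' → U ⊓ U' = ⊥ := by
  classical
  have := X.finite
  have : Finite V := Module.finite_of_finite F
  have : Finite (V →ₗ[F] F) := Finite.of_injective _ DFunLike.coe_injective
  have : Finite (V →ₗ[F] V →ₗ[F] F) := Finite.of_injective _ DFunLike.coe_injective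
  obtain ⟨θ, hθ⟩ := exists_forall_map_mul_eq X.trace_ne lam
  have hθ0 : θ ≠ 0 := by
    rintro rfl
    exact X.lam_ne (LinearMap.ext fun c => by rw [← hθ, mul_zero, map_zero, LinearMap.zero_apply])
  intro U hU U' hU' hne
  by_contra h0
  obtain ⟨δ, hδ, hδ0⟩ := Submodule.exists_mem_ne_zero_of_ne_bot h0
  let S := (Set.toFinite {N | ∃ g ∈ M, P₁.Sing (g δ) ∧ N = c3N P₁ θ δ g}).toFinset
  have key : ∀ U ∈ orb P₁ M, δ ∈ U → ∀ x, x ∈ P.perp U ↔ ∀ y, ∑ N ∈ S, N x y = 0 := by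
    rintro _ ⟨k, hk, v, hv, hv0, rfl⟩ hδU x
    obtain ⟨a, ha⟩ := mem_kline.1 (mem_act.1 hδU)
    have h1 : a • v ≠ 0 := ha ▸ (k⁻¹).map_ne_zero_iff.2 hδ0
    have h2 : ∀ g, (c3N P₁ θ δ g).compl₁₂ k.toLinearMap k.toLinearMap =
        c3N P₁ θ (a • v) (g * k) := fun g => by
      ext x y
      simp only [LinearMap.compl₁₂_apply, c3N_apply, c3X_apply, mul_apply', LinearEquiv.coe_coe, ha,
        apply_inv_apply]
    have h3 := X.sum_c3N hS (fun c => (hθ c).symm) hθ0 (hv.smul a) h1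
      (S.image fun N => N.compl₁₂ k.toLinearMap k.toLinearMap) (fun N => by
        simp only [Finset.mem_image, S, Set.Finite.mem_toFinset, Set.mem_ofPred_eq]
        constructor
        · rintro ⟨_, ⟨g, hg, h4, rfl⟩, rfl⟩
          exact ⟨g * k, M.mul_mem hg hk, by rwa [mul_apply', ha, apply_inv_apply], h2 g⟩
        · rintro ⟨g, hg, h4, rfl⟩
          exact ⟨_, ⟨g * k⁻¹, M.mul_mem hg (M.inv_mem hk), by rwa [mul_apply', ← ha], rfl⟩,
            by rw [h2, inv_mul_cancel_right]⟩) (k⁻¹ x)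
    have h4 : ∀ y, ∑ N ∈ S, N x y = c3N P₁ θ (a • v) 1 (k⁻¹ x) (k⁻¹ y) := fun y => by
      rw [← h3, Finset.sum_image fun N _ N' _ h => LinearMap.ext₂ fun z z' => by
        simpa [apply_inv_apply] using LinearMap.congr_fun₂ h (k⁻¹ z) (k⁻¹ z')]
      simp
    rw [act_perp (X.isom hk), mem_act, ← kline_smul_eq (left_ne_zero_of_smul h1), X.mem_perp_kline]
    refine ((X.c3N_rad hθ0 h1 1 (k⁻¹ x)).symm.trans ⟨fun h y => by rw [h4, h], fun h y => ?_⟩)
    rw [← inv_apply_apply k y, ← h4, h]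
  refine hne ?_
  rw [← perp_perp (P := P) U, ← perp_perp (P := P) U']
  congr 1
  ext x
  rw [key U hU hδ.1, key U' hU' hδ.2]

end C3T

end Cfsg.Agent.H77
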