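import Cfsg.Agent.H77.C3TAvg

/-!
Maximality of the orthogonal field extension subgroups `O_3(q^r).r ∩ Ω_{3r}(q)`, `q` odd and `r` an
odd prime.
-/

set_option autoImplicit false
set_option linter.unusedSectionVars false

namespace Cfsg.Agent.H77

open Module H26 H26.PForm H27

section Abstract

variable {F K : Type*} [Field F] [Field K] [Algebra F K] {V : Type*} [AddCommGroup V]
  [Module F V] [Module K V] [IsScalarTower F K V]

theorem exists_refl_isom {P₁ : PForm K V} (hΛ : P₁.Λ = ⊥) {x : V} (hx : P₁.h x ≠ 0) :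
    ∃ r ∈ P₁.isom, (∀ z, r z = z - ((P₁.h x)⁻¹ * P₁.f z x) • x) ∧ r⁻¹ = r := by
  have h1 : ((P₁.h x)⁻¹ • P₁.fL x) x = 2 := by
    rw [LinearMap.smul_apply, fL_apply, f_self_Λ hΛ, smul_eq_mul]
    field_simp
  have h2 : ∀ z, Module.reflection h1 z = z - ((P₁.h x)⁻¹ * P₁.f z x) • x := fun z =>
    Module.reflection_apply _ h1
  refine ⟨Module.reflection h1, ⟨fun y z => ?_, fun z => ?_⟩, h2, Module.reflection_symm h1⟩
  · rw [h2, h2, f_sub_left, f_sub_right, f_sub_right, P₁.f_smul_left, P₁.f_smul_left,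
      f_smul_right_Λ hΛ, f_smul_right_Λ hΛ, f_self_Λ hΛ, f_comm_of_Λ hΛ x z]
    field_simp
    ring
  · rw [hΛ, AddSubgroup.mem_bot, h2, h_sub_Λ hΛ, h_smul_of_Λ hΛ, f_smul_right_Λ hΛ]
    field_simp
    ring

namespace C3T

variable {P : PForm F V} {P₁ : PForm K V} {lam : K →ₗ[F] F} {M : Subgroup (V ≃ₗ[F] V)}
  (X : C3T P P₁ lam M)
include X

variable [FiniteDimensional K V] [FiniteDimensional F V] [Finite F] [Finite K]

theorem exists_lam_zero : ∃ a : K, a ≠ 0 ∧ lam a = 0 := by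
  have := X.finite
  have h1 := lam.finrank_range_add_finrank_ker
  have h2 := Submodule.finrank_le (LinearMap.range lam)
  have h3 := X.prime.two_le
  rw [finrank_self] at h2
  obtain ⟨a, ha, ha0⟩ := exists_notMem_of_finrank_lt (A := LinearMap.ker lam) (B := ⊥)
    (by rw [finrank_bot]; omega)
  exact ⟨a, by simpa using ha0, ha⟩

theorem exists_orth_basis {u : V} (hu : P₁.h u ≠ 0) : ∃ x x', P₁.h x ≠ 0 ∧ P₁.h x' ≠ 0 ∧
    P₁.f x u = 0 ∧ P₁.f x' u = 0 ∧ P₁.f x' x = 0 ∧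
      ∀ z, P₁.f z u = 0 → ∃ a b : K, z = a • x + b • x' := by
  have h1 : ∀ b, b ≠ 0 → P₁.f b u = 0 → b ∉ K ∙ u := fun b hb0 hb h => by
    obtain ⟨a, rfl⟩ := Submodule.mem_span_singleton.1 h
    rw [P₁.f_smul_left, f_self_Λ X.Λ₁, mul_eq_zero, or_iff_left (mul_ne_zero X.two hu)] at hb
    exact hb0 (by rw [hb, zero_smul])
  obtain ⟨x, hx, hxu⟩ : ∃ x, P₁.h x ≠ 0 ∧ P₁.f x u = 0 := by
    obtain ⟨b, hb0, hb, -⟩ := exists_perp_pair_ne_zero (P := P₁) X.three.ge u u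
    obtain ⟨z, hz, hzb⟩ := P₁.exists_perp_f_left (h1 b hb0 hb) 1
    rw [mem_perp_span_singleton] at hz
    by_contra hc
    push Not at hc
    have k1 : ∀ y, P₁.f y u = 0 → P₁.h y = 0 := fun y hy => by_contra fun h => hc y h hy
    have := k1 (z + b) (by rw [P₁.f_add_left, hz, hb, add_zero])
    rw [h_add_of_Λ X.Λ₁, k1 z hz, k1 b hb, hzb] at this
    simp at this
  obtain ⟨x', hx0, hx1, hx2⟩ := exists_perp_pair_ne_zero (P := P₁) X.three.ge u x
  have h0 : ∀ y, P₁.h y ≠ 0 → y ≠ 0 := by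
    rintro y hy rfl
    exact hy ((sing_iff_of_Λ X.Λ₁).1 P₁.sing_zero)
  have h2 : (K ∙ x') = P₁.perp ((K ∙ u) ⊔ K ∙ x) := by
    refine Submodule.eq_of_le_of_finrank_le ((Submodule.span_singleton_le_iff_mem _ _).2
      (mem_perp_sup_span.2 ⟨mem_perp_span_singleton.2 hx1, hx2⟩)) ?_
    have := P₁.finrank_perp ((K ∙ u) ⊔ K ∙ x)
    rw [finrank_sup_span_of_notMem (h1 x (h0 x hx) hxu), finrank_span_singleton (h0 u hu),
      X.three] at this
    rw [finrank_span_singleton hx0]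
    omega
  have h3 : ∀ z, P₁.f z u = 0 → ∃ a b : K, z = a • x + b • x' := fun z hz => by
    obtain ⟨b, hb⟩ := Submodule.mem_span_singleton.1 (h2.ge (x := z - (P₁.f z x / (2 * P₁.h x)) • x)
      (mem_perp_sup_span.2 ⟨mem_perp_span_singleton.2 (by
        rw [f_sub_left, P₁.f_smul_left, hz, hxu, mul_zero, sub_zero]), by
        rw [f_sub_left, P₁.f_smul_left, f_self_Λ X.Λ₁, div_mul_cancel₀ _ (mul_ne_zero X.two hx),
          sub_self]⟩))
    exact ⟨P₁.f z x / (2 * P₁.h x), b, by rw [hb, add_sub_cancel]⟩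
  refine ⟨x, x', hx, fun h => h1 x' hx0 hx1 (mem_span_singleton_of (P := P₁) fun z hz => ?_), hxu,
    hx1, hx2, h3⟩
  obtain ⟨a, b, rfl⟩ := h3 z hz
  rw [P₁.f_add_left, P₁.f_smul_left, P₁.f_smul_left, f_symm_zero hx2, f_self_Λ X.Λ₁, h]
  ring

theorem exists_rot {u : V} (hu : P₁.h u ≠ 0) : ∃ G ∈ M, ∃ κ : K, (∀ μ : F, algebraMap F K μ ≠ κ) ∧
    (∀ a : K, G (a • u) = a • u) ∧ ∀ z, P₁.f z u = 0 → G z + G⁻¹ z - z - z = κ • z := by
  obtain ⟨x, x', hx, hx', h1, h2, h3, h4⟩ := X.exists_orth_basis hu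
  obtain ⟨t, ht⟩ : ∃ t : K, ∀ μ : F, algebraMap F K μ ≠ t * t * (P₁.h x' / P₁.h x) := by
    by_contra hc
    push Not at hc
    obtain ⟨c, hc'⟩ := X.exists_notMem_range
    obtain ⟨μ₁, k1⟩ := hc 1
    obtain ⟨μ₂, k2⟩ := hc c
    rw [one_mul, one_mul] at k1
    have k3 : algebraMap F K μ₁ ≠ 0 := k1 ▸ div_ne_zero hx' hx
    obtain ⟨μ, hμ⟩ := c3_mem_of_sq X.prime X.r3 (c := c) (η := μ₂ / μ₁) (by
      rw [map_div₀, k2, ← k1, mul_div_cancel_right₀ _ k3])
    exact hc' μ hμ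
  have h5 : P₁.h (x + t • x') = P₁.h x + t * t * P₁.h x' := by
    rw [h_add_of_Λ X.Λ₁, h_smul_of_Λ X.Λ₁, f_smul_right_Λ X.Λ₁, f_symm_zero h3]
    ring
  have h6 : P₁.h x + t * t * P₁.h x' ≠ 0 := fun h => ht (-1) (by
    rw [map_neg, map_one]
    field_simp
    linear_combination -h)
  obtain ⟨r₁, hr₁, k1, k1'⟩ := exists_refl_isom X.Λ₁ hx
  obtain ⟨r₂, hr₂, k2, k2'⟩ := exists_refl_isom X.Λ₁ (x := x + t • x') (by rwa [h5])
  rw [h5] at k2
  have hg := P₁.isom.mul_mem hr₁ hr₂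
  set c := 2 * P₁.h x / (P₁.h x + t * t * P₁.h x') - 1 with hc
  have h7 : (r₁ * r₂) u = u := by
    rw [mul_apply', k2, f_add_right, f_smul_right, f_symm_zero h1, f_symm_zero h2, k1,
      f_sub_left, P₁.f_smul_left, f_symm_zero h1]
    simp
  have h8 : ∀ z, P₁.f z u = 0 → (r₁ * r₂) z + (r₁ * r₂)⁻¹ z = (2 * c) • z := fun z hz => by
    obtain ⟨a, b, rfl⟩ := h4 z hz
    have h6' : P₁.h x + t ^ 2 * P₁.h x' ≠ 0 := by rwa [pow_two]
    rw [mul_inv_rev, k1', k2', mul_apply', mul_apply', k1, k2, k2, k1]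
    simp only [f_sub_left, P₁.f_add_left, f_add_right, P₁.f_smul_left, f_smul_right_Λ X.Λ₁, h3,
      f_symm_zero h3, f_self_Λ X.Λ₁, hc]
    match_scalars <;> field_simp <;> ring
  generalize r₁ * r₂ = g at hg h7 h8
  refine ⟨_, X.sq g hg, 4 * (c * c) - 4, fun μ hμ => ?_, fun a => ?_, fun z hz => ?_⟩
  · have h4F : (4 : K) ≠ 0 := by
      rw [show (4 : K) = 2 * 2 by norm_num]; exact mul_ne_zero X.two X.two
    obtain ⟨ν, hν⟩ := c3_mem_of_sq X.prime X.r3 (c := c) (η := μ / 4 + 1) (by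
      rw [map_add, map_div₀, hμ, map_ofNat, map_one]
      field_simp
      ring)
    have k3 : algebraMap F K ν + 1 = 2 * P₁.h x / (P₁.h x + t * t * P₁.h x') := by
      rw [hν, hc]; ring
    refine ht (2 / (ν + 1) - 1) ?_
    rw [map_sub, map_div₀, map_add, map_one, map_ofNat, k3]
    field_simp [X.two]
    ring
  · rw [resHom_apply, map_smul, mul_apply', h7, h7]
  · have k3 := congrArg g (h8 z hz)
    have k4 : g⁻¹ (g z + g⁻¹ z) = g⁻¹ ((2 * c) • z) := by rw [h8 z hz]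
    rw [map_add, apply_inv_apply, map_smul] at k3
    rw [map_add, inv_apply_apply, map_smul] at k4
    rw [← map_inv, resHom_apply, resHom_apply, mul_inv_rev, mul_apply', mul_apply']
    linear_combination (norm := module) k3 + k4 + (2 * c) • h8 z hz

theorem exists_scalar (A : V →+ V) (hA : ∀ u, P₁.Sing u → A u ∈ K ∙ u) :
    ∃ c : K, ∀ x, A x = c • x := by
  obtain ⟨e, he0, he⟩ := X.exists_sing
  obtain ⟨e', he', h1⟩ := he.exists_partner' he0
  have h2 : P₁.f e e' = 1 := by rw [f_comm_of_Λ X.Λ₁, h1]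
  have h2' : P₁.f e e' ≠ 0 := by rw [h2]; exact one_ne_zero
  have h3 : ∀ w, w ≠ 0 → P₁.f w e = 0 → P₁.f w e' = 0 → ∃ μ : K, A w = μ • w ∧
      ∀ s : K, s ≠ 0 → A (s • e) = μ • s • e ∧
        A ((P₁.h w / s) • e') = μ • (P₁.h w / s) • e' := by
    intro w hw0 hw hw'
    obtain ⟨z, hz, hz', hzw⟩ := exists_perp_pair_f_eq he he' h2' hw0 hw hw' 1
    have k1 : ∀ s : K, s ≠ 0 → ∃ μ : K, A w = μ • w ∧ A (s • e) = μ • s • e ∧
        A ((P₁.h w / s) • e') = μ • (P₁.h w / s) • e' := by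
      intro s hs
      have j1 : ∀ s : K, s ≠ 0 → P₁.Sing (s • e + w - (P₁.h w / s) • e') := fun s hs => by
        rw [sing_iff_of_Λ X.Λ₁, h_sub_Λ X.Λ₁, h_add_of_Λ X.Λ₁, h_smul_of_Λ X.Λ₁,
          h_smul_of_Λ X.Λ₁, (sing_iff_of_Λ X.Λ₁).1 he, (sing_iff_of_Λ X.Λ₁).1 he', P₁.f_smul_left,
          f_symm_zero hw, f_smul_right_Λ X.Λ₁, P₁.f_add_left, P₁.f_smul_left, h2, hw']
        field_simp
        ring
      obtain ⟨a, ha⟩ := Submodule.mem_span_singleton.1 (hA _ (j1 s hs))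
      obtain ⟨b, hb⟩ := Submodule.mem_span_singleton.1 (hA _ (j1 (-s) (neg_ne_zero.2 hs)))
      obtain ⟨c, hc⟩ := Submodule.mem_span_singleton.1 (hA _ (he.smul s))
      obtain ⟨d, hd⟩ := Submodule.mem_span_singleton.1 (hA _ (he'.smul (P₁.h w / s)))
      rw [div_neg, neg_smul, neg_smul, map_sub, map_add, map_neg, map_neg, ← hc, ← hd] at hb
      rw [map_sub, map_add, ← hc, ← hd] at ha
      have j2 : (a - b) • w = ((2 * c - a - b) * s) • e - ((2 * d - a - b) * (P₁.h w / s)) • e' := by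
        linear_combination (norm := module) ha - hb
      have j3 := congrArg (P₁.f z) j2
      have j4 := congrArg (P₁.f e') j2
      have j5 := congrArg (P₁.f e) j2
      simp only [f_sub_right, f_smul_right_Λ X.Λ₁, hz, hz', hzw, h1, h2, he.f_self, he'.f_self,
        f_symm_zero hw, f_symm_zero hw'] at j3 j4 j5
      have j6 : b = a := by linear_combination -j3
      subst j6
      have j7 : c * s = b * s := mul_left_cancel₀ X.two (by linear_combination -j4)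
      have j8 : d * (P₁.h w / s) = b * (P₁.h w / s) :=
        mul_left_cancel₀ X.two (by linear_combination j5)
      rw [smul_smul, j7, ← smul_smul] at hc
      rw [smul_smul, j8, ← smul_smul] at hd
      refine ⟨b, smul_right_injective V X.two ?_, hc.symm, hd.symm⟩
      linear_combination (norm := module) -ha - hb
    obtain ⟨μ, k2, -⟩ := k1 1 one_ne_zero
    refine ⟨μ, k2, fun s hs => ?_⟩
    obtain ⟨μ', k3, k4⟩ := k1 s hs
    rwa [smul_left_injective K hw0 (k2.symm.trans k3)]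
  obtain ⟨w, hw, hw', hw''⟩ := X.exists_ns_perp he he' h2'
  obtain ⟨c, -, hc⟩ := h3 w (by rintro rfl; exact hw'' ((sing_iff_of_Λ X.Λ₁).1 P₁.sing_zero)) hw hw'
  have h4 : ∀ s : K, A (s • e) = c • s • e := fun s => by
    by_cases hs : s = 0
    · simp [hs]
    · exact (hc s hs).1
  have h5 : ∀ s : K, A (s • e') = c • s • e' := fun s => by
    by_cases hs : s = 0
    · simp [hs]
    · have := (hc (P₁.h w / s) (div_ne_zero hw'' hs)).2
      rwa [div_div_cancel₀ hw''] at this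
  have h6 : ∀ y, P₁.f y e = 0 → P₁.f y e' = 0 → A y = c • y := fun y hy hy' => by
    by_cases hy0 : y = 0
    · simp [hy0]
    obtain ⟨μ, k1, k2⟩ := h3 y hy0 hy hy'
    have k3 := (k2 1 one_ne_zero).1
    rw [h4, one_smul] at k3
    rw [k1, smul_left_injective K he0 k3]
  refine ⟨c, fun x => ?_⟩
  have := h6 (x - P₁.f x e' • e - P₁.f x e • e')
    (by simp only [f_sub_left, P₁.f_smul_left, he.f_self, h1]; ring)
    (by simp only [f_sub_left, P₁.f_smul_left, he'.f_self, h2]; ring)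
  rw [map_sub, map_sub, h4, h5] at this
  linear_combination (norm := module) this

theorem eq_kline_of_disjoint (h : ∀ U ∈ orb P₁ M, ∀ U' ∈ orb P₁ M, U ≠ U' → U ⊓ U' = ⊥)
    {U : Submodule F V} (hU : U ∈ orb P₁ M) {u : V} (hu : u ∈ U) (hu0 : u ≠ 0) :
    U = kline F K u := by
  have h1 : ∀ U' ∈ orb P₁ M, u ∈ U' → U = U' := fun U' hU' hu' => by
    by_contra hne
    exact hu0 ((Submodule.mem_bot F).1 (h U hU U' hU' hne ▸ ⟨hu, hu'⟩))
  by_cases hs : P₁.h u = 0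
  · exact h1 _ (kline_mem_orb ((sing_iff_of_Λ X.Λ₁).2 hs) hu0) (self_mem_kline u)
  refine Submodule.eq_of_le_of_finrank_eq (fun x hx => ?_)
    ((finrank_of_mem_orb hU).trans (finrank_kline hu0).symm)
  obtain ⟨G, hG, κ, h2, h3, h4⟩ := X.exists_rot hs
  have h5 : act G U = U := (h1 _ (act_mem_orb hU hG) (by
    rw [← one_smul K u, ← h3, one_smul]; exact apply_mem_act.2 hu)).symm
  have h6 : ∀ z ∈ U, G z + G⁻¹ z - z - z ∈ U := fun z hz =>
    U.sub_mem (U.sub_mem (U.add_mem (h5.le (apply_mem_act.2 hz)) (mem_act.1 (h5.ge hz))) hz) hz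
  have h7 : P₁.f (x - (P₁.f x u / (2 * P₁.h u)) • u) u = 0 := by
    rw [f_sub_left, P₁.f_smul_left, f_self_Λ X.Λ₁, div_mul_cancel₀ _ (mul_ne_zero X.two hs),
      sub_self]
  obtain ⟨z, hz⟩ : ∃ z, z = x - (P₁.f x u / (2 * P₁.h u)) • u := ⟨_, rfl⟩
  rw [← hz] at h7
  have h8 : κ • z ∈ U := by
    have k1 : G⁻¹ ((P₁.f x u / (2 * P₁.h u)) • u) = (P₁.f x u / (2 * P₁.h u)) • u := by
      conv_lhs => rw [← h3, inv_apply_apply]
    convert h6 x hx using 1
    rw [← h4 z h7, hz, map_sub, map_sub, h3, k1]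
    abel
  by_cases h9 : κ • z = 0
  · rw [smul_eq_zero, or_iff_right (fun h => h2 0 (by rw [map_zero, h])), hz, sub_eq_zero] at h9
    rw [h9]
    exact smul_mem_kline _ _
  have h10 : U.comap ((LinearMap.toSpanSingleton K V (κ • z)).restrictScalars F) = ⊤ := by
    by_contra hc
    obtain ⟨μ, hμ⟩ := exists_algebraMap_of_stabilizes X.prime (a₀ := 1) (by simpa using h8)
      one_ne_zero hc (e := κ) fun a ha => by
        have k1 := h6 _ ha
        rw [h4 _ (by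
          change P₁.f (a • κ • z) u = 0
          rw [P₁.f_smul_left, P₁.f_smul_left, h7, mul_zero, mul_zero])] at k1
        change (κ * a) • κ • z ∈ U
        rwa [mul_smul]
    exact h2 μ hμ
  have h11 : kline F K (κ • z) = U := Submodule.eq_of_le_of_finrank_eq (fun y hy => by
    obtain ⟨a, rfl⟩ := mem_kline.1 hy
    exact Submodule.eq_top_iff'.1 h10 a) ((finrank_kline h9).trans (finrank_of_mem_orb hU).symm)
  obtain ⟨a, ha⟩ := mem_kline.1 (h11.ge hu)
  have h12 := congrArg (P₁.f · u) ha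
  simp only [P₁.f_smul_left, h7, mul_zero, f_self_Λ X.Λ₁] at h12
  exact absurd h12.symm (mul_ne_zero X.two hs)

theorem le_or : M ≤ semiN F K V ∨ P.E ≤ M := by
  by_cases h : ∀ U ∈ orb P₁ M, ∀ U' ∈ orb P₁ M, U ≠ U' → U ⊓ U' = ⊥
  swap
  · have hZ : ∃ v ζ, P₁.Sing v ∧ v ≠ 0 ∧ C3ZZ P₁ M v ζ ∧ ζ ≠ 0 := by
      by_contra hc
      push Not at hc
      exact h (X.disjoint_of_semi (X.semi_of_noZ fun v hv hv0 ζ hζ => hc v ζ hv hv0 hζ))
    push Not at h
    obtain ⟨U, hU, U', hU', hne, h0⟩ := h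
    obtain ⟨W, W', hE⟩ := exists_extr hU hU' hne
    exact Or.inr (X.E_le_of_extr hZ hE (hE.ne_bot hU hU' hne h0))
  refine Or.inl fun g hg => ?_
  have : Nontrivial V := Module.nontrivial_of_finrank_pos (R := K) (by have := X.three; omega)
  refine (inv_mem_iff (x := g)).1 (mem_semiN_of fun a => ?_)
  obtain ⟨c, hc⟩ := X.exists_scalar
    ((g⁻¹ : V ≃ₗ[F] V).toLinearMap.toAddMonoidHom.comp ((DistribSMul.toAddMonoidHom V a).comp
      g.toLinearMap.toAddMonoidHom)) fun u hu => by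
    by_cases hu0 : u = 0
    · simp [hu0]
    have h1 := X.eq_kline_of_disjoint h (act_mem_orb (kline_mem_orb hu hu0) hg)
      (apply_mem_act.2 (self_mem_kline u)) (g.map_ne_zero_iff.2 hu0)
    exact mem_act.1 (h1.ge (smul_mem_kline a _))
  refine ⟨c, fun v => ?_⟩
  have := hc (g⁻¹ v)
  change g⁻¹ (a • g (g⁻¹ v)) = _ at this
  rwa [apply_inv_apply] at this

theorem not_le : ¬ P.E ≤ semiN F K V := fun h => by
  obtain ⟨e, he0, he⟩ := X.exists_sing
  obtain ⟨e', he', h1⟩ := he.exists_partner' he0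
  rw [f_comm_of_Λ X.Λ₁] at h1
  obtain ⟨b, hb0, hb1, hb2⟩ := exists_perp_pair_ne_zero (P := P₁) X.three.ge e e'
  obtain ⟨z, hz, hz', hzb⟩ := exists_perp_pair_f_eq he he' (by rw [h1]; exact one_ne_zero) hb0 hb1
    hb2 1
  obtain ⟨c, hc0, hc⟩ := X.exists_lam_zero
  obtain ⟨a, ha⟩ := X.exists_lam_eq hc0 1
  have hv := EV.of_h (X.sing (he'.smul c)) (y := b) (by rw [X.f_smul, hb2, mul_zero, map_zero])
  obtain ⟨σ, hσ⟩ := h hv.equiv_mem_E
  have h2 := hσ a e
  rw [EV.equiv_apply, EV.equiv_apply, eich_apply_of_orth₂ _ _ (x := e)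
    (by rw [X.f_smul, h1, mul_one, hc]) (X.f_zero (f_symm_zero hb1)), eich_apply, X.f_smul',
    f_smul_right_Λ X.Λ₁, h1, mul_one, ha, one_smul] at h2
  have h3 := congrArg (P₁.f z) h2
  rw [f_sub_right, f_add_right, X.f_smulF, f_smul_right, f_smul_right, f_smul_right, hz, hz', hzb]
    at h3
  simp at h3

end C3T

open QuadraticMap in
theorem c3t_of_le [Finite F] [Finite K] [FiniteDimensional F V] [FiniteDimensional K V]
    (h2 : (2 : F) ≠ 0) {Q : QuadraticForm F V} (hQ : (polarBilin Q).Nondegenerate)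
    {Q₁ : QuadraticForm K V} (hQ₁ : (polarBilin Q₁).Nondegenerate) {lam : K →ₗ[F] F}
    (hlam : lam ≠ 0) (hf : ∀ x y, polar Q x y = lam (polar Q₁ x y)) (hh : ∀ x, Q x = lam (Q₁ x))
    (hr : (finrank F K).Prime) (hr3 : 3 ≤ finrank F K) (h4 : finrank K V = 3)
    {M : Subgroup (V ≃ₗ[F] V)}
    (h1 : semiN F K V ⊓ (ofQuad Q hQ).E ≤ M) (h3 : M ≤ (ofQuad Q hQ).E) :
    C3T (ofQuad Q hQ) (ofQuad Q₁ hQ₁) lam M := by
  have h2K : (2 : K) ≠ 0 := fun h => h2 ((algebraMap F K).injective (by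
    rw [map_ofNat, h, map_zero]))
  have h5 := Module.finrank_mul_finrank F K V
  refine ⟨hf, hh, hlam, rfl, rfl, le_rfl, le_rfl, h2K, hr, hr3, h4,
    fun g hg => h1 ⟨resHom_mem_semiN _, ?_⟩, h3.trans E_le_isom⟩
  rw [map_mul]
  refine sq_mem_E hQ (by nlinarith) fun x => ?_
  rw [hh, hh, resHom_apply]
  exact congrArg lam (sub_eq_zero.1 (isom_h hg x))

end Abstract

variable {ι : Type} [Fintype ι] [DecidableEq ι] {F : Type*} [Field F]

open QuadraticMap in
/-- `O_3(q^r).r ∩ Ω` is maximal in `Ω_{3r}(q)` for `q` odd and `r` an odd prime. -/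
theorem omega_c3_three [Finite F] (h2 : (2 : F) ≠ 0) {Q : (ι → F) → F}
    (hQ : Geo.IsNondegenerateQuadraticForm Q) {r : ℕ} (hr : r.Prime) (hr3 : 3 ≤ r)
    (h4 : Fintype.card ι = 3 * r) {K : Subalgebra F (Matrix ι ι F)} (hK : Geo.IsFieldSubalgebra r K)
    (hsa : Geo.IsSelfAdjointFor (polar Q) K) :
    Geo.IsMaximalIn (Geo.omegaGL Q) (Geo.subalgebraNormalizer K ⊓ Geo.omegaGL Q) := by
  have : Nonempty ι := Fintype.card_pos_iff.1 (by omega)
  let _ : Field K := (H27.isField_of_isFieldSubalgebra hK).toField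
  let _ := H27.homModule K.val
  have := H27.homModule_isScalarTower K.val
  have : FiniteDimensional K (ι → F) := Module.Finite.of_restrictScalars_finite F K _
  have hdim := Module.finrank_mul_finrank F K (ι → F)
  rw [hK.finrank_eq, finrank_pi_card] at hdim
  obtain ⟨lam, Q₁, h6, h7, h8, h9⟩ := exists_quad_ext (K := K) h2 (H30.ofGeo_nondegenerate hQ)
    fun k => hsa k k.2
  have h10 : finrank K (ι → F) = 3 := Nat.eq_of_mul_eq_mul_left hr.pos (by omega)
  have h13 := mem_subalgebraNormalizer_iff K.val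
  rw [Subalgebra.range_val] at h13
  have h14 := fun M => c3t_of_le (M := M) h2 (H30.ofGeo_nondegenerate hQ) h7 h6 h8 h9
    (hK.finrank_eq ▸ hr) (hK.finrank_eq ▸ hr3) h10
  exact isMaximalIn_of_E _ (mem_omegaGL_iff hQ (by omega)) _ h13
    (h14 _ inf_le_right le_rfl).not_le fun M k1 k2 => (h14 M k1 k2).le_or

end Cfsg.Agent.H77
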