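import Cfsg.Agent.H77.C3TOrb

/-!
Orthogonal field extension subgroups, dimension three over the extension field: the elements
acting trivially on the orthogonal complement of a singular `K`-line.
-/

set_option autoImplicit false
set_option linter.unusedSectionVars false

namespace Cfsg.Agent.H77

open Module H26 H26.PForm H27

section Field

variable {F K : Type*} [Field F] [Field K] [Algebra F K]

theorem c3_surj (hr : (finrank F K).Prime) {lam : K →ₗ[F] F} (hlam : lam ≠ 0) (h2 : (2 : F) ≠ 0)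
    (Z : Submodule F (K →ₗ[F] K)) (hsk : ∀ ζ ∈ Z, ∀ c, lam (ζ c * c) = 0)
    (hinv : ∀ ζ ∈ Z, ∀ a : K, a ≠ 0 → LinearMap.mulLeft F a ∘ₗ ζ ∘ₗ LinearMap.mulLeft F a ∈ Z)
    {ζ₀ : K →ₗ[F] K} (hζ₀ : ζ₀ ∈ Z) (hne : ζ₀ ≠ 0) {c₀ y : K} (hc : c₀ ≠ 0)
    (hy : lam (y * c₀) = 0) : ∃ ζ ∈ Z, ζ c₀ = y := by
  have : FiniteDimensional F K := Module.finite_of_finrank_pos hr.pos
  by_contra hcon
  obtain ⟨φ, hφ, hφy⟩ := LinearMap.exists_extend_of_notMem
    (0 : (Z.map (LinearMap.applyₗ c₀)) →ₗ[F] F) (v := y) (fun ⟨ζ, h1, h3⟩ => hcon ⟨ζ, h1, h3⟩) 1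
  obtain ⟨u', hu'⟩ := exists_forall_map_mul_eq hlam φ
  have h1 : ∀ ζ ∈ Z, lam (ζ c₀ * u') = 0 := fun ζ hζ => by
    rw [hu']
    exact LinearMap.congr_fun hφ ⟨ζ c₀, ζ, hζ, rfl⟩
  obtain ⟨u, rfl⟩ : ∃ u, u' = u * c₀ := ⟨u' / c₀, (div_mul_cancel₀ _ hc).symm⟩
  have h3 : ∀ x, lam (ζ₀ x * (u * x)) = 0 := fun x => by
    by_cases hx : x = 0
    · simp [hx]
    have := h1 _ (hinv _ hζ₀ (x / c₀) (div_ne_zero hx hc))
    simp only [LinearMap.comp_apply, LinearMap.mulLeft_apply, div_mul_cancel₀ _ hc] at this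
    convert this using 2
    field_simp
  have h4 : ∀ x z, lam (ζ₀ x * z) = -lam (ζ₀ z * x) := fun x z => by
    have := hsk _ hζ₀ (x + z)
    rw [map_add, add_mul, mul_add, mul_add, map_add, map_add, map_add, hsk _ hζ₀, hsk _ hζ₀] at this
    linear_combination this
  have h5 : ∀ z, ζ₀ (u * z) = u * ζ₀ z := fun z => eq_of_forall_map_mul_eq hlam fun x => by
    have := h3 (x + z)
    rw [map_add, add_mul, mul_add, mul_add, mul_add, map_add, map_add, map_add, h3, h3,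
      h4 x (u * z)] at this
    rw [mul_comm x, show x * (u * ζ₀ z) = ζ₀ z * (u * x) by ring]
    linear_combination -this
  by_cases h6 : LinearMap.ker (ζ₀ - LinearMap.mulRight F (ζ₀ 1)) = ⊤
  · have h7 : ∀ x, ζ₀ x = x * ζ₀ 1 := fun x => by
      simpa [sub_eq_zero] using Submodule.eq_top_iff'.1 h6 x
    have h8 : ζ₀ 1 = 0 := eq_of_forall_map_mul_eq hlam fun x => by
      have := h4 x 1
      rw [h7 x, mul_one, mul_comm (ζ₀ 1)] at this
      rw [mul_zero, map_zero]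
      exact mul_left_cancel₀ h2 (by linear_combination this)
    exact hne (LinearMap.ext fun x => by rw [h7, h8, mul_zero, LinearMap.zero_apply])
  · obtain ⟨η, rfl⟩ := exists_algebraMap_of_stabilizes hr (a₀ := 1) (by simp) one_ne_zero h6
      (e := u) fun a ha => by
        simp only [LinearMap.mem_ker, LinearMap.sub_apply, LinearMap.mulRight_apply,
          sub_eq_zero] at ha ⊢
        rw [h5, ha, mul_assoc]
    have := hu' y
    rw [hφy, mul_left_comm, ← Algebra.smul_def, map_smul, hy, smul_zero] at this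
    exact zero_ne_one this

end Field

variable {F K : Type*} [Field F] [Field K] [Algebra F K] {V : Type*} [AddCommGroup V]
  [Module F V] [Module K V] [IsScalarTower F K V]

/-- All the `F`-multiples of `ζ` come from elements of `M` acting trivially on `v^⊥`. -/
def C3ZZ (P₁ : PForm K V) (M : Subgroup (V ≃ₗ[F] V)) (v : V) (ζ : K →ₗ[F] K) : Prop :=
  ∀ l : F, ∃ k ∈ M, ∀ y, k y = y + (l • ζ (P₁.f y v)) • v

/-- The elements of `M` mapping a singular `K`-line to another one act semilinearly on it. -/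
def C3Semi (P₁ : PForm K V) (M : Subgroup (V ≃ₗ[F] V)) : Prop :=
  ∀ g ∈ M, ∀ u₁ u₂, P₁.Sing u₁ → u₁ ≠ 0 → P₁.Sing u₂ → u₂ ≠ 0 →
    act g (kline F K u₁) = kline F K u₂ → ∀ a : K, ∃ a' : K, ∀ s : K,
      g (a • s • u₁) = a' • g (s • u₁)

theorem kline_smul_eq {a : K} (ha : a ≠ 0) (v : V) : kline F K (a • v) = kline F K v := by
  unfold kline
  rw [Submodule.span_singleton_smul_eq (IsUnit.mk0 _ ha)]

theorem act_resHom_kline (t : V ≃ₗ[K] V) (v : V) :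
    act (resHom F t) (kline F K v) = kline F K (t v) := by
  ext x
  rw [mem_act, mem_kline, mem_kline, ← map_inv, resHom_apply]
  constructor
  · rintro ⟨a, ha⟩
    exact ⟨a, by rw [← map_smul, ha, apply_inv_apply]⟩
  · rintro ⟨a, rfl⟩
    exact ⟨a, by rw [← map_smul, inv_apply_apply]⟩

namespace C3T

variable {P : PForm F V} {P₁ : PForm K V} {lam : K →ₗ[F] F} {M : Subgroup (V ≃ₗ[F] V)}
  (X : C3T P P₁ lam M)
include X

variable [FiniteDimensional K V] [FiniteDimensional F V] [Finite F] [Finite K]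

theorem ZZ_trans {v v' : V} (hv : P₁.Sing v) (hv0 : v ≠ 0) (hv' : P₁.Sing v') (hv0' : v' ≠ 0)
    {ζ : K →ₗ[F] K} (h : C3ZZ P₁ M v ζ) : C3ZZ P₁ M v' ζ := by
  refine X.trans (p := fun v => C3ZZ P₁ M v ζ) (fun e y ν he x hx l => ?_) (fun c x hc hx l => ?_)
    hv0 hv0' hv hv' h
  · obtain ⟨k, hk, h1⟩ := hx l
    refine ⟨resHom F he.equiv * k * (resHom F he.equiv)⁻¹, M.mul_mem (M.mul_mem (X.res _ _ _ he) hk)
      (M.inv_mem (X.res _ _ _ he)), fun z => ?_⟩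
    rw [mul_apply', mul_apply', h1, map_add, apply_inv_apply, resHom_apply, map_smul, ← map_inv,
      resHom_apply, ← isom_f_right he.equiv_mem_isom, EV.equiv_apply]
  · obtain ⟨k, hk, h1⟩ := hx (l * c * c)
    refine ⟨k, hk, fun z => ?_⟩
    rw [h1, X.f_smulF, map_smul, smul_comm _ c x, ← smul_assoc c, smul_smul, smul_smul]
    congr 3
    ring

theorem ZZ_conj {v : V} (hv : P₁.Sing v) (hv0 : v ≠ 0) {ζ : K →ₗ[F] K} (h : C3ZZ P₁ M v ζ) {a : K}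
    (ha : a ≠ 0) : C3ZZ P₁ M v (LinearMap.mulLeft F a ∘ₗ ζ ∘ₗ LinearMap.mulLeft F a) := by
  intro l
  obtain ⟨k, hk, h1⟩ := X.ZZ_trans hv hv0 (hv.smul a) (smul_ne_zero ha hv0) h l
  refine ⟨k, hk, fun z => ?_⟩
  rw [h1, f_smul_right_Λ X.Λ₁, smul_smul]
  simp [mul_comm]

theorem ZZ_surj {v : V} (hv : P₁.Sing v) (hv0 : v ≠ 0) {ζ₀ : K →ₗ[F] K} (h : C3ZZ P₁ M v ζ₀)
    (hne : ζ₀ ≠ 0) {c₀ y : K} (hc : c₀ ≠ 0) (hy : lam (y * c₀) = 0) :
    ∃ k ∈ M, (∀ z, P₁.f z v = 0 → k z = z) ∧ ∀ z, P₁.f z v = c₀ → k z = z + y • v := by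
  let Z : Submodule F (K →ₗ[F] K) :=
    { carrier := {ζ | C3ZZ P₁ M v ζ}
      add_mem' := fun {ζ ζ'} h1 h2 l => by
        obtain ⟨k, hk, h3⟩ := h1 l
        obtain ⟨k', hk', h4⟩ := h2 l
        refine ⟨k' * k, M.mul_mem hk' hk, fun z => ?_⟩
        rw [mul_apply', h4, h3, P₁.f_add_left, P₁.f_smul_left, hv.f_self, mul_zero, add_zero,
          LinearMap.add_apply, smul_add, add_smul, add_assoc]
      zero_mem' := fun l => ⟨1, M.one_mem, fun z => by simp⟩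
      smul_mem' := fun c ζ h1 l => by
        obtain ⟨k, hk, h3⟩ := h1 (l * c)
        exact ⟨k, hk, fun z => by rw [h3, LinearMap.smul_apply, smul_smul]⟩ }
  obtain ⟨ζ, hζ, h1⟩ := c3_surj X.prime X.lam_ne X.two' Z (fun ζ hζ c => by
      obtain ⟨k, hk, h3⟩ := hζ 1
      obtain ⟨z, hz⟩ := P₁.exists_f_left_eq hv0 c
      have := isom_h (X.isom hk) z
      rw [X.Λ₀, AddSubgroup.mem_bot, h3, one_smul, h_add_of_Λ X.Λ₀, X.f_smul, hz,
        (sing_iff_of_Λ X.Λ₀).1 (X.sing (hv.smul _))] at this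
      linear_combination this)
    (fun ζ hζ a ha => X.ZZ_conj hv hv0 hζ ha) h hne hc hy
  obtain ⟨k, hk, h3⟩ := hζ 1
  exact ⟨k, hk, fun z hz => by rw [h3, hz, map_zero, smul_zero, zero_smul, add_zero],
    fun z hz => by rw [h3, hz, h1, one_smul]⟩

theorem radical_linear {v w : V} (hv : P₁.Sing v) (hv0 : v ≠ 0) (hw : P₁.f w v = 0)
    (hZ : ∀ ζ, C3ZZ P₁ M v ζ → ζ = 0) {n : V ≃ₗ[F] V} (hn : n ∈ M) (h1 : ∀ a : K, n (a • v) = a • v)
    (h2 : ∀ z, P₁.f z v = 0 → z - n z ∈ kline F K v) :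
    ∃ κ : K, ∀ β : K, n (β • w) = β • w + (β * κ) • v := by
  obtain ⟨v', -, h3⟩ := hv.exists_partner' hv0
  have h3' : P₁.f v v' = 1 := by rw [f_comm_of_Λ X.Λ₁, h3]
  let φ : K →ₗ[F] K := (P₁.fL v').restrictScalars F ∘ₗ (n.toLinearMap - LinearMap.id) ∘ₗ
    (LinearMap.toSpanSingleton K V w).restrictScalars F
  let ψ : K →ₗ[F] K := (P₁.fL w).restrictScalars F ∘ₗ ((n⁻¹).toLinearMap - LinearMap.id) ∘ₗ
    (LinearMap.toSpanSingleton K V v').restrictScalars F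
  have hφ : ∀ β : K, n (β • w) = β • w + φ β • v := fun β => by
    obtain ⟨c, hc⟩ := mem_kline.1 (h2 (β • w) (by rw [P₁.f_smul_left, hw, mul_zero]))
    have k1 : φ β = P₁.f (n (β • w) - β • w) v' := rfl
    rw [k1, ← neg_sub, ← hc, f_neg_left, P₁.f_smul_left, h3', mul_one, neg_smul, hc]
    abel
  have h4 : ∀ x, P₁.f (n⁻¹ x) v = P₁.f x v := fun x => eq_of_forall_map_mul_eq X.lam_ne fun a => by
    rw [← X.f_smul, ← X.f_smul, ← isom_f_right (X.isom hn), h1]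
  have hψ : ∀ x, P₁.f (n⁻¹ x) w = P₁.f x w + ψ (P₁.f x v) := fun x => by
    have k1 : ψ (P₁.f x v) = P₁.f (n⁻¹ (P₁.f x v • v') - P₁.f x v • v') w := rfl
    obtain ⟨c, hc⟩ := mem_kline.1 (h2 (n⁻¹ (x - P₁.f x v • v')) (by
      rw [h4, f_sub_left, P₁.f_smul_left, h3, mul_one, sub_self]))
    have k2 := congrArg (P₁.f · w) hc
    simp only [apply_inv_apply, map_sub, f_sub_left, P₁.f_smul_left c, f_symm_zero hw] at k2
    rw [k1, f_sub_left]
    linear_combination -k2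
  have h5 : ∀ s : K, C3ZZ P₁ M v (φ ∘ₗ LinearMap.mulLeft F s - LinearMap.mulLeft F s ∘ₗ ψ) := by
    intro s l
    have he := EV.of_h hv (y := (l • s) • w) (by rw [P₁.f_smul_left, hw, mul_zero])
    refine ⟨n * resHom F he.equiv * n⁻¹ * (resHom F he.equiv)⁻¹, M.mul_mem (M.mul_mem
      (M.mul_mem hn (X.res _ _ _ he)) (M.inv_mem hn)) (M.inv_mem (X.res _ _ _ he)), fun y => ?_⟩
    obtain ⟨x, rfl⟩ := (resHom F he.equiv).surjective y
    rw [mul_apply', inv_apply_apply, mul_apply', mul_apply', resHom_apply, resHom_apply,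
      EV.equiv_apply, EV.equiv_apply, he.f_eich_left, eich_apply_Λ X.Λ₁, eich_apply_Λ X.Λ₁,
      map_sub, map_add, apply_inv_apply, h1, h4, smul_smul, hφ, f_smul_right_Λ X.Λ₁,
      f_smul_right_Λ X.Λ₁, hψ, mul_smul_comm, map_smul, mul_comm _ s]
    simp only [LinearMap.sub_apply, LinearMap.comp_apply, LinearMap.mulLeft_apply,
      Algebra.smul_def]
    module
  refine ⟨ψ 1, fun β => ?_⟩
  have := LinearMap.congr_fun (hZ _ (h5 β)) 1
  simp only [LinearMap.sub_apply, LinearMap.comp_apply, LinearMap.mulLeft_apply, mul_one,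
    LinearMap.zero_apply, sub_eq_zero] at this
  rw [hφ, this]

theorem semi_of_stab {v : V} (hv : P₁.Sing v) (hv0 : v ≠ 0) (hZ : ∀ ζ, C3ZZ P₁ M v ζ → ζ = 0)
    {g : V ≃ₗ[F] V} (hg : g ∈ M) (h : act g (kline F K v) = kline F K v) (a : K) :
    ∃ a' : K, ∀ s : K, g (a • s • v) = a' • g (s • v) := by
  obtain ⟨v', hv', h3⟩ := hv.exists_partner' hv0
  obtain ⟨w, hw, hw', hη⟩ := X.exists_ns_perp hv hv' (f_symm_ne (by rw [h3]; exact one_ne_zero))
  have h1 : ∀ z, P₁.f (g⁻¹ z) v = 0 ↔ P₁.f z v = 0 := fun z => by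
    rw [← X.mem_perp_kline, ← mem_act, ← act_perp (X.isom hg), h, X.mem_perp_kline]
  have h2 : ∀ s : K, ∃ κ : K, ∀ β : K, g ((s * P₁.f (g⁻¹ (β • w)) w) • v) = β • κ • v := by
    intro s
    have he := EV.of_h hv (y := s • w) (by rw [P₁.f_smul_left, hw, mul_zero])
    have k1 : ∀ z, P₁.f z v = 0 →
        z - (g * resHom F he.equiv * g⁻¹) z = g ((s * P₁.f (g⁻¹ z) w) • v) := fun z hz => by
      rw [mul_apply', mul_apply', resHom_apply, EV.equiv_apply,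
        eich_apply_of_orth _ _ ((h1 z).2 hz), map_sub, apply_inv_apply, ε_eq_one_of_Λ X.Λ₁, one_mul,
        sub_sub_cancel, f_smul_right_Λ X.Λ₁]
    obtain ⟨κ, hκ⟩ := X.radical_linear hv hv0 hw hZ
      (M.mul_mem (M.mul_mem hg (X.res _ _ _ he)) (M.inv_mem hg)) (fun b => by
        rw [mul_apply', mul_apply', C3O.eich_kline he (mem_act.1 (h.ge (smul_mem_kline b v))),
          apply_inv_apply]) fun z hz => by
        rw [k1 z hz]
        exact h.le (apply_mem_act.2 (smul_mem_kline _ _))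
    refine ⟨-κ, fun β => ?_⟩
    rw [← k1 _ (by rw [P₁.f_smul_left, hw, mul_zero]), hκ]
    module
  have h4 : ∀ c : K, ∃ β : K, P₁.f (g⁻¹ (β • w)) w = c := fun c => by
    obtain ⟨α, β, k1⟩ := X.eq_of_perp hv hv0 hw (fun k1 => by
      obtain ⟨b, rfl⟩ := Submodule.mem_span_singleton.1 k1
      exact hη ((sing_iff_of_Λ X.Λ₁).1 (hv.smul b))) (z := g ((c / (2 * P₁.h w)) • w))
      ((h1 _).1 (by rw [inv_apply_apply, P₁.f_smul_left, hw, mul_zero]))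
    obtain ⟨b, hb⟩ := mem_kline.1 (mem_act.1 (h.ge (smul_mem_kline α v)))
    refine ⟨β, ?_⟩
    rw [eq_sub_of_add_eq' k1.symm, map_sub, inv_apply_apply, ← hb, f_sub_left, P₁.f_smul_left,
      P₁.f_smul_left, f_symm_zero hw, f_self_Λ X.Λ₁, div_mul_cancel₀ _ (mul_ne_zero X.two hη),
      mul_zero, sub_zero]
  obtain ⟨β₀, h5⟩ := h4 1
  obtain ⟨β, h6⟩ := h4 a
  have h7 : β₀ ≠ 0 := by
    rintro rfl
    rw [zero_smul, map_zero, f_zero_left] at h5
    exact zero_ne_one h5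
  refine ⟨β / β₀, fun s => ?_⟩
  obtain ⟨κ, hκ⟩ := h2 s
  have k1 := hκ β₀
  have k2 := hκ β
  rw [h5, mul_one] at k1
  rw [h6] at k2
  rw [smul_smul, mul_comm, k1, k2, smul_smul (β / β₀), div_mul_cancel₀ _ h7]

theorem semi_of_noZ (hZ : ∀ v, P₁.Sing v → v ≠ 0 → ∀ ζ, C3ZZ P₁ M v ζ → ζ = 0) : C3Semi P₁ M := by
  intro g hg u₁ u₂ h1 h1' h2 h2'
  revert g
  refine X.trans (p := fun u => ∀ g ∈ M, act g (kline F K u₁) = kline F K u → ∀ a : K, ∃ a' : K,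
    ∀ s : K, g (a • s • u₁) = a' • g (s • u₁)) (fun e y ν he x hx g hg h a => ?_)
    (fun c x hc hx g hg h => hx g hg ?_) h1' h2' h1 h2
    fun g hg h => X.semi_of_stab h1 h1' (hZ _ h1 h1') hg h
  · obtain ⟨a', ha⟩ := hx ((resHom F he.equiv)⁻¹ * g) (M.mul_mem (M.inv_mem (X.res _ _ _ he)) hg)
      (by rw [act_mul, h, ← EV.equiv_apply he, ← act_resHom_kline, act_inv_act]) a
    refine ⟨a', fun s => he.equiv⁻¹.injective ?_⟩
    rw [map_smul he.equiv⁻¹ a']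
    exact ha s
  · rw [h, ← algebraMap_smul K, kline_smul_eq ((map_ne_zero _).2 hc)]

theorem mem_kline_of_nonorth {v x : V} (hv : P₁.Sing v) (hv0 : v ≠ 0) {ζ₀ : K →ₗ[F] K}
    (hZ : C3ZZ P₁ M v ζ₀) (hne : ζ₀ ≠ 0) {W : Submodule F V}
    (hE : Extr (orb P₁ M) (kline F K v) W) (hx : x ∈ W)
    (hxv : P₁.f x v ≠ 0) {y : V} (hy : y ∈ W) (hyv : P₁.f y v = 0) : y ∈ kline F K v := by
  by_contra hy'
  have h1 : kline F K v ⊓ P.perp (F ∙ x) ≤ W := by
    rintro u ⟨hu, h1⟩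
    obtain ⟨c, rfl⟩ := mem_kline.1 hu
    obtain ⟨k, hk, h2, h3⟩ := X.ZZ_surj hv hv0 hZ hne hxv (y := c) (by
      rw [← X.f_smul]; exact f_symm_zero (mem_perp_span_singleton.1 h1))
    have h4 := hE.act_eq (act_mem_orb hE.right hk) (fun u hu _ => h2 u (by
      obtain ⟨a, rfl⟩ := mem_kline.1 hu
      rw [P₁.f_smul_left, hv.f_self, mul_zero])) hy (by rwa [h2 y hyv]) (by rwa [h2 y hyv])
    have h5 : k x ∈ W := h4.le (apply_mem_act.2 hx)
    rw [h3 x rfl] at h5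
    simpa using W.sub_mem h5 hx
  have h2 : (kline F K v ⊓ P.perp (F ∙ x)) ⊔ F ∙ y = W := by
    refine Submodule.eq_of_le_of_finrank_le
      (sup_le h1 ((Submodule.span_singleton_le_iff_mem _ _).2 hy)) ?_
    rw [finrank_sup_span_of_notMem (S := kline F K v ⊓ P.perp (F ∙ x)) (fun h => hy' h.1), finrank_of_mem_orb hE.right,
      ← finrank_kline hv0]
    exact finrank_le_inf_perp _ _
  obtain ⟨s, hs, c, rfl⟩ := mem_sup_span.1 (h2.ge hx)
  obtain ⟨a, rfl⟩ := mem_kline.1 hs.1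
  exact hxv (by rw [P₁.f_add_left, P₁.f_smul_left, f_smul_F', hv.f_self, hyv]; simp)

theorem exists_orth (hZ : ∃ v ζ, P₁.Sing v ∧ v ≠ 0 ∧ C3ZZ P₁ M v ζ ∧ ζ ≠ 0) {v x : V}
    (hv : P₁.Sing v) (hv0 : v ≠ 0) {W : Submodule F V}
    (hE : Extr (orb P₁ M) (kline F K v) W) (h0 : kline F K v ⊓ W ≠ ⊥) (hx : x ∈ W)
    (hxv : P₁.f x v ≠ 0) : ∃ v' W', P₁.Sing v' ∧ v' ≠ 0 ∧ Extr (orb P₁ M) (kline F K v') W' ∧
      kline F K v' ⊓ W' ≠ ⊥ ∧ ∀ y ∈ W', P₁.f y v' = 0 := by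
  obtain ⟨v₀, ζ₀, hv₀, hv₀0, hζ, hne⟩ := hZ
  have hZ := X.ZZ_trans hv₀ hv₀0 hv hv0 hζ
  obtain ⟨v', hv', h3⟩ := hv.exists_partner' hv0
  obtain ⟨w, hw, hw', hη⟩ := X.exists_ns_perp hv hv' (f_symm_ne (by rw [h3]; exact one_ne_zero))
  have hw0 : w ≠ 0 := by rintro rfl; exact hη ((sing_iff_of_Λ X.Λ₁).1 P₁.sing_zero)
  obtain ⟨y, hy, hy0, hys⟩ := P.exists_sing (kline F K w) (by
    rw [finrank_kline hw0]; exact X.d₀.trans X.r3)
  obtain ⟨b, rfl⟩ := mem_kline.1 hy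
  have hb : b ≠ 0 := left_ne_zero_of_smul hy0
  have h4 : P₁.f (b • w) v = 0 := by rw [P₁.f_smul_left, hw, mul_zero]
  have h5 : b • w ∉ kline F K v := fun h => by
    obtain ⟨a, ha⟩ := mem_kline.1 h
    have := (sing_iff_of_Λ X.Λ₁).1 (hv.smul a)
    rw [ha, h_smul_of_Λ X.Λ₁] at this
    exact mul_ne_zero (mul_ne_zero hb hb) hη this
  replace hys : P.h (b • w) = 0 := (sing_iff_of_Λ X.Λ₀).1 hys
  generalize b • w = y at h4 h5 hys
  have hWp := X.le_perp_of_mem_orb hE.right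
  obtain ⟨p, hp, u, hu, h6⟩ : ∃ p ∈ P.perp W, ∃ u ∈ kline F K v, p + u = y := by
    rw [← Submodule.mem_sup, ← perp_perp (P := P) (kline F K v), ← perp_inf]
    rintro z ⟨hz1, hz2⟩
    obtain ⟨a, rfl⟩ := mem_kline.1
      (X.mem_kline_of_nonorth hv hv0 hZ hne hE hx hxv hz1 (X.mem_perp_kline.1 hz2))
    rw [X.f_smul, h4, mul_zero, map_zero]
  obtain ⟨μ, rfl⟩ := mem_kline.1 hu
  have hn := EV.of_h hv (y := (P₁.f x v)⁻¹ • y) (by rw [P₁.f_smul_left, h4, mul_zero])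
  obtain ⟨k, hk, k1, k2⟩ := X.ZZ_surj hv hv0 hZ hne hxv
    (y := P₁.f x ((P₁.f x v)⁻¹ • y) + P₁.h ((P₁.f x v)⁻¹ • y) * P₁.f x v - μ) (by
      have j1 : P.f x y = lam (μ * P₁.f x v) := by
        rw [← h6, f_add_right, f_of_mem_perp' hp hx, zero_add, X.f_smul]
      have j2 : (P₁.f x ((P₁.f x v)⁻¹ • y) + P₁.h ((P₁.f x v)⁻¹ • y) * P₁.f x v - μ) * P₁.f x v =
          P₁.f x y + P₁.h y - μ * P₁.f x v := by
        rw [f_smul_right_Λ X.Λ₁, h_smul_of_Λ X.Λ₁]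
        field_simp
      rw [j2, map_sub, map_add, ← X.f_tr, ← X.h_tr, hys, j1, add_zero, sub_self])
  have hg := M.mul_mem hk (X.res _ _ _ hn)
  have h7 : (k * resHom F hn.equiv) x = x + p := by
    rw [mul_apply', resHom_apply, EV.equiv_apply, k2 _ (hn.f_eich_left x), eich_apply_Λ X.Λ₁,
      smul_smul, mul_inv_cancel₀ hxv, one_smul, eq_sub_of_add_eq h6]
    module
  have h8 : ∀ u ∈ kline F K v, (k * resHom F hn.equiv) u = u := fun u hu => by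
    rw [mul_apply', C3O.eich_kline hn hu]
    obtain ⟨a, rfl⟩ := mem_kline.1 hu
    exact k1 _ (by rw [P₁.f_smul_left, hv.f_self, mul_zero])
  generalize k * resHom F hn.equiv = g at hg h7 h8
  have h2 : x + p ∈ P.perp W := (P.perp W).add_mem (hWp hx) hp
  have h9 : x + p ∉ W := fun h => by
    have j1 := X.mem_kline_of_nonorth hv hv0 hZ hne hE hx hxv ((W.add_mem_iff_right hx).1 h) (by
      rw [eq_sub_of_add_eq h6, f_sub_left, P₁.f_smul_left, h4, hv.f_self, mul_zero, sub_zero])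
    exact h5 (h6 ▸ (kline F K v).add_mem j1 (smul_mem_kline μ v))
  have h10 : x + p ∈ act g W := h7 ▸ apply_mem_act.2 hx
  have h11 : kline F K v ⊓ W ≤ W ⊓ act g W := fun u hu =>
    ⟨hu.2, by rw [← h8 u hu.1]; exact apply_mem_act.2 hu.2⟩
  have h12 := hE.of_le hE.right (act_mem_orb hE.right hg) (fun h => h9 (h ▸ h10)) h11
  obtain ⟨g', hg', v₁, W', hv₁, hv₁0, hE', h13, h14⟩ := exists_std h12
  have h15 : kline F K v₁ ⊓ W' ≠ ⊥ := fun h => h0 (by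
    rw [h14, h13, ← act_inf, h] at h11
    rw [← h13] at h11
    exact eq_bot_iff.2 (h11.trans (Submodule.map_bot _).le))
  refine ⟨v₁, W', hv₁, hv₁0, hE', h15, fun z hz => ?_⟩
  by_contra h16
  rw [h14, mem_act] at h10
  rw [h13, act_perp (X.isom hg'), mem_act, X.mem_perp_kline] at h2
  rw [h13, mem_act] at h9
  exact h9 (X.mem_kline_of_nonorth hv₁ hv₁0 (X.ZZ_trans hv₀ hv₀0 hv₁ hv₁0 hζ) hne hE' hz h16 h10 h2)

theorem E_le_of_extr (hZ : ∃ v ζ, P₁.Sing v ∧ v ≠ 0 ∧ C3ZZ P₁ M v ζ ∧ ζ ≠ 0) {U U' : Submodule F V}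
    (hE : Extr (orb P₁ M) U U') (h0 : U ⊓ U' ≠ ⊥) : P.E ≤ M := by
  obtain ⟨g, -, v, W, hv, hv0, hE', rfl, rfl⟩ := exists_std hE
  have h1 : kline F K v ⊓ W ≠ ⊥ := fun h => h0 (by rw [← act_inf, h]; exact Submodule.map_bot _)
  by_cases h2 : ∀ y ∈ W, P₁.f y v = 0
  · exact X.E_le_of_orth hv hv0 hE' h1 h2
  · push Not at h2
    obtain ⟨x, hx, hxv⟩ := h2
    obtain ⟨v', W', k1, k2, k3, k4, k5⟩ := X.exists_orth hZ hv hv0 hE' h1 hx hxv
    exact X.E_le_of_orth k1 k2 k3 k4 k5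

end C3T

end Cfsg.Agent.H77
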