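import Cfsg.Agent.H77.ElusExt

/-!
# Conjugacy of elements of prime order in symplectic groups
-/

set_option autoImplicit false

namespace Cfsg.Agent.H77

open Module Cfsg.Agent.H76 Cfsg.Agent.H31
open Cfsg.Agent.H27 (jBilin)
open scoped Matrix

section IConj

variable {F V : Type*} [Field F] [AddCommGroup V] [Module F V] {B : V →ₗ[F] V →ₗ[F] F}
  {S : End F V → Prop} {f g : End F V} {ε : F}

/-- `f` is conjugate under an isometry of `B` to a map satisfying `S`. -/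
def IConj (B : V →ₗ[F] V →ₗ[F] F) (S : End F V → Prop) (f : End F V) : Prop :=
  ∃ (e : V ≃ₗ[F] V) (g : End F V), (∀ u v, B (e u) (e v) = B u v) ∧ S g ∧ ∀ v, e (g v) = f (e v)

theorem IConj.exists (h : IConj B S f) (hf : Pres B f) : ∃ g, S g ∧ Pres B g ∧ Sim g f :=
  let ⟨e, g, h1, h2, h3⟩ := h
  ⟨g, h2, fun u v => by rw [← h1, h3, h3, hf, h1], e, h3⟩

theorem sim_finrank_ker (h : Sim g f) (c : F) : finrank F (LinearMap.ker (g - c • 1)) =
    finrank F (LinearMap.ker (f - c • 1)) := by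
  obtain ⟨e, he⟩ := h
  rw [← e.finrank_map_eq, Submodule.map_equiv_eq_comap_symm]
  refine congrArg (fun W : Submodule F V => finrank F W) (Submodule.ext fun v => ?_)
  obtain ⟨v, rfl⟩ := e.surjective v
  simp [sub_eq_zero, ← he, ← map_smul]

theorem sim_finrank_fixK (h : Sim g f) : finrank F (fixK g) = finrank F (fixK f) := by
  have := sim_finrank_ker h 1
  rwa [one_smul] at this

theorem IConj.exists_pow (h : IConj B S f) (hf : Pres B f) {r : ℕ} (hr : f ^ r = 1) :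
    ∃ g, S g ∧ Pres B g ∧ g ^ r = 1 ∧ finrank F (fixK g) = finrank F (fixK f) := by
  obtain ⟨g, h1, h2, h3⟩ := h.exists hf
  exact ⟨g, h1, h2, by simpa using (sim_pow_eq_smul_iff h3 r 1).mpr (by rwa [one_smul]),
    sim_finrank_fixK h3⟩

theorem ne_smul_of_pow_odd [Nontrivial V] (hB : IsEForm ε B) (hf : Pres B f) {r : ℕ} (hr : Odd r)
    (h : f ^ r = 1) (h1 : finrank F (fixK f) < finrank F V) (z : F) : f ≠ z • 1 := fun hz => by
  obtain ⟨j, rfl⟩ := hr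
  rw [hz, smul_pow, one_pow, pow_succ, pow_mul, sq_eq_one_of_pres_smul hB (hz ▸ hf), one_pow,
    one_mul, ← hz] at h
  rw [h, fixK, sub_self, LinearMap.ker_zero, finrank_top] at h1
  omega

variable [FiniteDimensional F V]

theorem iConj_of_sq_one (hB : IsEForm ε B) (hA : ∀ v, B v v = 0) (h2 : (2 : F) ≠ 0)
    (hf : Pres B f) (hg : Pres B g) (h : f ^ 2 = 1) (h' : g ^ 2 = 1)
    (hd : finrank F (fixK g) = finrank F (fixK f)) (hS : S g) : IConj B S f := by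
  have h3 := isSemisimple_of_sq h2 h
  have h4 := isSemisimple_of_sq h2 h'
  obtain ⟨e, h5, h6⟩ := alt_witt_nd hB hA (nondegOn_fixK hB hg h4) (nondegOn_fixK hB hf h3) hd
  refine ⟨e, g, h5, hS, fun v => ?_⟩
  obtain ⟨a, ha, b, hb, rfl⟩ := Submodule.mem_sup.mp
    ((ef_isCompl_perp hB (nondegOn_fixK hB hg h4)).sup_eq_top ▸ Submodule.mem_top (x := v))
  have h7 : e b ∈ perp B (fixK f) := by
    rw [← h6, ← map_perp h5]
    exact ⟨b, hb, rfl⟩
  rw [map_add, map_add e a, map_add f, mem_fixK.mp ha,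
    mem_fixK.mp (show e a ∈ fixK f from h6 ▸ ⟨a, ha, rfl⟩),
    apply_eq_neg_of_mem_perp hB hg h4 h' b hb, apply_eq_neg_of_mem_perp hB hf h3 h _ h7, map_add,
    map_neg]

theorem alt_finrank_fixK (hB : IsEForm ε B) (hA : ∀ v, B v v = 0) (h2 : (2 : F) ≠ 0)
    (hf : Pres B f) (h : f ^ 2 = 1) : Even (finrank F (fixK f)) ∧
      (f ≠ 1 → finrank F (fixK f) < finrank F V) ∧ (f ≠ -1 → 0 < finrank F (fixK f)) := by
  have h3 := isSemisimple_of_sq h2 h
  refine ⟨alt_even_finrank hB hA (nondegOn_fixK hB hf h3), fun h4 => Submodule.finrank_lt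
    fun h5 => h4 (sub_eq_zero.mp (LinearMap.ker_eq_top.mp h5)),
    fun h4 => Nat.pos_of_ne_zero fun h5 => h4 (LinearMap.ext fun v =>
      apply_eq_neg_of_mem_perp hB hf h3 h v ?_)⟩
  rw [Submodule.finrank_eq_zero.mp h5, perp_bot]
  trivial

variable [Fintype F] {p : ℕ} [Fact p.Prime] [CharP F p]

theorem iConj_of_sq_neg (hB : IsEForm ε B) (hp2 : 2 ≠ p) (hf : Pres B f) (hg : Pres B g)
    (h : f ^ 2 = (-1 : F) • 1) (h' : g ^ 2 = (-1 : F) • 1) (hS : S g) : IConj B S f := by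
  let L := AlgebraicClosure F
  have key : ∀ {f : End F V}, Pres B f → f ^ 2 = (-1 : F) • 1 → ∃ s : Multiset (Lˣ × ℕ),
      HasJ L f s ∧ Unif (-1) 2 (finrank F V) s ∧ ∀ x ∈ s, x.1 ^ 2 = -1 := fun {f} hf h => by
    obtain ⟨s, hs⟩ := exists_hasJ (L := L) (f := f) ((isUnit_pow_iff two_ne_zero).mp
      (h ▸ isUnit_one.smul (-1 : Fˣ)))
    have h1 := (hs.pow_eq_smul_iff p 2 (-1)).mp h
    have h2 : ∀ x ∈ s, x.1 ^ 2 = -1 := fun x hx => Units.ext (by simpa using (h1 x hx).1)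
    refine ⟨s, hs, ⟨⟨hs.pos, hs.dual_eq (dualLaw_id L) hB.sep hf, hs.wt_eq⟩,
      snd_eq_one_of_pk Fact.out Nat.prime_two hp2 hs.pos ⟨fun x hx y hy =>
        (h2 x hx).trans (h2 y hy).symm, fun x hx => (h1 x hx).2⟩, fun x hx =>
      per_of_dvd Nat.prime_two (by decide) (by simp [h2 x hx]) fun h3 => ?_⟩, h2⟩
    rw [zpow_neg_one, inv_eq_iff_mul_eq_one, ← sq, h2 x hx] at h3
    exact units_neg_one_ne_one hp2 h3
  obtain ⟨s, h1, h2, h3⟩ := key hf h
  obtain ⟨t, h4, h5, h6⟩ := key hg h'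
  obtain rfl := h2.eq_of_pow_eq two_pos hp2 h5 h3 h6
  obtain ⟨e, h7, h8⟩ := hB.exists_isom_of_sim hB hg hf (h4.sim h1) (h4.free (Or.inr fun x hx h =>
    units_neg_one_ne_one hp2 ((h6 x hx).symm.trans h)))
  exact ⟨e, g, h8, hS, h7⟩

theorem alt_exists_tv (hB : IsEForm (-1) B) (hA : ∀ v, B v v = 0) (hn : 2 ≤ finrank F V) :
    ∃ f, Pres B f ∧ f ^ p = 1 ∧ finrank F (fixK f) = finrank F V - 1 := by
  have h0 := (Fact.out : p.Prime).two_le
  have h1 : ∀ e ∈ 2 ::ₘ Multiset.replicate (finrank F V - 2) 1, 0 < e ∧ e ≤ p := fun e he => by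
    rcases Multiset.mem_cons.mp he with rfl | he
    · omega
    · rw [Multiset.eq_of_mem_replicate he]; omega
  obtain ⟨m, hm⟩ := H27.even_finrank_of_alt hB.nondegenerate hA
  obtain ⟨f, h2, h3⟩ := exists_pres_alt (L := AlgebraicClosure F) hB hA
    (s := udata 1 (2 ::ₘ Multiset.replicate (finrank F V - 2) 1)) (by
      convert (fadm_udata_iff fun e he => (h1 e he).1).mpr fun e he => ?_
      · simp; omega
      rw [Multiset.count_cons_of_ne (by rintro rfl; exact he even_two), Multiset.count_replicate]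
      split_ifs
      exacts [⟨m - 1, by omega⟩, Even.zero])
  exact ⟨f, h2, h3.pow_char_eq_one fun e he => (h1 e he).2, by
    have := h3.finrank_ker_tv hn
    rwa [one_smul] at this⟩

omit [Fintype F] [Fact p.Prime] [CharP F p] in
theorem exists_invol_of_nondegOn {σ : F →+* F} {B : V →ₛₗ[σ] V →ₗ[F] F} (hB : IsEForm ε B)
    (h2 : (2 : F) ≠ 0) {W : Submodule F V} (h3 : NondegOn B W) :
    ∃ f, Pres B f ∧ f ^ 2 = 1 ∧ fixK f = W := by
  have h4 := ef_isCompl_perp hB h3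
  have h5 : ∀ v, ∃ a ∈ W, ∃ b ∈ perp B W, a + b = v := fun v =>
    Submodule.mem_sup.mp (h4.sup_eq_top ▸ Submodule.mem_top)
  obtain ⟨f, h6⟩ : ∃ f : End F V, ∀ a ∈ W, ∀ b ∈ perp B W, f (a + b) = a + -b :=
    ⟨LinearMap.ofIsCompl h4 W.subtype (-(perp B W).subtype), fun a ha b hb => by
      rw [map_add, LinearMap.ofIsCompl_apply_left h4 ⟨a, ha⟩,
        LinearMap.ofIsCompl_apply_right h4 ⟨b, hb⟩]; rfl⟩
  refine ⟨f, fun u v => ?_, LinearMap.ext fun v => ?_, Submodule.ext fun v => ?_⟩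
  · obtain ⟨a, ha, b, hb, rfl⟩ := h5 u
    obtain ⟨c, hc, d, hd, rfl⟩ := h5 v
    simp [h6 a ha b hb, h6 c hc d hd, mem_perp.mp hd a ha, (ef_mem_perp' hB).mp hb c hc]
  · obtain ⟨a, ha, b, hb, rfl⟩ := h5 v
    rw [sq, End.mul_apply, h6 a ha b hb, h6 a ha _ (neg_mem hb), neg_neg, End.one_apply]
  · obtain ⟨a, ha, b, hb, rfl⟩ := h5 v
    rw [mem_fixK, h6 a ha b hb, add_right_inj, W.add_mem_iff_right ha, neg_eq_iff_add_eq_zero,
      ← two_smul F, smul_eq_zero, or_iff_right h2]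
    exact ⟨fun h => h ▸ W.zero_mem, fun h => Submodule.disjoint_def.mp h4.disjoint b h hb⟩

omit [Fact p.Prime] [CharP F p] in
theorem alt_exists_invol (hB : IsEForm ε B) (hA : ∀ v, B v v = 0) (h2 : (2 : F) ≠ 0) {a : ℕ}
    (ha : Even a) (hn : a ≤ finrank F V) : ∃ f, Pres B f ∧ f ^ 2 = 1 ∧ finrank F (fixK f) = a := by
  obtain ⟨W, -, h3, rfl⟩ := alt_exists_nd_le hB hA (ef_nondegOn_top hB) ha (by rwa [finrank_top])
  obtain ⟨f, h4, h5, rfl⟩ := exists_invol_of_nondegOn hB h2 h3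
  exact ⟨f, h4, h5, rfl⟩

theorem alt_exists_prime (hB : IsEForm (-1) B) (hA : ∀ v, B v v = 0) {r : ℕ} [Fact r.Prime]
    (hrp : r ≠ p) (hr2 : r ≠ 2) {a : ℕ}
    (h : cOf (orderOf (Fintype.card F : ZMod r)) * a ≤ finrank F V) :
    ∃ f, Pres B f ∧ f ^ r = 1 ∧
      finrank F (fixK f) = finrank F V - cOf (orderOf (Fintype.card F : ZMod r)) * a := by
  obtain ⟨b, hb⟩ := exists_tp (fun _ => orderOf_zmod_lt (natCast_card_ne_zero' (F := F) hrp)) a
  obtain ⟨f, h1, h2, h3, -⟩ := alt_exists_freeStr hB hA hrp hr2 (Nat.sub_add_cancel h) hb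
  exact ⟨f, h1, h2, h3⟩

omit [Fintype F] [Fact p.Prime] [CharP F p] [FiniteDimensional F V] in
theorem ne_smul_of_finrank_fixK (h0 : 0 < finrank F (fixK f))
    (h1 : finrank F (fixK f) < finrank F V) (z : F) : f ≠ z • 1 := by
  rintro rfl
  have := Module.finite_of_finrank_pos h0
  obtain ⟨⟨v, h2⟩, h3⟩ := finrank_pos_iff_exists_ne_zero.mp h0
  obtain rfl : z = 1 := smul_left_injective F (fun h => h3 (Subtype.ext h))
    ((mem_fixK.mp h2).trans (one_smul F v).symm)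
  rw [one_smul, fixK, sub_self, LinearMap.ker_zero, finrank_top] at h1
  omega

end IConj

section Mat

variable {F : Type*} [Field F] {d r : ℕ}

theorem mem_spGL_iff_pres {g : GL (Fin d ⊕ Fin d) F} : g ∈ spGL d F ↔ Pres (jBilin (Fin d) F)
    (Matrix.toLin' (g : Matrix (Fin d ⊕ Fin d) (Fin d ⊕ Fin d) F)) := by
  rw [spGL, H27.sympForm_eq_fun]
  rfl

theorem forall_spGL_conj_iff {H : Subgroup (GL (Fin d ⊕ Fin d) F)}
    {S : End F (Fin d ⊕ Fin d → F) → Prop} (hS : ∀ g : GL (Fin d ⊕ Fin d) F,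
      g ∈ H ↔ S (Matrix.toLin' (g : Matrix (Fin d ⊕ Fin d) (Fin d ⊕ Fin d) F))) :
    (∀ x ∈ spGL d F, (∃ z : F, ((x ^ r : GL (Fin d ⊕ Fin d) F) :
        Matrix (Fin d ⊕ Fin d) (Fin d ⊕ Fin d) F) =
        z • (1 : Matrix (Fin d ⊕ Fin d) (Fin d ⊕ Fin d) F)) →
      (∀ z : F, (x : Matrix (Fin d ⊕ Fin d) (Fin d ⊕ Fin d) F) ≠
        z • (1 : Matrix (Fin d ⊕ Fin d) (Fin d ⊕ Fin d) F)) →
      ∃ g ∈ spGL d F, g⁻¹ * x * g ∈ H) ↔
    ∀ f, Pres (jBilin (Fin d) F) f → (∃ z : F, f ^ r = z • 1) → (∀ z : F, f ≠ z • 1) →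
      IConj (jBilin (Fin d) F) S f := by
  have key : ∀ x : GL (Fin d ⊕ Fin d) F, (∃ g ∈ spGL d F, g⁻¹ * x * g ∈ H) ↔ IConj
      (jBilin (Fin d) F) S (Matrix.toLin' (x : Matrix (Fin d ⊕ Fin d) (Fin d ⊕ Fin d) F)) := by
    refine fun x => ⟨fun ⟨g, h1, h2⟩ => ⟨H27.glToLin _ F g, _, mem_spGL_iff_pres.mp h1,
      (hS _).mp h2, fun v => by simp [H27.glToLin_apply]⟩, fun ⟨e, y, h1, h2, h3⟩ => ?_⟩
    obtain ⟨g, rfl⟩ := (H27.glToLin _ F).surjective e
    refine ⟨g, mem_spGL_iff_pres.mpr h1, (hS _).mpr ?_⟩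
    convert h2
    refine LinearMap.ext fun v => (H27.glToLin _ F g).injective ((h3 v).trans ?_).symm
    simp [H27.glToLin_apply]
  simp only [key]
  simp only [mem_spGL_iff_pres, Units.val_pow_eq_pow_val, Ne, ← toLin'_eq_smul_iff,
    Matrix.toLin'_pow]
  refine ⟨fun h f h1 => ?_, fun h x => h _⟩
  obtain ⟨x, rfl⟩ := exists_gl_toLin' ((isEForm_jBilin (Fin d)).sep.isUnit_of_pres h1)
  exact h x h1

theorem relIndex_mul_dvd_spOrder [Fintype F] {H : Subgroup (GL (Fin d ⊕ Fin d) F)} {G : Type*}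
    [Group G] (φ : G →* H27.isomGroup (jBilin (Fin d) F)) (hφ : Function.Injective φ)
    (h : ∀ g, H27.isomToGL _ (φ g) ∈ H) :
    H.relIndex (spGL d F) * Nat.card G ∣ H27.spOrder (Fintype.card F) d := by
  rw [← H27.range_isomToGL_jBilin, ← Subgroup.index_comap,
    ← H27.card_isomGroup (H27.jBilin_nondegenerate (l := Fin d)) H27.jBilin_isAlt
      (by simp [two_mul]),
    ← Subgroup.index_mul_card (H.comap (H27.isomToGL _))]
  exact Nat.mul_dvd_mul_left _ (Subgroup.card_dvd_of_injective (φ.codRestrict _ h)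
    fun a b hab => hφ (congrArg Subtype.val hab))

end Mat

end Cfsg.Agent.H77
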