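import Cfsg.Agent.H77.ElusConj

/-!
# Extension field structures on symplectic spaces
-/

set_option autoImplicit false

namespace Cfsg.Agent.H77

open Module Cfsg.Agent.H76 Cfsg.Agent.H31
open Cfsg.Agent.H27 (jBilin)
open scoped Matrix

section Arith

theorem prod_range_mul_eq {M : Type*} [CommMonoid M] (g : ℕ → M) {k : ℕ} (hk : 0 < k) (m : ℕ) :
    ∏ i ∈ Finset.range (k * m), g (i + 1) = (∏ i ∈ Finset.range m, g (k * (i + 1))) *
      ∏ i ∈ (Finset.range (k * m)).filter fun i => ¬ k ∣ i + 1, g (i + 1) := by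
  rw [← Finset.prod_filter_mul_prod_filter_not (Finset.range (k * m)) fun i => k ∣ i + 1]
  congr 1
  have h : ∀ i, k * (i + 1) - 1 + 1 = k * (i + 1) := fun i =>
    Nat.sub_add_cancel (Nat.mul_pos hk i.succ_pos)
  refine (Finset.prod_bij (fun i _ => k * (i + 1) - 1) (fun i hi => ?_) (fun i _ j _ hij => ?_)
    (fun j hj => ?_) fun i _ => by rw [h]).symm
  · have : k * (i + 1) ≤ k * m := Nat.mul_le_mul_left k (Finset.mem_range.mp hi)
    have := h i
    exact Finset.mem_filter.mpr ⟨Finset.mem_range.mpr (by omega), by rw [h]; exact dvd_mul_right _ _⟩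
  · have := Nat.eq_of_mul_eq_mul_left hk ((h i).symm.trans (hij ▸ h j))
    omega
  · obtain ⟨h1, _ | a, h2⟩ := Finset.mem_filter.mp hj
    · omega
    · refine ⟨a, Finset.mem_range.mpr (Nat.le_of_mul_le_mul_left ?_ hk), by omega⟩
      have := Finset.mem_range.mp h1
      rw [Nat.succ_eq_add_one]
      omega

theorem exists_dvd_of_spOrder {r N q k m : ℕ} (hr : r.Prime) (hrq : ¬ r ∣ q) (hq : 1 < q)
    (hk : 0 < k) (h : N * H27.spOrder (q ^ k) m ∣ H27.spOrder q (k * m)) (hN : r ∣ N) :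
    ∃ j, 0 < j ∧ j ≤ k * m ∧ ¬ k ∣ j ∧ r ∣ q ^ (2 * j) - 1 := by
  rw [H27.spOrder, H27.spOrder, prod_range_mul_eq (fun j => q ^ (2 * j) - 1) hk, mul_comm (∏ _ ∈ _, _),
    ← mul_assoc, ← mul_assoc, Finset.prod_congr rfl (g := fun i => q ^ (2 * (k * (i + 1))) - 1)
      fun i _ => by rw [← pow_mul, mul_left_comm],
    Nat.mul_dvd_mul_iff_right (Finset.prod_pos fun i _ => Nat.sub_pos_of_lt
      (Nat.one_lt_pow (by positivity) hq))] at h
  obtain ⟨i, h1, h2⟩ := (hr.prime.dvd_finsetProd_iff _).mp ((hr.prime.dvd_or_dvd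
    ((hN.mul_right _).trans h)).resolve_left fun h => hrq (hr.dvd_of_dvd_pow h))
  obtain ⟨h3, h4⟩ := Finset.mem_filter.mp h1
  exact ⟨i + 1, i.succ_pos, Finset.mem_range.mp h3, h4, h2⟩

theorem exists_dvd_of_ordGU {r N q d : ℕ} (hr : r.Prime) (hrq : ¬ r ∣ q) (hq : 1 < q)
    (h : N * ordGU q d ∣ H27.spOrder q d) (hN : r ∣ N) :
    ∃ j, 0 < j ∧ j ≤ d ∧ (r : ℤ) ∣ (-(q : ℤ)) ^ j + 1 := by
  have h1 := (mul_dvd_mul_left (N : ℤ) (prod_dvd_ordGU hq.le d)).trans
    (by exact_mod_cast Int.natCast_dvd_natCast.mpr h : _ ∣ (H27.spOrder q d : ℤ))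
  have hp := Nat.prime_iff_prime_int.mp hr
  rw [H27.spOrder, Nat.cast_mul, Nat.cast_prod, Finset.prod_congr rfl
    (f := fun i => ((q ^ (2 * (i + 1)) - 1 : ℕ) : ℤ))
    (g := fun i => ((-(q : ℤ)) ^ (i + 1) + 1) * ((-(q : ℤ)) ^ (i + 1) - 1)) fun i _ => by
      rw [Nat.cast_sub (Nat.one_le_pow _ _ (by omega)), ← sq_sub_sq, ← pow_mul, mul_comm _ 2,
        pow_mul (-_), neg_sq, ← pow_mul]
      simp, Finset.prod_mul_distrib, ← mul_assoc,
    mul_dvd_mul_iff_right (Finset.prod_ne_zero_iff.mpr fun i _ => sub_ne_zero.mpr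
      (pow_ne_one_of_two_le (by omega) (by omega)))] at h1
  obtain ⟨i, h2, h3⟩ := (hp.dvd_finsetProd_iff _).mp ((hp.dvd_or_dvd
    ((Int.natCast_dvd_natCast.mpr hN).trans h1)).resolve_left
      fun h => hrq (hr.dvd_of_dvd_pow (Int.natCast_dvd_natCast.mp h)))
  exact ⟨i + 1, i.succ_pos, Finset.mem_range.mp h2, h3⟩

theorem cOf_dvd_of_dvd {r q j : ℕ} (hq : 0 < q) (h : r ∣ q ^ (2 * j) - 1) :
    cOf (orderOf (q : ZMod r)) ∣ 2 * j := by
  refine cOf_dvd (orderOf_dvd_of_pow_eq_one ?_) (even_two_mul j)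
  have := (ZMod.natCast_eq_zero_iff _ _).mpr h
  rwa [Nat.cast_sub (Nat.one_le_pow _ _ hq), Nat.cast_pow, Nat.cast_one, sub_eq_zero] at this

end Arith

section Form

variable {F K V : Type*} [Field F] [Field K] [Algebra F K] [AddCommGroup V] [Module F V]
  [Module K V] [IsScalarTower F K V] {f : End F V} {B : V →ₗ[F] V →ₗ[F] F} {τ : K →+* K}
  {H : V →ₛₗ[τ] V →ₗ[K] K} {lam : K →ₗ[F] F}

omit [IsScalarTower F K V] in
theorem KLin.pres_toEnd (hf : KLin K f) (hlam : lam ≠ 0) (hB : ∀ u v, B u v = lam (H u v))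
    (h : Pres B f) : Pres H hf.toEnd := fun u v => H27.eq_of_forall_map_mul_eq hlam fun a => by
  have := h u (a • v)
  rwa [hf, hB, hB, map_smul, (H u).map_smul] at this

theorem KLin.finrank_fixK (hf : KLin K f) :
    finrank F (fixK f) = finrank F K * finrank K (fixK hf.toEnd) :=
  finrank_restrictScalars' (fixK hf.toEnd)

omit [Algebra F K] [IsScalarTower F K V] in
theorem KLin.toEnd_pow_eq_one (hf : KLin K f) {r : ℕ} (h : f ^ r = 1) : hf.toEnd ^ r = 1 :=
  LinearMap.ext fun v => by rw [hf.toEnd_pow_apply, h]; rfl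

theorem exists_semi_form {ι : Type*} [Fintype ι] (b : Basis ι K V) (σ : K →ₐ[F] K)
    (hσ : ∀ a, σ (σ a) = a) (hτ : ∀ a, τ (σ a) = σ (τ a))
    (hH : ∀ i j, σ (H (b i) (b j)) = H (b i) (b j)) : ∃ θ : End F V,
      (∀ a v, θ (a • v) = σ a • θ v) ∧ θ ^ 2 = 1 ∧ ∀ u v, H (θ u) (θ v) = σ (H u v) := by
  obtain ⟨θ, h1, h2⟩ := exists_semi_basis b σ
  refine ⟨θ, h1, LinearMap.ext fun v => ?_, fun u v => ?_⟩
  · rw [← b.sum_repr v]
    simp only [sq, End.mul_apply, map_sum, h1, h2, hσ, End.one_apply]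
  · rw [← b.sum_repr u, ← b.sum_repr v]
    simp only [map_sum, h1, h2, LinearMap.sum_apply, LinearMap.map_smulₛₗ, LinearMap.smul_apply,
      smul_eq_mul, map_mul, hτ, hH, RingHom.id_apply]

/-- Restriction of scalars on isometry groups. -/
def resIsom (hB : ∀ u v, B u v = lam (H u v)) : isom H →* H27.isomGroup B where
  toFun g := ⟨g.1.restrictScalars F, fun u v => by rw [hB, hB]; exact congrArg lam (g.2 u v)⟩
  map_one' := rfl
  map_mul' _ _ := rfl

omit [Algebra F K] [IsScalarTower F K V] in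
theorem not_kLin_of_semi [Nontrivial V] {σ : K → K} (h : ∀ a v, f (a • v) = σ a • f v)
    (hu : IsUnit f) (hσ : ∃ a, σ a ≠ a) : ¬ KLin K f := fun h' =>
  let ⟨a, ha⟩ := hσ
  let ⟨v, hv⟩ := exists_ne (0 : V)
  ha (smul_left_injective K ((map_ne_zero_iff _ ((End.isUnit_iff _).mp hu).1).mpr hv)
    ((h a v).symm.trans (h' a v)))

variable [Fintype F] [Finite K]

omit [Module F V] [IsScalarTower F K V] in
theorem frob_two (hK : finrank F K = 2) :
    (∀ a, FiniteField.frobeniusAlgHom F K (FiniteField.frobeniusAlgHom F K a) = a) ∧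
      (∃ a, FiniteField.frobeniusAlgHom F K a ≠ a) ∧
      (∀ a, Algebra.trace F K (FiniteField.frobeniusAlgHom F K a) = Algebra.trace F K a) ∧
      ∀ σ : K →ₐ[F] K, σ ≠ 1 → σ = FiniteField.frobeniusAlgHom F K := by
  have h := (FiniteField.orderOf_frobeniusAlgHom F K).trans hK
  refine ⟨fun a => DFunLike.congr_fun (h ▸ pow_orderOf_eq_one (FiniteField.frobeniusAlgHom F K)) a,
    by_contra fun h' => ?_, fun a => Algebra.trace_eq_of_algEquiv
      (FiniteField.frobeniusAlgEquivOfAlgebraic F K) a, fun σ hσ => ?_⟩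
  · rw [show FiniteField.frobeniusAlgHom F K = 1 from AlgHom.ext (by simpa using h'),
      orderOf_one] at h
    omega
  · obtain ⟨⟨i, hi⟩, rfl⟩ := (FiniteField.bijective_frobeniusAlgHom_pow F K).2 σ
    obtain rfl | rfl : i = 0 ∨ i = 1 := by omega
    exacts [absurd rfl hσ, rfl]

variable [FiniteDimensional F V] {p : ℕ} [Fact p.Prime] [CharP F p] {r : ℕ} [Fact r.Prime]

omit [Fintype F] [Finite K] in
theorem two_mul_dvd_finrank_fixK {h : LinearMap.BilinForm K V} (T : H27.TraceForm h lam B)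
    (hf : KLin K f) (h1 : Pres B f) (hrp : r ≠ p) (h2 : f ^ r = 1) :
    finrank F K * 2 ∣ finrank F (fixK f) := by
  have : CharP K p := charP_of_injective_algebraMap (algebraMap F K).injective p
  have : Module.Finite K V := Module.Finite.of_restrictScalars_finite F K V
  have h3 := isEForm_of_isAlt T.alt T.nd
  rw [hf.finrank_fixK]
  exact Nat.mul_dvd_mul_left _ (alt_even_finrank h3 T.alt (nondegOn_fixK h3
    (hf.pres_toEnd T.ne T.eq h1)
    (isSemisimple_of_pow_eq_one hrp (hf.toEnd_pow_eq_one h2)))).two_dvd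

omit [Fact r.Prime] [Fact p.Prime] [CharP F p] in
theorem exists_semi_invol [Nontrivial V] {h : LinearMap.BilinForm K V}
    (T : H27.TraceForm h lam B) (hK : finrank F K = 2) :
    ∃ θ : End F V, Semi K θ ∧ ¬ KLin K θ ∧ Pres B θ ∧ θ ^ 2 = 1 := by
  have : Module.Finite K V := Module.Finite.of_restrictScalars_finite F K V
  obtain ⟨h1, h2, h3, -⟩ := frob_two (F := F) hK
  obtain ⟨c, hc⟩ := H27.exists_forall_map_mul_eq (Algebra.trace_ne_zero F K) lam
  have h4 : c ≠ 0 := by rintro rfl; exact T.ne (LinearMap.ext fun a => by simp [← hc])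
  have h5 := (isEForm_of_isAlt T.alt T.nd).smul h4
  have h6 : (c • h).IsAlt := fun v => by simp [T.alt v]
  obtain ⟨m, hm⟩ := (H27.even_finrank_of_alt h5.nondegenerate h6).two_dvd
  obtain ⟨φ, hφ⟩ := H27.exists_equiv_jBilin h5.nondegenerate h6 hm
  obtain ⟨θ, h7, h8, h9⟩ := exists_semi_form (H := c • h) ((Pi.basisFun K _).map φ) _ h1
    (fun _ => rfl) fun i j => by
      rw [Basis.map_apply, Basis.map_apply, hφ]
      rcases i with i | i <;> simp [H27.jBilin_single_inl_left, H27.jBilin_single_inr_left,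
        Pi.single_apply, -FiniteField.frobeniusAlgHom_apply,
        apply_ite (FiniteField.frobeniusAlgHom F K)]
  have h10 : ∀ u v, B u v = Algebra.trace F K ((c • h) u v) := fun u v => by
    rw [T.eq, ← hc, mul_comm]; rfl
  exact ⟨θ, fun a => ⟨_, h7 a⟩, not_kLin_of_semi h7 ((isUnit_pow_iff two_ne_zero).mp
    (h8 ▸ isUnit_one)) h2, fun u v => by rw [h10, h9, h3, h10], h8⟩

omit [Fact r.Prime] [Fintype F] in
theorem exists_kLin_sq_eq_neg {h : LinearMap.BilinForm K V} (T : H27.TraceForm h lam B)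
    (hp2 : 2 ≠ p) : ∃ g : End F V, KLin K g ∧ Pres B g ∧ g ^ 2 = (-1 : F) • 1 := by
  have : CharP K p := charP_of_injective_algebraMap (algebraMap F K).injective p
  have : Module.Finite K V := Module.Finite.of_restrictScalars_finite F K V
  have := Fintype.ofFinite K
  obtain ⟨g, h1, h2⟩ := alt_exists_sq_eq_neg (isEForm_of_isAlt T.alt T.nd) T.alt hp2
  refine ⟨_, kLin_restrictScalars g, fun u v => by rw [T.eq, T.eq]; exact congrArg lam (h1 u v), ?_⟩
  rw [restrictScalars_pow, h2]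
  ext v
  simp

end Form

section Herm

variable {F K V : Type*} [Field F] [Fintype F] [Field K] [Fintype K] [Algebra F K]
  [AddCommGroup V] [Module F V] [Module K V] [IsScalarTower F K V] {f : End F V}
  {B : V →ₗ[F] V →ₗ[F] F} {lam : K →ₗ[F] F}

theorem exists_herm_trace [Nontrivial V] (hK : finrank F K = 2)
    (hq : Fintype.card K = Fintype.card F ^ 2) (hB : IsEForm (-1) B)
    (hac : ∀ a : K, ∃ a' : K, ∀ u v, B (a • u) v = B u (a' • v))
    (hns : ¬ ∀ (a : K) u v, B (a • u) v = B u (a • v)) :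
    ∃ (H : V →ₛₗ[frobQ hq] V →ₗ[K] K) (lam : K →ₗ[F] F), IsHerm H ∧ lam ≠ 0 ∧
      (∀ a, lam (frobQ hq a) = -lam a) ∧ ∀ u v, B u v = lam (H u v) := by
  obtain ⟨h1, -, h2, h3⟩ := frob_two (F := F) hK
  choose s hs using hac
  obtain ⟨v, hv⟩ := exists_ne (0 : V)
  have h4 : ∀ a b : K, (∀ u, B u (a • v) = B u (b • v)) → a = b := fun a b h =>
    smul_left_injective K hv (hB.sep.ext h)
  have h5 := h3 {
    toFun := s
    map_one' := h4 _ _ fun u => by rw [← hs, one_smul, one_smul]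
    map_mul' := fun a b => h4 _ _ fun u => by rw [← hs, mul_comm a b, mul_smul, hs, hs, mul_smul]
    map_zero' := h4 _ _ fun u => by rw [← hs, zero_smul, zero_smul, map_zero, map_zero]; rfl
    map_add' := fun a b => h4 _ _ fun u => by
      rw [← hs, add_smul, add_smul, map_add, map_add, LinearMap.add_apply, hs, hs]
    commutes' := fun c => h4 _ _ fun u => by
      rw [← hs, algebraMap_smul, algebraMap_smul, map_smul, map_smul]; rfl }
    fun h => hns fun a u v => (hs a u v).trans (congrArg (B u <| · • v) (DFunLike.congr_fun h a))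
  replace hs : ∀ a u v, B (a • u) v = B u (frobQ hq a • v) := fun a u v =>
    (hs a u v).trans (congrArg (B u <| · • v) (DFunLike.congr_fun h5 a))
  obtain ⟨ω, h6, h7⟩ := (isInvol_frobQ hq).exists_skew
  obtain ⟨lam, h8, h9⟩ : ∃ lam : K →ₗ[F] F, lam ≠ 0 ∧ ∀ a, lam (frobQ hq a) = -lam a :=
    ⟨Algebra.trace F K ∘ₗ LinearMap.mulLeft F ω, fun h => Algebra.trace_ne_zero F K
      (LinearMap.ext fun a => by simpa [h6] using DFunLike.congr_fun h (ω⁻¹ * a)), fun a => by
        rw [LinearMap.comp_apply, LinearMap.comp_apply, ← h2, ← map_neg, LinearMap.mulLeft_apply,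
          map_mul]
        erw [h7, h1]
        rw [neg_mul, LinearMap.mulLeft_apply]⟩
  choose H hH using fun u v : V => H27.exists_forall_map_mul_eq h8
    ((B u).comp ((LinearMap.toSpanSingleton K V v).restrictScalars F))
  replace hH : ∀ (u v : V) (a : K), lam (a * H u v) = B u (a • v) := hH
  have h10 : ∀ u v, B u v = lam (H u v) := fun u v => by simpa using (hH u v 1).symm
  refine ⟨LinearMap.mk₂'ₛₗ _ (RingHom.id K) H
    (fun u u' v => H27.eq_of_forall_map_mul_eq h8 fun a => by simp [mul_add, hH])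
    (fun c u v => H27.eq_of_forall_map_mul_eq h8 fun a => by
      rw [smul_eq_mul, ← mul_assoc, hH, hH, hs, smul_smul, mul_comm])
    (fun u v v' => H27.eq_of_forall_map_mul_eq h8 fun a => by simp [mul_add, hH])
    (fun c u v => H27.eq_of_forall_map_mul_eq h8 fun a => by
      rw [smul_eq_mul, ← mul_assoc, hH, hH, smul_smul]; rfl), lam,
    ⟨⟨isInvol_frobQ hq, fun u v => H27.eq_of_forall_map_mul_eq h8 fun a => ?_⟩,
      fun u hu => hB.sepL u fun v => (h10 u v).trans ((congrArg lam (hu v)).trans lam.map_zero)⟩,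
    h8, h9, h10⟩
  change lam (a * frobQ hq (H u v)) = lam (a * H v u)
  rw [hH, hB.symm, hs, ← hH, ← (isInvol_frobQ hq).invol a, ← map_mul, h9,
    (isInvol_frobQ hq).invol]
  simp

variable [FiniteDimensional F V] {hq : Fintype.card K = Fintype.card F ^ 2}
  {H : V →ₛₗ[frobQ hq] V →ₗ[K] K}

theorem exists_semi_sq_eq_neg (hK : finrank F K = 2) (h : IsHerm H)
    (hl : ∀ a, lam (frobQ hq a) = -lam a) (hB : ∀ u v, B u v = lam (H u v)) :
    ∃ g : End F V, Semi K g ∧ Pres B g ∧ g ^ 2 = (-1 : F) • 1 := by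
  have : Module.Finite K V := Module.Finite.of_restrictScalars_finite F K V
  obtain ⟨b, hb⟩ := h.exists_on_basis rfl
  obtain ⟨θ, h1, h2, h3⟩ := exists_semi_form (H := H) b _ (frob_two (F := F) hK).1 (fun _ => rfl)
    fun i j => by rw [hb]; split_ifs <;> simp
  obtain ⟨β, hβ⟩ := h.inv.exists_norm_eq (a := -1) (by rw [map_neg, map_one])
  refine ⟨((β • 1 : End K V).restrictScalars F : End F V) * θ, fun a => ⟨_, fun v => by
    rw [End.mul_apply, h1]; exact smul_comm _ _ _⟩, fun u v => ?_, LinearMap.ext fun v => ?_⟩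
  · change B (β • θ u) (β • θ v) = _
    rw [hB, map_smul, LinearMap.map_smulₛₗ, LinearMap.smul_apply, h3, smul_smul, hβ, hB,
      smul_eq_mul, neg_one_mul, map_neg]
    erw [hl, neg_neg]
  · change β • θ (β • θ v) = _
    rw [h1, smul_smul, ← End.mul_apply, ← sq, h2]
    erw [hβ]
    simp

theorem exists_kLin_invol (h : IsHerm H) (hB : ∀ u v, B u v = lam (H u v)) (h2 : (2 : F) ≠ 0)
    {a : ℕ} (ha : a ≤ finrank K V) :
    ∃ g : End F V, KLin K g ∧ Pres B g ∧ g ^ 2 = 1 ∧ finrank F (fixK g) = finrank F K * a := by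
  have : Module.Finite K V := Module.Finite.of_restrictScalars_finite F K V
  obtain ⟨W, -, rfl, h3⟩ := herm_exists_nondeg_le h h.nondegOn_top (m := a) (by rwa [finrank_top])
  obtain ⟨g, h4, h5, h6⟩ := exists_invol_of_nondegOn (isEForm_of_isHerm h)
    (fun h => h2 ((algebraMap F K).injective (by rw [map_ofNat, h, map_zero]))) h3
  refine ⟨_, kLin_restrictScalars g, fun u v => by rw [hB, hB]; exact congrArg lam (h4 u v),
    by rw [restrictScalars_pow, h5]; rfl, ?_⟩
  rw [← h6]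
  exact (kLin_restrictScalars g).finrank_fixK

end Herm

theorem herm_pow_eq_one {F V : Type*} [Field F] [Fintype F] [AddCommGroup V] [Module F V]
    [FiniteDimensional F V] {q p r : ℕ} [Fact p.Prime] [CharP F p] {hq : Fintype.card F = q ^ 2}
    {H : V →ₛₗ[frobQ hq] V →ₗ[F] F} (h : IsHerm H) {f : End F V} (hf : Pres H f) (hr : r.Prime)
    (hrp : r ≠ p) (h1 : f ^ r = 1) :
    ((-(q : ℤ) : ℤ) : ZMod r) ^ (finrank F V - finrank F (fixK f)) = 1 := by
  let L := AlgebraicClosure F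
  by_cases h2 : (r : ℤ) ∣ -(q : ℤ) - 1
  · rw [orderOf_eq_one_iff.mp (dvd_sub_one_iff.mp h2), one_pow]
  have hB := isEForm_of_isHerm h
  obtain ⟨s, hs⟩ := exists_hasJ (L := L) (hB.sep.isUnit_of_pres hf)
  have h3 := (hs.pow_eq_smul_iff p r 1).mp (by rwa [one_smul])
  have h4 : ∀ x ∈ s, x.1 ^ r = 1 := fun x hx => Units.ext (by simpa using (h3 x hx).1)
  obtain ⟨d, g, a, h5, h6, h7, h8⟩ := split_of_pk hr hrp h2 ((adm_neg_iff hq).mp
    ⟨hs.adm, hs.dual_eq (dualLaw_frobQ L hq) hB.sep hf⟩)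
    ⟨fun x hx y hy => (h4 x hx).trans (h4 y hy).symm, fun x hx => (h3 x hx).2⟩
  generalize nf (-(q : ℤ)) s = k at h6 h8
  rw [show Multiset.replicate k (d, 1) = Multiset.replicate k (1, 1) from
    Multiset.eq_replicate.mpr ⟨by simp, fun x hx => by
      obtain rfl := Multiset.eq_of_mem_replicate hx
      rw [eq_one_of_fixed hr h2 (α := d) (h4 _ (h6 ▸ Multiset.mem_add.mpr (Or.inl hx))) h5]⟩, add_comm] at h6
  have h9 := (h6 ▸ hs).finrank_ker_eq (c := 1) (fun x hx h => (h7.per x hx).ne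
    (mt dvd_sub_one_iff.mpr h2) (by rw [h, one_zpow])) (by simp)
  rw [one_smul] at h9
  rw [h9, h8, Nat.add_sub_cancel_left, pow_mul, pow_orderOf_eq_one, one_pow]

theorem relIndex_mul_card_isom_dvd {F K : Type*} [Field F] [Fintype F] [Field K] [Algebra F K]
    {d : ℕ} [Module K (Fin d ⊕ Fin d → F)] [IsScalarTower F K (Fin d ⊕ Fin d → F)] {τ : K →+* K}
    {H : (Fin d ⊕ Fin d → F) →ₛₗ[τ] (Fin d ⊕ Fin d → F) →ₗ[K] K} {lam : K →ₗ[F] F}
    (hB : ∀ u v, jBilin (Fin d) F u v = lam (H u v)) {N : Subgroup (GL (Fin d ⊕ Fin d) F)}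
    (hN : ∀ g : GL (Fin d ⊕ Fin d) F,
      g ∈ N ↔ Semi K (Matrix.toLin' (g : Matrix (Fin d ⊕ Fin d) (Fin d ⊕ Fin d) F))) :
    N.relIndex (spGL d F) * Nat.card (isom H) ∣ H27.spOrder (Fintype.card F) d :=
  relIndex_mul_dvd_spOrder (resIsom hB) (fun _ _ h => Subtype.ext (LinearEquiv.ext fun v =>
    DFunLike.congr_fun (congrArg Subtype.val h) v)) fun g => (hN _).mpr (by
      rw [H27.toLin'_isomToGL]; exact KLin.semi g.1.map_smul)

end Cfsg.Agent.H77
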