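import Cfsg.Agent.H17.LPDefs

/-! Codes for `T / Q` and its action on `Q / Z` in the model group `2 ^ 10 : L₅(2)`. -/

set_option autoImplicit false
set_option linter.unusedSimpArgs false

namespace Cfsg.Agent.H77.Lp

open Subgroup Matrix Cfsg.Agent.H17.LP

/-- bit `i` of `c` -/
def bt (c i : ℕ) : ℕ := c / 2 ^ i % 2

/-- The code of an element of `T` modulo `Q`: bits `x12 x34 x35 x45 z34 z35 z45`. -/
def tc (n : N0) : ℕ :=
  (n.g.1 0 1).val + 2 * (n.g.1 2 3).val + 4 * (n.g.1 2 4).val + 8 * (n.g.1 3 4).val +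
  16 * (n.a 2 3).val + 32 * (n.a 2 4).val + 64 * (n.a 3 4).val

/-- multiplication of codes -/
def tm (c d : ℕ) : ℕ :=
  (bt c 0 ^^^ bt d 0) + 2 * (bt c 1 ^^^ bt d 1) + 4 * (bt c 2 ^^^ bt d 2 ^^^ (bt c 1 &&& bt d 3)) +
  8 * (bt c 3 ^^^ bt d 3) +
  16 * (bt c 4 ^^^ bt d 4 ^^^ (bt c 2 &&& bt d 6) ^^^ (bt c 3 &&& bt d 5) ^^^
    (bt c 3 &&& bt c 1 &&& bt d 6)) +
  32 * (bt c 5 ^^^ bt d 5 ^^^ (bt c 1 &&& bt d 6)) + 64 * (bt c 6 ^^^ bt d 6)

/-- the equations on bits -/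
def fb (e p q r a b c v0 v1 v2 v3 v4 v5 v6 v7 v8 v9 v10 v11 : ℕ) : Bool :=
  (v0 &&& 0) == 0 && (e &&& v9) == 0 && (v9 &&& p) == 0 && ((v6 &&& p) ^^^ (e &&& v10)) == 0 &&
  ((v9 &&& q) ^^^ (v10 &&& r)) == 0 && ((v9 &&& b) ^^^ (v10 &&& c)) == 0 &&
  ((v6 &&& q) ^^^ (v7 &&& r) ^^^ (e &&& v11)) == 0 &&
  ((v6 &&& b) ^^^ (v7 &&& c) ^^^ (e &&& v5)) == 0 &&
  ((v9 &&& a) ^^^ (v11 &&& c) ^^^ (v5 &&& r)) == 0 &&
  ((v10 &&& a) ^^^ (v11 &&& b) ^^^ (v4 &&& p) ^^^ (v5 &&& q)) == 0 &&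
  ((v6 &&& a) ^^^ (v8 &&& c) ^^^ (e &&& v4) ^^^ ((v2 ^^^ (e &&& v5)) &&& r)) == 0 &&
  ((v7 &&& a) ^^^ (v8 &&& b) ^^^ (e &&& v3) ^^^ ((v1 ^^^ (e &&& v4)) &&& p) ^^^
    ((v2 ^^^ (e &&& v5)) &&& q)) == 0

/-- the code `c` of `T / Q` fixes the code `v` of `Q / Z` -/
def fx (c v : ℕ) : Bool :=
  fb (bt c 0) (bt c 1) (bt c 2) (bt c 3) (bt c 4) (bt c 5) (bt c 6) (bt v 0) (bt v 1) (bt v 2)
    (bt v 3) (bt v 4) (bt v 5) (bt v 6) (bt v 7) (bt v 8) (bt v 9) (bt v 10) (bt v 11)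

theorem vlt (x : F) : x.val < 2 := ZMod.val_lt x
theorem vadd (x y : F) : (x + y).val = x.val ^^^ y.val := by revert x y; decide
theorem vmul (x y : F) : (x * y).val = x.val &&& y.val := by revert x y; decide
theorem vzero (x : F) : x = 0 ↔ x.val = 0 := by revert x; decide

theorem tc_lt (n : N0) : tc n < 128 := by
  have := vlt (n.g.1 0 1); have := vlt (n.g.1 2 3); have := vlt (n.g.1 2 4)
  have := vlt (n.g.1 3 4); have := vlt (n.a 2 3); have := vlt (n.a 2 4); have := vlt (n.a 3 4)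
  unfold tc; omega

theorem bt_tc (n : N0) : bt (tc n) 0 = (n.g.1 0 1).val ∧ bt (tc n) 1 = (n.g.1 2 3).val ∧
    bt (tc n) 2 = (n.g.1 2 4).val ∧ bt (tc n) 3 = (n.g.1 3 4).val ∧ bt (tc n) 4 = (n.a 2 3).val ∧
    bt (tc n) 5 = (n.a 2 4).val ∧ bt (tc n) 6 = (n.a 3 4).val := by
  have := vlt (n.g.1 0 1); have := vlt (n.g.1 2 3); have := vlt (n.g.1 2 4)
  have := vlt (n.g.1 3 4); have := vlt (n.a 2 3); have := vlt (n.a 2 4); have := vlt (n.a 3 4)
  unfold tc bt; omega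

theorem bt_qc (n : N0) : bt (qc n) 0 = (n.a 0 2).val ∧ bt (qc n) 1 = (n.a 0 3).val ∧
    bt (qc n) 2 = (n.a 0 4).val ∧ bt (qc n) 3 = (n.a 1 2).val ∧ bt (qc n) 4 = (n.a 1 3).val ∧
    bt (qc n) 5 = (n.a 1 4).val ∧ bt (qc n) 6 = (n.g.1 0 2).val ∧
    bt (qc n) 7 = (n.g.1 0 3).val ∧ bt (qc n) 8 = (n.g.1 0 4).val ∧
    bt (qc n) 9 = (n.g.1 1 2).val ∧ bt (qc n) 10 = (n.g.1 1 3).val ∧
    bt (qc n) 11 = (n.g.1 1 4).val := by
  have := vlt (n.a 0 2); have := vlt (n.a 0 3); have := vlt (n.a 0 4)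
  have := vlt (n.a 1 2); have := vlt (n.a 1 3); have := vlt (n.a 1 4)
  have := vlt (n.g.1 0 2); have := vlt (n.g.1 0 3); have := vlt (n.g.1 0 4)
  have := vlt (n.g.1 1 2); have := vlt (n.g.1 1 3); have := vlt (n.g.1 1 4)
  unfold qc bt
  refine ⟨?_, ?_, ?_, ?_, ?_, ?_, ?_, ?_, ?_, ?_, ?_, ?_⟩ <;> omega

theorem alt_form (n : N0) : n.a = !![0, n.a 0 1, n.a 0 2, n.a 0 3, n.a 0 4;
    n.a 0 1, 0, n.a 1 2, n.a 1 3, n.a 1 4; n.a 0 2, n.a 1 2, 0, n.a 2 3, n.a 2 4;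
    n.a 0 3, n.a 1 3, n.a 2 3, 0, n.a 3 4; n.a 0 4, n.a 1 4, n.a 2 4, n.a 3 4, 0] := by
  ext i j
  fin_cases i <;> fin_cases j <;> first | rfl | exact n.alt.2 _ | exact n.alt.symm _ _

theorem T_form {s : N0} (hs : s ∈ T0) : s.g.1 = !![1, s.g.1 0 1, s.g.1 0 2, s.g.1 0 3, s.g.1 0 4;
    0, 1, s.g.1 1 2, s.g.1 1 3, s.g.1 1 4; 0, 0, 1, s.g.1 2 3, s.g.1 2 4;
    0, 0, 0, 1, s.g.1 3 4; 0, 0, 0, 0, 1] := by
  have h := (mem_Pat.1 hs).2
  ext i j
  fin_cases i <;> fin_cases j <;> first | rfl | exact h _ _ (by decide)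

theorem Q_le_T : Q0 ≤ T0 := fun v hv => mem_Pat.2 ⟨fun _ _ h => by simp at h, fun i j h =>
  (mem_Pat.1 hv).2 i j (by revert i j; decide)⟩

theorem tc_eq_zero {s : N0} (hs : s ∈ T0) : tc s = 0 ↔ s ∈ Q0 := by
  constructor
  · intro h
    have h' : s.g.1 0 1 = 0 ∧ s.g.1 2 3 = 0 ∧ s.g.1 2 4 = 0 ∧ s.g.1 3 4 = 0 ∧ s.a 2 3 = 0 ∧
        s.a 2 4 = 0 ∧ s.a 3 4 = 0 := by
      simp only [vzero]; unfold tc at h; omega
    obtain ⟨h1, h2, h3, h4, h5, h6, h7⟩ := h'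
    refine mem_Pat.2 ⟨fun i j hij => ?_, fun i j hij => ?_⟩
    · rw [alt_form s, h5, h6, h7]
      fin_cases i <;> fin_cases j <;> first | rfl | exact absurd hij (by decide)
    · rw [T_form hs, h1, h2, h3, h4]
      fin_cases i <;> fin_cases j <;> first | rfl | exact absurd hij (by decide)
  · intro h
    obtain ⟨h1, h2⟩ := mem_Pat.1 h
    unfold tc
    rw [h2 0 1 (by decide), h2 2 3 (by decide), h2 2 4 (by decide), h2 3 4 (by decide),
      h1 2 3 (by decide), h1 2 4 (by decide), h1 3 4 (by decide)]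
    decide

theorem two0 : (2 : F) = 0 := rfl

theorem T_facts {s : N0} (hs : s ∈ T0) :
    s.g.1 0 0 = 1 ∧ s.g.1 1 0 = 0 ∧ s.g.1 1 1 = 1 ∧ s.g.1 2 0 = 0 ∧ s.g.1 2 1 = 0 ∧ s.g.1 2 2 =
    1 ∧ s.g.1 3 0 = 0 ∧ s.g.1 3 1 = 0 ∧ s.g.1 3 2 = 0 ∧ s.g.1 3 3 = 1 ∧ s.g.1 4 0 = 0 ∧ s.g.1 4
    1 = 0 ∧ s.g.1 4 2 = 0 ∧ s.g.1 4 3 = 0 ∧ s.g.1 4 4 = 1 :=
  have h := (mem_Pat.1 hs).2
  ⟨h 0 0 (by decide), h 1 0 (by decide), h 1 1 (by decide), h 2 0 (by decide), h 2 1 (by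
   decide), h 2 2 (by decide), h 3 0 (by decide), h 3 1 (by decide), h 3 2 (by decide), h 3 3
   (by decide), h 4 0 (by decide), h 4 1 (by decide), h 4 2 (by decide), h 4 3 (by decide), h 4
   4 (by decide)⟩

theorem Q_facts {s : N0} (hs : s ∈ Q0) :
    s.g.1 0 0 = 1 ∧ s.g.1 0 1 = 0 ∧ s.g.1 1 0 = 0 ∧ s.g.1 1 1 = 1 ∧ s.g.1 2 0 = 0 ∧ s.g.1 2 1 =
    0 ∧ s.g.1 2 2 = 1 ∧ s.g.1 2 3 = 0 ∧ s.g.1 2 4 = 0 ∧ s.g.1 3 0 = 0 ∧ s.g.1 3 1 = 0 ∧ s.g.1 3
    2 = 0 ∧ s.g.1 3 3 = 1 ∧ s.g.1 3 4 = 0 ∧ s.g.1 4 0 = 0 ∧ s.g.1 4 1 = 0 ∧ s.g.1 4 2 = 0 ∧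
    s.g.1 4 3 = 0 ∧ s.g.1 4 4 = 1 :=
  have h := (mem_Pat.1 hs).2
  ⟨h 0 0 (by decide), h 0 1 (by decide), h 1 0 (by decide), h 1 1 (by decide), h 2 0 (by
   decide), h 2 1 (by decide), h 2 2 (by decide), h 2 3 (by decide), h 2 4 (by decide), h 3 0
   (by decide), h 3 1 (by decide), h 3 2 (by decide), h 3 3 (by decide), h 3 4 (by decide), h 4
   0 (by decide), h 4 1 (by decide), h 4 2 (by decide), h 4 3 (by decide), h 4 4 (by decide)⟩

theorem Qa_facts {s : N0} (hs : s ∈ Q0) : s.a 2 3 = 0 ∧ s.a 2 4 = 0 ∧ s.a 3 4 = 0 :=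
  have h := (mem_Pat.1 hs).1
  ⟨h 2 3 (by decide), h 2 4 (by decide), h 3 4 (by decide)⟩

theorem A_facts (s : N0) :
    s.a 0 0 = 0 ∧ s.a 1 0 = s.a 0 1 ∧ s.a 1 1 = 0 ∧ s.a 2 0 = s.a 0 2 ∧ s.a 2 1 = s.a 1 2 ∧ s.a
    2 2 = 0 ∧ s.a 3 0 = s.a 0 3 ∧ s.a 3 1 = s.a 1 3 ∧ s.a 3 2 = s.a 2 3 ∧ s.a 3 3 = 0 ∧ s.a 4 0
    = s.a 0 4 ∧ s.a 4 1 = s.a 1 4 ∧ s.a 4 2 = s.a 2 4 ∧ s.a 4 3 = s.a 3 4 ∧ s.a 4 4 = 0 :=
  ⟨s.alt.2 0, s.alt.symm 1 0, s.alt.2 1, s.alt.symm 2 0, s.alt.symm 2 1, s.alt.2 2, s.alt.symm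
   3 0, s.alt.symm 3 1, s.alt.symm 3 2, s.alt.2 3, s.alt.symm 4 0, s.alt.symm 4 1, s.alt.symm 4
   2, s.alt.symm 4 3, s.alt.2 4⟩

theorem tc_mul {s t : N0} (hs : s ∈ T0) (ht : t ∈ T0) : tc (s * t) = tm (tc s) (tc t) := by
  obtain ⟨a0, a1, a2, a3, a4, a5, a6⟩ := bt_tc s
  obtain ⟨b0, b1, b2, b3, b4, b5, b6⟩ := bt_tc t
  unfold tm
  rw [a0, a1, a2, a3, a4, a5, a6, b0, b1, b2, b3, b4, b5, b6]
  simp only [← vadd, ← vmul]
  obtain ⟨c0, c1, c2, c3, c4, c5, c6, c7, c8, c9, c10, c11, c12, c13, c14⟩ := T_facts hs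
  obtain ⟨d0, d1, d2, d3, d4, d5, d6, d7, d8, d9, d10, d11, d12, d13, d14⟩ := T_facts ht
  obtain ⟨k0, k1, k2, k3, k4, k5, k6, k7, k8, k9, k10, k11, k12, k13, k14⟩ := A_facts t
  have h : (s * t).g.1 0 1 = s.g.1 0 1 + t.g.1 0 1 ∧ (s * t).g.1 2 3 = s.g.1 2 3 + t.g.1 2 3 ∧
      (s * t).g.1 2 4 = s.g.1 2 4 + t.g.1 2 4 + s.g.1 2 3 * t.g.1 3 4 ∧
      (s * t).g.1 3 4 = s.g.1 3 4 + t.g.1 3 4 ∧
      (s * t).a 2 3 = s.a 2 3 + t.a 2 3 + s.g.1 2 4 * t.a 3 4 + s.g.1 3 4 * t.a 2 4 +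
        s.g.1 3 4 * s.g.1 2 3 * t.a 3 4 ∧
      (s * t).a 2 4 = s.a 2 4 + t.a 2 4 + s.g.1 2 3 * t.a 3 4 ∧
      (s * t).a 3 4 = s.a 3 4 + t.a 3 4 := by
    simp only [mul_a, mul_g, coe_mul', Matrix.add_apply, Matrix.mul_apply, transpose_apply,
      Fin.sum_univ_five, c0, c1, c2, c3, c4, c5, c6, c7, c8, c9, c10, c11, c12, c13, c14,
      d0, d1, d2, d3, d4, d5, d6, d7, d8, d9, d10, d11, d12, d13, d14,
      k0, k1, k2, k3, k4, k5, k6, k7, k8, k9, k10, k11, k12, k13, k14]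
    refine ⟨?_, ?_, ?_, ?_, ?_, ?_, ?_⟩ <;> ring
  obtain ⟨h1, h2, h3, h4, h5, h6, h7⟩ := h
  rw [tc, h1, h2, h3, h4, h5, h6, h7]

theorem zpat : ∀ i j : Fin 5, 2 ≤ i ∨ 2 ≤ j →
    decide ((i : ℕ) + 1 ≤ 2 ∧ (j : ℕ) + 1 ≤ 2) = false := by decide

theorem mul_inv_mem_Z (x y : N0) : x * y⁻¹ ∈ Z0 ↔ (∀ i j, x.g.1 i j = y.g.1 i j) ∧
    ∀ i j : Fin 5, 2 ≤ i ∨ 2 ≤ j → x.a i j = y.a i j := by
  have key : x.g = y.g → (x * y⁻¹).a = x.a + y.a := fun h => by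
    have := congrArg N0.a (mul_inv_cancel y)
    rw [mul_a, one_a] at this
    rw [mul_a, h]
    generalize y.g.1 * y⁻¹.a * y.g.1ᵀ = w at this ⊢
    have e : w = y.a := by
      rw [← zero_add w, ← add_self_M y.a, add_assoc, this, add_zero]
    rw [e]
  constructor
  · intro h
    obtain ⟨h1, h2⟩ := mem_Pat.1 h
    have hg : x.g = y.g := by
      rw [← mul_inv_eq_one]
      exact Subtype.ext (Matrix.ext fun i j => h2 i j rfl)
    refine ⟨fun i j => by rw [hg], fun i j hij => ?_⟩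
    have := h1 i j (zpat i j hij)
    rw [key hg, Matrix.add_apply] at this
    rw [← add_zero (x.a i j), ← two_F (y.a i j), ← add_assoc, this, zero_add]
  · rintro ⟨h1, h2⟩
    have hg : x.g = y.g := Subtype.ext (Matrix.ext h1)
    refine mem_Pat.2 ⟨fun i j hij => ?_, fun i j _ => ?_⟩
    · rw [key hg, Matrix.add_apply, h2 i j (by revert i j; decide), two_F]
    · rw [mul_g, inv_g, hg, mul_inv_cancel]; rfl

theorem fb_iff (e p q r a b c v0 v1 v2 v3 v4 v5 v6 v7 v8 v9 v10 v11 : F) :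
    fb e.val p.val q.val r.val a.val b.val c.val v0.val v1.val v2.val v3.val v4.val v5.val v6.val
      v7.val v8.val v9.val v10.val v11.val = true ↔
    e * v9 = 0 ∧ v9 * p = 0 ∧ v6 * p + e * v10 = 0 ∧ v9 * q + v10 * r = 0 ∧ v9 * b + v10 * c = 0 ∧
    v6 * q + v7 * r + e * v11 = 0 ∧ v6 * b + v7 * c + e * v5 = 0 ∧
    v9 * a + v11 * c + v5 * r = 0 ∧ v10 * a + v11 * b + v4 * p + v5 * q = 0 ∧
    v6 * a + v8 * c + e * v4 + (v2 + e * v5) * r = 0 ∧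
    v7 * a + v8 * b + e * v3 + (v1 + e * v4) * p + (v2 + e * v5) * q = 0 := by
  simp only [fb, vzero, vadd, vmul, Bool.and_eq_true, beq_iff_eq, Nat.and_zero, true_and,
    and_assoc]

theorem fix_iff {s v : N0} (hs : s ∈ T0) (hv : v ∈ Q0) :
    v * s * v⁻¹ * s⁻¹ ∈ Z0 ↔ fx (tc s) (qc v) = true := by
  obtain ⟨a0, a1, a2, a3, a4, a5, a6⟩ := bt_tc s
  obtain ⟨b0, b1, b2, b3, b4, b5, b6, b7, b8, b9, b10, b11⟩ := bt_qc v
  unfold fx
  rw [a0, a1, a2, a3, a4, a5, a6, b0, b1, b2, b3, b4, b5, b6, b7, b8, b9, b10, b11, fb_iff,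
    show v * s * v⁻¹ * s⁻¹ = v * s * (s * v)⁻¹ by group, mul_inv_mem_Z]
  clear a0 a1 a2 a3 a4 a5 a6 b0 b1 b2 b3 b4 b5 b6 b7 b8 b9 b10 b11
  obtain ⟨c0, c1, c2, c3, c4, c5, c6, c7, c8, c9, c10, c11, c12, c13, c14⟩ := T_facts hs
  obtain ⟨d0, d1, d2, d3, d4, d5, d6, d7, d8, d9, d10, d11, d12, d13, d14, d15, d16, d17, d18⟩ := Q_facts hv
  obtain ⟨k0, k1, k2, k3, k4, k5, k6, k7, k8, k9, k10, k11, k12, k13, k14⟩ := A_facts s
  obtain ⟨l0, l1, l2, l3, l4, l5, l6, l7, l8, l9, l10, l11, l12, l13, l14⟩ := A_facts v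
  obtain ⟨m0, m1, m2⟩ := Qa_facts hv
  constructor
  · rintro ⟨h1, h2⟩
    have e1 := h1 0 2
    have e2 := h1 1 3
    have e3 := h1 0 3
    have e4 := h1 1 4
    have e5 := h2 1 4 (by decide)
    have e6 := h1 0 4
    have e7 := h2 0 4 (by decide)
    have e8 := h2 1 3 (by decide)
    have e9 := h2 1 2 (by decide)
    have e10 := h2 0 3 (by decide)
    have e11 := h2 0 2 (by decide)
    simp only [mul_a, mul_g, coe_mul', Matrix.add_apply, Matrix.mul_apply, transpose_apply,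
      Fin.sum_univ_five, c0, c1, c2, c3, c4, c5, c6, c7, c8, c9, c10, c11, c12, c13, c14,
      d0, d1, d2, d3, d4, d5, d6, d7, d8, d9, d10, d11, d12, d13, d14, d15, d16, d17, d18,
      k0, k1, k2, k3, k4, k5, k6, k7, k8, k9, k10, k11, k12, k13, k14,
      l0, l1, l2, l3, l4, l5, l6, l7, l8, l9, l10, l11, l12, l13, l14, m0, m1, m2,
      mul_zero, zero_mul, add_zero, zero_add, mul_one, one_mul] at e1 e2 e3 e4 e5 e6 e7 e8 e9 e10 e11
    refine ⟨?_, ?_, ?_, ?_, ?_, ?_, ?_, ?_, ?_, ?_, ?_⟩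
    · linear_combination (norm := (ring_nf; try simp [two0])) e1
    · linear_combination (norm := (ring_nf; try simp [two0])) e2
    · linear_combination (norm := (ring_nf; try simp [two0])) e3
    · linear_combination (norm := (ring_nf; try simp [two0])) e4
    · linear_combination (norm := (ring_nf; try simp [two0])) e5
    · linear_combination (norm := (ring_nf; try simp [two0])) e6
    · linear_combination (norm := (ring_nf; try simp [two0])) e7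
    · linear_combination (norm := (ring_nf; try simp [two0])) e8
    · linear_combination (norm := (ring_nf; try simp [two0])) e9
    · linear_combination (norm := (ring_nf; try simp [two0])) e10
    · linear_combination (norm := (ring_nf; try simp [two0])) e11
  · rintro ⟨e1, e2, e3, e4, e5, e6, e7, e8, e9, e10, e11⟩
    simp only [Fin.forall_fin_succ, Fin.succ_zero_eq_one, Fin.succ_one_eq_two, Fin.reduceSucc,
      IsEmpty.forall_iff, and_true]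
    simp only [mul_a, mul_g, coe_mul', Matrix.add_apply, Matrix.mul_apply, transpose_apply,
      Fin.sum_univ_five, c0, c1, c2, c3, c4, c5, c6, c7, c8, c9, c10, c11, c12, c13, c14,
      d0, d1, d2, d3, d4, d5, d6, d7, d8, d9, d10, d11, d12, d13, d14, d15, d16, d17, d18,
      k0, k1, k2, k3, k4, k5, k6, k7, k8, k9, k10, k11, k12, k13, k14,
      l0, l1, l2, l3, l4, l5, l6, l7, l8, l9, l10, l11, l12, l13, l14, m0, m1, m2,
      mul_zero, zero_mul, add_zero, zero_add, mul_one, one_mul]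
    repeat' apply And.intro
    all_goals try intro h
    all_goals first
      | trivial
      | exact absurd h (by decide)
      | ring1
      | linear_combination (norm := (ring_nf; (try simp [two0]); done)) e1
      | linear_combination (norm := (ring_nf; (try simp [two0]); done)) e2
      | linear_combination (norm := (ring_nf; (try simp [two0]); done)) e3
      | linear_combination (norm := (ring_nf; (try simp [two0]); done)) e4
      | linear_combination (norm := (ring_nf; (try simp [two0]); done)) e5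
      | linear_combination (norm := (ring_nf; (try simp [two0]); done)) e6
      | linear_combination (norm := (ring_nf; (try simp [two0]); done)) e7
      | linear_combination (norm := (ring_nf; (try simp [two0]); done)) e8
      | linear_combination (norm := (ring_nf; (try simp [two0]); done)) e9
      | linear_combination (norm := (ring_nf; (try simp [two0]); done)) e10
      | linear_combination (norm := (ring_nf; (try simp [two0]); done)) e11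

theorem tc_one : tc 1 = 0 := (tc_eq_zero T0.one_mem).2 Q0.one_mem

theorem inv_mul_mem_Q {s t : N0} (hs : s ∈ T0) (ht : t ∈ T0) (h : tc s = tc t) :
    s⁻¹ * t ∈ Q0 := by
  rw [← tc_eq_zero (T0.mul_mem (T0.inv_mem hs) ht), tc_mul (T0.inv_mem hs) ht, ← h,
    ← tc_mul (T0.inv_mem hs) hs, inv_mul_cancel, tc_one]

theorem mem_of_tc {Y : Subgroup N0} (hQ : Q0 ≤ Y) (hY : Y ≤ T0) {s t : N0} (hs : s ∈ Y)
    (ht : t ∈ T0) (h : tc s = tc t) : t ∈ Y := by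
  have := Y.mul_mem hs (hQ (inv_mul_mem_Q (hY hs) ht h))
  rwa [mul_inv_cancel_left] at this

/-- squares in `Q` on codes -/
theorem El.tm_self {Y : Subgroup N0} (h : El Y) {s : N0} (hs : s ∈ Y) : tm (tc s) (tc s) = 0 := by
  rw [← tc_mul (h.2.1 hs) (h.2.1 hs)]
  exact (tc_eq_zero (h.2.1 (Y.mul_mem hs hs))).2 (h.2.2 s hs)

theorem card_le_of_codes (q : QKStmt) {Y : Subgroup N0} (hY : Y ≤ T0) (C : List ℕ)
    (h : ∀ s ∈ Y, tc s ∈ C) : Nat.card Y ≤ C.length * 2 ^ 13 := by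
  classical
  have hr : ∀ c : ℕ, ∃ r : N0, (∃ s ∈ Y, tc s = c) → r ∈ Y ∧ tc r = c := fun c => by
    by_cases e : ∃ s ∈ Y, tc s = c
    · obtain ⟨s, hs⟩ := e
      exact ⟨s, fun _ => hs⟩
    · exact ⟨1, fun e' => absurd e' e⟩
  choose r hr using hr
  have hi : ∀ y : Y, ∃ i : Fin C.length, C.get i = tc y := fun y => List.mem_iff_get.1 (h y y.2)
  choose idx hidx using hi
  let f : Y → Fin C.length × Q0 := fun y => (idx y, ⟨(r (tc y))⁻¹ * y,
    inv_mul_mem_Q (hY (hr _ ⟨y, y.2, rfl⟩).1) (hY y.2) (hr _ ⟨y, y.2, rfl⟩).2⟩)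
  have hf : Function.Injective f := fun x y e => by
    have e1 : idx x = idx y := congrArg Prod.fst e
    have e2 : (r (tc x))⁻¹ * x = (r (tc y))⁻¹ * y := congrArg (fun p => (p.2 : N0)) e
    have e3 : tc x = tc y := by rw [← hidx, ← hidx, e1]
    rw [e3] at e2
    exact Subtype.ext (mul_left_cancel e2)
  have := Nat.card_le_card_of_injective f hf
  rwa [Nat.card_prod, Nat.card_eq_fintype_card (α := Fin _), Fintype.card_fin,
    q.2.2.2.2.2.2.2.1] at this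

/-- a new generator outside a list of codes -/
theorem exists_code_not_mem (q : QKStmt) {Y : Subgroup N0} (hY : Y ≤ T0) (C : List ℕ)
    (h : C.length * 2 ^ 13 < Nat.card Y) : ∃ s ∈ Y, tc s ∉ C := by
  by_contra c
  push Not at c
  exact absurd (card_le_of_codes q hY C c) (not_le.2 h)

theorem mem_CQ {Y : Subgroup N0} (hY : Y ≤ T0) {v : N0} :
    v ∈ CQ Y ↔ v ∈ Q0 ∧ ∀ s ∈ Y, fx (tc s) (qc v) = true :=
  and_congr_right fun hv => forall₂_congr fun _ hs => fix_iff (hY hs) hv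

theorem CQ_mul (q : QKStmt) {Y : Subgroup N0} {u v : N0} (hu : u ∈ CQ Y) (hv : v ∈ CQ Y) :
    u * v ∈ CQ Y := by
  refine ⟨Q0.mul_mem hu.1 hv.1, fun s hs => ?_⟩
  have e : u * v * s * (u * v)⁻¹ * s⁻¹ =
      u * (v * s * v⁻¹ * s⁻¹) * u⁻¹ * (u * s * u⁻¹ * s⁻¹) := by group
  rw [e]
  refine Z0.mul_mem ?_ (hu.2 s hs)
  have xs := q.2.2.2.2.2.2.2.2.1
  rcases (q.2.2.2.2.2.2.1 _).1 (hv.2 s hs) with h | h
  · rw [h, mul_one, mul_inv_cancel]; exact Z0.one_mem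
  · rw [h, xs.cen u hu.1, mul_inv_cancel_right]
    exact (q.2.2.2.2.2.2.1 _).2 (Or.inr rfl)

theorem Q_ext {u v : N0} (hu : u ∈ Q0) (hv : v ∈ Q0) (h : qc u = qc v) (h' : u.a 0 1 = v.a 0 1) :
    u = v := by
  have a := bt_qc u
  have b := bt_qc v
  rw [h] at a
  have e : ∀ {x y : F} {k : ℕ}, k = x.val → k = y.val → x = y := fun h1 h2 =>
    ZMod.val_injective 2 (h1.symm.trans h2)
  obtain ⟨a0, a1, a2, a3, a4, a5, a6, a7, a8, a9, a10, a11⟩ := a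
  obtain ⟨b0, b1, b2, b3, b4, b5, b6, b7, b8, b9, b10, b11⟩ := b
  obtain ⟨m0, m1, m2⟩ := Qa_facts hu
  obtain ⟨n0, n1, n2⟩ := Qa_facts hv
  apply N0.ext
  · rw [alt_form u, alt_form v, h', e a0 b0, e a1 b1, e a2 b2, e a3 b3, e a4 b4, e a5 b5, m0, m1,
      m2, n0, n1, n2]
  · apply Subtype.ext
    have p := (mem_Pat.1 hu).2
    have r := (mem_Pat.1 hv).2
    rw [T_form (Q_le_T hu), T_form (Q_le_T hv), e a6 b6, e a7 b7, e a8 b8, e a9 b9, e a10 b10,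
      e a11 b11, p 0 1 (by decide), p 2 3 (by decide), p 2 4 (by decide), p 3 4 (by decide),
      r 0 1 (by decide), r 2 3 (by decide), r 2 4 (by decide), r 3 4 (by decide)]

/-- `P` holds for all numbers `acc * 2 ^ n + r` with `r < 2 ^ n` vanishing on the mask `m` -/
def ck (m : ℕ) (P : ℕ → Bool) : ℕ → ℕ → Bool
  | 0, acc => P acc
  | n + 1, acc => ck m P n (2 * acc) && (m.testBit n || ck m P n (2 * acc + 1))

theorem ck_spec (m : ℕ) (P : ℕ → Bool) (n : ℕ) : ∀ acc, ck m P n acc = true → ∀ r < 2 ^ n,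
    (∀ i < n, m.testBit i = true → r.testBit i = false) → P (acc * 2 ^ n + r) = true := by
  induction n with
  | zero =>
    intro acc h r hr _
    have : r = 0 := by simpa using hr
    simpa [this, ck] using h
  | succ n ih =>
    intro acc h r hr hm
    simp only [ck, Bool.and_eq_true, Bool.or_eq_true] at h
    by_cases c : r < 2 ^ n
    · have := ih _ h.1 r c fun i hi => hm i (by omega)
      rwa [show 2 * acc * 2 ^ n + r = acc * 2 ^ (n + 1) + r by ring] at this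
    · obtain ⟨r', rfl⟩ := Nat.exists_eq_add_of_le (not_lt.1 c)
      have c' : r' < 2 ^ n := by rw [pow_succ] at hr; omega
      have t : (2 ^ n + r').testBit n = true := by
        rw [Nat.testBit_two_pow_add_eq, Nat.testBit_lt_two_pow c']; rfl
      have h2 := h.2.resolve_left fun e => by simp [hm n (by omega) e] at t
      have := ih _ h2 r' c' fun i hi e => by
        have := hm i (by omega) e
        rwa [Nat.testBit_two_pow_add_gt hi] at this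
      rwa [show (2 * acc + 1) * 2 ^ n + r' = acc * 2 ^ (n + 1) + (2 ^ n + r') by ring] at this

/-- the number of bits of a mask -/
def pc (m : ℕ) : ℕ := ((List.range 12).filter m.testBit).length

/-- the mask `m` separates the codes fixed by all members of `C` -/
def sep (C : List ℕ) (m : ℕ) : Bool := ck m (fun v => v == 0 || !(C.all fun c => fx c v)) 12 0

theorem ncard_CQ_le (q : QKStmt) {Y : Subgroup N0} (hY : Y ≤ T0) (C : List ℕ)
    (hC : ∀ c ∈ C, ∃ s ∈ Y, tc s = c) (m : ℕ) (h : sep C m = true) :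
    (CQ Y).ncard ≤ 2 ^ (pc m + 1) := by
  let L := (List.range 12).filter m.testBit
  let f : CQ Y → (Fin L.length → Bool) × F := fun v =>
    (fun i => (qc v).testBit (L.get i), v.1.a 0 1)
  have hf : Function.Injective f := fun u v e => by
    have e1 : ∀ i : Fin L.length, (qc u).testBit (L.get i) = (qc v).testBit (L.get i) :=
      congrFun (congrArg Prod.fst e)
    have e2 : u.1.a 0 1 = v.1.a 0 1 := congrArg Prod.snd e
    have hw := CQ_mul q u.2 v.2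
    have hx := q.1 _ u.2.1 _ v.2.1
    have := ck_spec m _ 12 0 h (qc (u.1 * v.1)) (q.2.1 _) fun i hi hm => by
      obtain ⟨j, hj⟩ := List.mem_iff_get.1
        (show i ∈ L from List.mem_filter.2 ⟨List.mem_range.2 hi, hm⟩)
      rw [hx, Nat.testBit_xor, ← hj, e1, Bool.xor_self]
    rw [zero_mul, zero_add, Bool.or_eq_true] at this
    have h0 : qc (u.1 * v.1) = 0 := by
      rcases this with c | c
      · simpa using c
      · exfalso
        rw [Bool.not_eq_true', ← Bool.not_eq_true] at c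
        refine c (List.all_eq_true.2 fun d hd => ?_)
        obtain ⟨s, hs, rfl⟩ := hC d hd
        exact ((mem_CQ hY).1 hw).2 s hs
    rw [hx] at h0
    exact Subtype.ext (Q_ext u.2.1 v.2.1 (Nat.xor_eq_zero_iff.1 h0) e2)
  have := Nat.card_le_card_of_injective f hf
  rw [Nat.card_coe_set_eq, Nat.card_prod, Nat.card_zmod, Nat.card_fun,
    Nat.card_eq_fintype_card (α := Fin _), Fintype.card_fin, Nat.card_eq_fintype_card,
    Fintype.card_bool] at this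
  rwa [pow_succ]

end Cfsg.Agent.H77.Lp
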