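import Cfsg.Agent.H77.LpKit

/-! Fixed spaces of involutions and four-groups of `T / Q` on `Q / Z`. -/

set_option autoImplicit false

namespace Cfsg.Agent.H77.Lp

open Subgroup Cfsg.Agent.H17.LP

def m8 : List ℕ := [479, 2367, 1215, 2907, 3483, 639, 3501]
def m6 : List ℕ := [455, 63, 1179, 2349, 2331, 1197, 603, 3465]

def chk1 : Bool := (List.range 128).all fun c =>
  c == 0 || tm c c != 0 || m8.any fun m => sep [c] m

def chk2 (lo n : ℕ) : Bool := (List.range' lo n).all fun c =>
  c == 0 || tm c c != 0 || (List.range c).all fun d =>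
    d == 0 || tm d d != 0 || tm (tm c d) (tm c d) != 0 || m6.any fun m => sep [c, d] m

theorem chk1_true : chk1 = true := by decide +kernel
theorem chk2_a : chk2 0 64 = true := by decide +kernel
theorem chk2_b : chk2 64 32 = true := by decide +kernel
theorem chk2_c : chk2 96 32 = true := by decide +kernel

theorem pc8 : ∀ m ∈ m8, pc m = 8 := by decide +kernel
theorem pc6 : ∀ m ∈ m6, pc m = 6 := by decide +kernel

theorem two_sep {c d : ℕ} (hc : c < 128) (hd : d < c) (h0 : d ≠ 0) (h1 : tm c c = 0)
    (h2 : tm d d = 0) (h3 : tm (tm c d) (tm c d) = 0) : ∃ m ∈ m6, sep [c, d] m = true := by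
  have key : ∀ lo n, chk2 lo n = true → lo ≤ c → c < lo + n → ∃ m ∈ m6, sep [c, d] m = true := by
    intro lo n h l1 l2
    have := List.all_eq_true.1 h c (List.mem_range'_1.2 ⟨l1, l2⟩)
    simp only [Bool.or_eq_true, beq_iff_eq, bne_iff_ne, ne_eq, h1, not_true_eq_false, or_false,
      show c ≠ 0 by omega, false_or] at this
    have := List.all_eq_true.1 this d (List.mem_range.2 hd)
    simpa only [Bool.or_eq_true, beq_iff_eq, bne_iff_ne, ne_eq, h2, h3, not_true_eq_false,
      or_false, h0, false_or, List.any_eq_true] using this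
  by_cases a : c < 64
  · exact key _ _ chk2_a (by omega) (by omega)
  by_cases b : c < 96
  · exact key _ _ chk2_b (by omega) (by omega)
  · exact key _ _ chk2_c (by omega) (by omega)

theorem tb1 (q : QKStmt) : Tb1Stmt := by
  intro Y h
  have hY := h.2.1
  constructor
  · intro hc
    obtain ⟨s, hs, h0⟩ := exists_code_not_mem q hY [0] (by simp only [List.length]; omega)
    have := List.all_eq_true.1 chk1_true (tc s) (List.mem_range.2 (tc_lt s))
    simp only [Bool.or_eq_true, beq_iff_eq, bne_iff_ne, ne_eq, El.tm_self h hs, not_true_eq_false,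
      or_false, show tc s ≠ 0 by simpa using h0, false_or, List.any_eq_true] at this
    obtain ⟨m, hm, hs'⟩ := this
    have := ncard_CQ_le q hY [tc s] (fun c hc => ⟨s, hs, (List.mem_singleton.1 hc).symm⟩) m hs'
    rwa [pc8 m hm] at this
  · intro hc
    obtain ⟨s, hs, h0⟩ := exists_code_not_mem q hY [0] (by simp only [List.length]; omega)
    obtain ⟨t, ht, h1⟩ := exists_code_not_mem q hY [0, tc s] (by simp only [List.length]; omega)
    have key : ∀ s ∈ Y, ∀ t ∈ Y, tc t < tc s → tc t ≠ 0 → (CQ Y).ncard ≤ 2 ^ 7 := by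
      intro s hs t ht l z
      have e := El.tm_self h (Y.mul_mem hs ht)
      rw [tc_mul (hY hs) (hY ht)] at e
      obtain ⟨m, hm, hs'⟩ := two_sep (tc_lt s) l z (El.tm_self h hs) (El.tm_self h ht) e
      have := ncard_CQ_le q hY [tc s, tc t] (fun c hc => by
        rcases List.mem_pair.1 hc with rfl | rfl
        exacts [⟨s, hs, rfl⟩, ⟨t, ht, rfl⟩]) m hs'
      rwa [pc6 m hm] at this
    simp only [List.mem_cons, List.not_mem_nil, or_false, not_or] at h0 h1
    rcases lt_or_gt_of_ne h1.2 with l | l
    · exact key s hs t ht l h1.1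
    · exact key t ht s hs l h0

end Cfsg.Agent.H77.Lp
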