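import Cfsg.Agent.H7.PBasic
import Cfsg.Agent.H4.CoprimeGen
import Mathlib.GroupTheory.Transfer

/-!
# Group theory for `3^4 : Sp₄(3)`

Two abstract steps in the proof that the normaliser of `3^{1+4}` is maximal in `SL₉` and `SU₉`:
a transfer argument, and an argument with dihedral groups.
-/

set_option autoImplicit false

namespace Cfsg.Agent.H77.N9

open Subgroup
open scoped commutatorElement

variable {G : Type*} [Group G] [Finite G]

theorem mem_nrm {K : Subgroup G} {g : G} (h : ∀ k ∈ K, g * k * g⁻¹ ∈ K) :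
    g ∈ normalizer (K : Set G) := mem_normalizer_fintype h

omit [Finite G] in
theorem nrm_mem {K : Subgroup G} {g k : G} (h : g ∈ normalizer (K : Set G)) (hk : k ∈ K) :
    g * k * g⁻¹ ∈ K := (mem_normalizer_iff.1 h k).1 hk

theorem fix_syl {J K : Subgroup G} (hJ : IsPGroup 3 J) (hK : J ≤ normalizer (K : Set G)) :
    ∃ P : Sylow 3 K, J ≤ normalizer (((P : Subgroup K).map K.subtype : Subgroup G) : Set G) := by
  have := Fact.mk Nat.prime_three
  let _ : MulAction J (Sylow 3 K) :=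
    MulAction.compHom _ (K.normalizerMonoidHom.comp (inclusion hK))
  obtain ⟨P, hP⟩ := hJ.nonempty_fixed_point_of_prime_not_dvd_card (Sylow 3 K)
    (not_dvd_card_sylow 3 K)
  refine ⟨P, fun j hj => mem_nrm ?_⟩
  rintro _ ⟨x, hx, rfl⟩
  have h1 : K.normalizerMonoidHom (inclusion hK ⟨j, hj⟩) • P = P := hP ⟨j, hj⟩
  refine ⟨K.normalizerMonoidHom (inclusion hK ⟨j, hj⟩) x, ?_, rfl⟩
  rw [← h1]
  exact smul_mem_pointwise_smul _ _ _ hx

omit [Finite G] in
theorem zpowers_cases {h g : G} (h3 : h ^ 3 = 1) (hg : g ∈ zpowers h) :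
    g = 1 ∨ g = h ∨ g = h⁻¹ := by
  obtain ⟨k, rfl⟩ := hg
  have e : h ^ (3 : ℤ) = 1 := by exact_mod_cast h3
  have e2 : h ^ (2 : ℤ) = h⁻¹ := eq_inv_of_mul_eq_one_left (by rw [← zpow_add_one, ← e]; rfl)
  change h ^ k = 1 ∨ h ^ k = h ∨ h ^ k = h⁻¹
  rw [← Int.emod_add_mul_ediv k 3, zpow_add, zpow_mul, e, one_zpow, mul_one]
  obtain h1 | h1 | h1 : k % 3 = 0 ∨ k % 3 = 1 ∨ k % 3 = 2 := by omega
  all_goals simp [h1, e2]

omit [Finite G] in
theorem isPGroup_of_cube {A : Subgroup G} (h : ∀ a ∈ A, a ^ 3 = 1) : IsPGroup 3 A := fun a =>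
  ⟨1, Subtype.ext (h a a.2)⟩

omit [Finite G] in
theorem mem_of_sq_mem {T : Subgroup G} {g : G} {k : ℕ} (h : g ^ 3 ^ k = 1) (h2 : g * g ∈ T) :
    g ∈ T := by
  obtain ⟨m, hm⟩ : Odd (3 ^ k) := Odd.pow (by decide)
  rw [hm, pow_succ, pow_mul, sq] at h
  exact inv_mem_iff.1 (eq_inv_of_mul_eq_one_left h ▸ pow_mem h2 m)

/-- The transfer step. -/
theorem kle {A K H : Subgroup G} {h a b : G} (comm : ∀ a ∈ A, ∀ b ∈ A, a * b = b * a)
    (cube : ∀ a ∈ A, a ^ 3 = 1) (ha : a ∈ A) (hb : b ∈ A) (a1 : a ≠ 1) (b1 : b ≠ 1)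
    (ab1 : a * b ≠ 1) (abb1 : a * b * b ≠ 1) (aK : ∀ k ∈ K, a * k * a⁻¹ ∈ K)
    (bK : ∀ k ∈ K, b * k * b⁻¹ ∈ K) (hK : h ∈ K) (hH : h ∈ H) (h3 : h ^ 3 = 1)
    (ah : a * h = h * a) (bh : b * h = h * b) (loc : ∀ g ∈ K, ∀ e ∈ A, e ≠ 1 → g * e = e * g → g ∈ H)
    (hyp1 : ∀ g ∈ K, g * h * g⁻¹ ≠ h⁻¹)
    (hyp3 : ∀ g ∈ K, g ∈ H → g * h = h * g → g * g ∈ zpowers h) : K ≤ H := by
  have := Fact.mk Nat.prime_three
  have h1 : h ≠ 1 := fun e => hyp1 1 (one_mem _) (by simp [e])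
  have hcen : ∀ g ∈ K, g * h * g⁻¹ ∈ zpowers h → g * h = h * g := fun g hg e => by
    rcases zpowers_cases h3 e with e | e | e
    · exact absurd (by simpa using e) h1
    · exact mul_inv_eq_iff_eq_mul.1 e
    · exact absurd e (hyp1 g hg)
  set A₁ := closure {a, b} with hA₁
  have hA : A₁ ≤ A := (closure_le _).2 (by rintro _ (rfl | rfl); exacts [ha, hb])
  have hAK : A₁ ≤ normalizer (K : Set G) :=
    (closure_le _).2 (by rintro _ (rfl | rfl); exacts [mem_nrm aK, mem_nrm bK])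
  have hAh : A₁ ≤ centralizer {h} := (closure_le _).2 (by
    rintro _ (rfl | rfl); exacts [mem_centralizer_singleton_iff.2 ah,
      mem_centralizer_singleton_iff.2 bh])
  have pA : IsPGroup 3 A₁ := isPGroup_of_cube fun x hx => cube x (hA hx)
  have pT : IsPGroup 3 (zpowers h) := isPGroup_of_cube (by
    rintro _ ⟨k, rfl⟩
    change (h ^ k) ^ 3 = 1
    rw [← zpow_natCast, ← zpow_mul, mul_comm, zpow_mul, zpow_natCast, h3, one_zpow])
  have hTK : zpowers h ≤ K := zpowers_le.2 hK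
  obtain ⟨P, hP⟩ := fix_syl (J := A₁ ⊔ zpowers h) (K := K)
    (pA.to_sup_of_normal_right' pT fun e he => mem_nrm (by
      rintro _ ⟨k, rfl⟩
      exact ⟨k, by
        change h ^ k = e * h ^ k * e⁻¹
        rw [← conj_zpow, mem_centralizer_singleton_iff.1 (hAh he), mul_inv_cancel_right]⟩))
    (sup_le hAK (hTK.trans le_normalizer))
  set S := (P : Subgroup K).map K.subtype with hS
  have pS : IsPGroup 3 S := P.isPGroup'.map _
  have hSK : S ≤ K := map_subtype_le _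
  have hTS : zpowers h ≤ S := by
    have h2 : IsPGroup 3 ((zpowers h ⊔ S).subgroupOf K) :=
      (pT.to_sup_of_normal_right' pS (le_sup_right.trans hP)).comap_subtype
    have h4 := P.is_maximal' h2 fun x hx => mem_subgroupOf.2 (mem_sup_right ⟨x, hx, rfl⟩)
    intro t ht
    exact ⟨⟨t, hTK ht⟩, h4 ▸ mem_subgroupOf.2 (mem_sup_left ht), rfl⟩
  have hST : S ≤ zpowers h := by
    by_contra hn
    have pL := pA.to_sup_of_normal_right' pS (le_sup_left.trans hP)
    have := pL.isNilpotent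
    have : (S.subgroupOf (A₁ ⊔ S)).Normal := (normal_subgroupOf_iff_le_normalizer le_sup_right).2
      (sup_le (le_sup_left.trans hP) le_normalizer)
    obtain ⟨g, hg, hgT, hc⟩ := H7.exists_central_mod_of_nilpotent (M := S.subgroupOf (A₁ ⊔ S))
      (N := (zpowers h).subgroupOf (A₁ ⊔ S)) fun e => hn fun s hs =>
        mem_subgroupOf.1 (e (x := ⟨s, mem_sup_right hs⟩) hs)
    rw [mem_subgroupOf] at hg hgT
    have hc' : ∀ l ∈ A₁ ⊔ S, (g : G) * l * (g : G)⁻¹ * l⁻¹ ∈ zpowers h := fun l hl => hc ⟨l, hl⟩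
    have gh := hcen g (hSK hg) (by
      simpa using mul_mem (hc' h (mem_sup_right (hTS (mem_zpowers h)))) (mem_zpowers h))
    obtain ⟨k, hk⟩ := pS ⟨g, hg⟩
    refine hgT (mem_of_sq_mem (k := k) (congrArg Subtype.val hk) (hyp3 g (hSK hg) ?_ gh))
    have ka := hc' a (mem_sup_left (subset_closure (by simp)))
    have kb := hc' b (mem_sup_left (subset_closure (by simp)))
    have key : ∀ e ∈ A, e ≠ 1 → (g : G) * e * (g : G)⁻¹ = e → (g : G) ∈ H := fun e he e1 e2 =>
      loc g (hSK hg) e he e1 (mul_inv_eq_iff_eq_mul.1 e2)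
    have hh : h * h * h = 1 := by rw [← pow_three', h3]
    have hi : h⁻¹ * h⁻¹ * h⁻¹ = 1 := by rw [← pow_three', inv_pow, h3, inv_one]
    have ai : a * h⁻¹ = h⁻¹ * a := (show Commute a h from ah).inv_right
    have bi : b * h⁻¹ = h⁻¹ * b := (show Commute b h from bh).inv_right
    have kab : ∀ u v : G, (g : G) * a * (g : G)⁻¹ * a⁻¹ = u → (g : G) * b * (g : G)⁻¹ * b⁻¹ = v →
        a * v = v * a → b * v = v * b → (u * v = 1 ∨ u * v * v = 1) → (g : G) ∈ H := by
      intro u v hu hv e1 e2 e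
      rw [mul_inv_eq_iff_eq_mul] at hu hv
      rcases e with e | e
      · refine key _ (mul_mem ha hb) ab1 ?_
        rw [← conj_mul, hu, hv, mul_assoc, ← mul_assoc a, e1, ← mul_assoc, ← mul_assoc, e, one_mul]
      · refine key _ (mul_mem (mul_mem ha hb) hb) abb1 ?_
        rw [← conj_mul, ← conj_mul, hu, hv]
        calc _ = u * (a * v) * (b * v) * b := by group
          _ = u * (v * a) * (v * b) * b := by rw [e1, e2]
          _ = u * v * (a * v) * b * b := by group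
          _ = _ := by rw [e1, ← mul_assoc, e, one_mul]
    rcases zpowers_cases h3 ka with ea | ea | ea
    · exact key a ha a1 (by simpa [mul_inv_eq_one] using ea)
    all_goals rcases zpowers_cases h3 kb with eb | eb | eb
    · exact key b hb b1 (by simpa [mul_inv_eq_one] using eb)
    · exact kab _ _ ea eb ah bh (Or.inr hh)
    · exact kab _ _ ea eb ai bi (Or.inl (mul_inv_cancel h))
    · exact key b hb b1 (by simpa [mul_inv_eq_one] using eb)
    · exact kab _ _ ea eb ah bh (Or.inl (inv_mul_cancel h))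
    · exact kab _ _ ea eb ai bi (Or.inr hi)
  have hN : normalizer ((P : Subgroup K) : Set K) ≤ centralizer ((P : Subgroup K) : Set K) := by
    intro g hg s hs
    have e := hcen g g.2 (by
      obtain ⟨t, ht, e⟩ := hTS (mem_zpowers h)
      exact hST ⟨g * t * g⁻¹, nrm_mem hg ht, by rw [← e]; rfl⟩)
    obtain ⟨k, hk⟩ := hST ⟨s, hs, rfl⟩
    exact Subtype.ext (by
      change (s : G) * g = g * s
      rw [show (s : G) = h ^ k from hk.symm]
      exact ((show Commute (g : G) h from e).zpow_right k).symm)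
  have hc := MonoidHom.ker_transferSylow_isComplement' P hN
  have hd := MonoidHom.not_dvd_card_ker_transferSylow P hN
  set φ := MonoidHom.transferSylow P hN
  have hO : φ.ker.map K.subtype ≤ H := by
    have : IsMulCommutative A₁ := H7.isMulCommutative_of_forall fun x hx y hy =>
      comm x (hA hx) y (hA hy)
    have hco : Nat.Coprime 3 (Nat.card φ.ker) := (Nat.Prime.coprime_iff_not_dvd Nat.prime_three).2 hd
    refine H4.le_of_centralizer_singleton_le (A := A₁) (fun hcy => ?_) (fun e he => mem_nrm ?_) ?_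
      fun e he e1 g hg => loc g (map_subtype_le _ hg.1) e (hA he) e1
        (mem_centralizer_singleton_iff.1 hg.2)
    · obtain ⟨c, hc⟩ := hcy.exists_generator
      have c3 := cube c (hA c.2)
      have key : ∀ x ∈ A₁, x = 1 ∨ x = c ∨ x = (c : G)⁻¹ := fun x hx => by
        obtain ⟨k, hk⟩ := hc ⟨x, hx⟩
        exact zpowers_cases c3 ⟨k, congrArg Subtype.val hk⟩
      have c4 : (c : G)⁻¹ * (c : G)⁻¹ * (c : G)⁻¹ = 1 := by rw [← pow_three', inv_pow, c3, inv_one]
      rcases key a (subset_closure (by simp)) with ea | ea | ea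
      · exact a1 ea
      all_goals rcases key b (subset_closure (by simp)) with eb | eb | eb
      exacts [b1 eb, abb1 (by rw [ea, eb, ← pow_three', c3]), ab1 (by simp [ea, eb]), b1 eb,
        ab1 (by simp [ea, eb]), abb1 (by rw [ea, eb, c4])]
    · rintro _ ⟨o, ho, rfl⟩
      refine ⟨⟨e * o * e⁻¹, nrm_mem (hAK he) o.2⟩, ?_, rfl⟩
      obtain ⟨k, hk⟩ := P.isPGroup' (φ ⟨e * o * e⁻¹, nrm_mem (hAK he) o.2⟩)
      have h5 : (o : G) ^ Nat.card φ.ker = 1 :=
        congrArg (fun x : φ.ker => ((x : K) : G)) (pow_card_eq_one' (x := (⟨o, ho⟩ : φ.ker)))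
      have h6 : φ ⟨e * o * e⁻¹, nrm_mem (hAK he) o.2⟩ ^ Nat.card φ.ker = 1 := by
        rw [← map_pow, ← φ.map_one]
        exact congrArg φ (Subtype.ext (by
          change (e * o * e⁻¹) ^ Nat.card φ.ker = 1
          rw [conj_pow, h5, mul_one, mul_inv_cancel]))
      exact orderOf_eq_one_iff.1 (Nat.eq_one_of_dvd_coprimes (hco.pow_left k)
        (orderOf_dvd_of_pow_eq_one hk) (orderOf_dvd_of_pow_eq_one h6))
    · obtain ⟨n, hn⟩ := pA.exists_card_eq
      rw [hn, card_map_of_injective K.subtype_injective]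
      exact hco.pow_left n
  intro k hk
  have h7 : (⊤ : Subgroup K) ≤ H.subgroupOf K := hc.sup_eq_top ▸ sup_le
    (fun o ho => hO ⟨o, ho, rfl⟩) fun s hs => zpowers_le.2 hH (hST ⟨s, hs, rfl⟩)
  exact h7 (mem_top ⟨k, hk⟩)

/-- The dihedral step. -/
theorem endgame {X A : Subgroup G} {i j : G} (cube : ∀ a ∈ A, a ^ 3 = 1)
    (cent : ∀ g, (∀ a ∈ A, g * a = a * g) → g ∈ A)
    (hA : A ≤ X) (hi : i ∈ X) (hj : j ∈ X) (ii : i * i = 1) (jj : j * j = 1) (i1 : i ≠ 1)
    (j1 : j ≠ 1) (iN : i ∈ normalizer (A : Set G)) (jA : ∀ a ∈ A, j * a * j⁻¹ = a⁻¹)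
    (dich : ∀ w ∈ X, w ∈ normalizer (A : Set G) → w * w = 1 → w ≠ 1 →
      (∀ a ∈ A, w * a * w⁻¹ = a⁻¹) ∨ ∃ n ∈ X, n ∈ normalizer (A : Set G) ∧ w = n * i * n⁻¹)
    (nc : ∀ g, g * i * g⁻¹ ≠ j) (ci : ∀ g ∈ X, g * i = i * g → g ∈ normalizer (A : Set G)) :
    X ≤ normalizer (A : Set G) := by
  have prod : ∀ u v : G, (∀ a ∈ A, u * a * u⁻¹ = a⁻¹) → (∀ a ∈ A, v * a * v⁻¹ = a⁻¹) →
      u * v⁻¹ ∈ A := fun u v hu hv => cent _ fun a ha => by
    have e := hv _ (inv_mem ha)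
    rw [inv_inv] at e
    rw [← mul_inv_eq_iff_eq_mul]
    calc _ = u * (v⁻¹ * (v * a⁻¹ * v⁻¹) * v) * u⁻¹ := by rw [e]; group
      _ = u * a⁻¹ * u⁻¹ := by group
      _ = _ := by rw [hu _ (inv_mem ha), inv_inv]
  have c4 : ∀ a ∈ A, a * a * (a * a) = a := fun a ha => by
    rw [mul_assoc, ← pow_three, ← pow_succ', pow_succ, cube a ha, one_mul]
  have cj : ∀ a ∈ A, a * a * j * (a * a)⁻¹ = a * j := fun a ha => by
    have e := jA _ (inv_mem (mul_mem ha ha))
    rw [inv_inv, mul_inv_eq_iff_eq_mul] at e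
    rw [mul_assoc, e, ← mul_assoc, c4 a ha]
  have noti : ∀ g, ¬ ∀ a ∈ A, g * i * g⁻¹ * a * (g * i * g⁻¹)⁻¹ = a⁻¹ := fun g e => by
    have e1 := cj _ (prod _ _ e jA)
    generalize g * i * g⁻¹ * j⁻¹ * (g * i * g⁻¹ * j⁻¹) = b at e1
    exact nc (b⁻¹ * g) (by
      calc _ = b⁻¹ * (g * i * g⁻¹ * j⁻¹ * j) * b := by group
        _ = _ := by rw [← e1]; group)
  have fix : ∀ g ∈ X, g * i * g⁻¹ ∈ normalizer (A : Set G) → g ∈ normalizer (A : Set G) := by
    intro g hg e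
    obtain ⟨n, hn, hn', e'⟩ := (dich _ (mul_mem (mul_mem hg hi) (inv_mem hg)) e
      (by rw [conj_mul, ii]; group) (by simpa using i1)).resolve_left (noti g)
    simpa using mul_mem hn' (ci _ (mul_mem (inv_mem hn) hg) (by
      calc _ = n⁻¹ * (g * i * g⁻¹) * g := by group
        _ = _ := by rw [e']; group))
  have two : ∀ k : ℕ, ∀ t ∈ X, i * t * i⁻¹ = t⁻¹ → t ^ 2 ^ k = 1 → t ∈ normalizer (A : Set G) := by
    intro k
    induction k with
    | zero => intro t _ _ e; rw [pow_zero, pow_one] at e; exact e ▸ one_mem _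
    | succ k ih =>
      intro t ht e e'
      refine fix t ht ?_
      have := mul_mem (ih (t * t) (mul_mem ht ht) (by rw [← conj_mul, e, mul_inv_rev])
        (by rw [← sq, ← pow_mul, ← pow_succ', e'])) iN
      convert this using 1
      have e2 : i * t⁻¹ * i⁻¹ = t := by rw [← conj_inv, e, inv_inv]
      calc _ = t * (i * t⁻¹ * i⁻¹) * i := by group
        _ = _ := by rw [e2]
  have inv : ∀ g ∈ X, g * j * g⁻¹ ∈ normalizer (A : Set G) →
      ∀ a ∈ A, g * j * g⁻¹ * a * (g * j * g⁻¹)⁻¹ = a⁻¹ := fun g hg e =>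
    (dich _ (mul_mem (mul_mem hg hj) (inv_mem hg)) e (by rw [conj_mul, jj]; group)
      (by simpa using j1)).resolve_right fun ⟨n, _, _, e'⟩ => nc (g⁻¹ * n) (by
        calc _ = g⁻¹ * (n * i * n⁻¹) * g := by group
          _ = _ := by rw [← e']; group)
  have main : ∀ g ∈ X, g * j * g⁻¹ ∈ normalizer (A : Set G) := by
    intro g hg
    have hj' : g * j * g⁻¹ ∈ X := mul_mem (mul_mem hg hj) (inv_mem hg)
    have jj' : g * j * g⁻¹ * (g * j * g⁻¹) = 1 := by rw [conj_mul, jj]; group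
    obtain ⟨r, hr⟩ : ∃ r, r = i * (g * j * g⁻¹) := ⟨_, rfl⟩
    have i' : i⁻¹ = i := inv_eq_of_mul_eq_one_right ii
    have ej : g * j * g⁻¹ = i * r := by rw [hr, ← mul_assoc i i, ii, one_mul]
    have hrX : r ∈ X := hr ▸ mul_mem hi hj'
    have ir : i * r * i⁻¹ = r⁻¹ := by
      rw [← ej, hr, mul_inv_rev, inv_eq_of_mul_eq_one_right jj']
    have irn : ∀ n : ℕ, i * r ^ n * i⁻¹ = (r ^ n)⁻¹ := fun n => by rw [← conj_pow, ir, inv_pow]
    obtain ⟨k, m, ⟨l, rfl⟩, e⟩ := Nat.exists_eq_two_pow_mul_odd (orderOf_pos r).ne'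
    have sN := two k _ (pow_mem hrX (2 * l + 1)) (irn _)
      (by rw [← pow_mul, mul_comm, ← e, pow_orderOf_eq_one])
    have ej' : (r ^ l)⁻¹ * g * j * ((r ^ l)⁻¹ * g)⁻¹ = i * r ^ (2 * l + 1) := by
      calc _ = (r ^ l)⁻¹ * (g * j * g⁻¹) * r ^ l := by group
        _ = i * r ^ l * i⁻¹ * (i * r) * r ^ l := by rw [ej, irn]
        _ = _ := by group
    have j2 := inv _ (mul_mem (inv_mem (pow_mem hrX l)) hg) (ej' ▸ mul_mem iN sN)
    rw [ej'] at j2
    rcases k with _ | k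
    · rw [pow_zero, one_mul] at e
      rw [← e, pow_orderOf_eq_one, mul_one] at j2
      exact absurd (by simpa using j2) (noti 1)
    obtain ⟨z, hz⟩ : ∃ z, z = r ^ (2 ^ k * (2 * l + 1)) := ⟨_, rfl⟩
    have zz : z * z = 1 := by
      rw [hz, ← pow_add, ← two_mul, ← mul_assoc, ← pow_succ', ← e, pow_orderOf_eq_one]
    have z1 : z ≠ 1 := hz ▸ pow_ne_one_of_lt_orderOf (by positivity) (by
      rw [e, pow_succ]
      have : 0 < 2 ^ k * (2 * l + 1) := by positivity
      linarith)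
    have zi : z * i = i * z := by
      have := irn (2 ^ k * (2 * l + 1))
      rw [← hz, inv_eq_of_mul_eq_one_right zz, mul_inv_eq_iff_eq_mul] at this
      exact this.symm
    have zr : ∀ n : ℕ, z * r ^ n = r ^ n * z := fun n => hz ▸ (Commute.pow_pow_self r _ _)
    have zX : z ∈ X := hz ▸ pow_mem hrX _
    rcases dich z zX (ci z zX zi) zz z1 with e1 | ⟨n, hn, hn', e1⟩
    · have e2 := cube _ (prod _ _ j2 e1)
      have e3 : i * r ^ (2 * l + 1) * z⁻¹ * (i * r ^ (2 * l + 1) * z⁻¹) = 1 := by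
        rw [inv_eq_of_mul_eq_one_right zz]
        calc _ = i * r ^ (2 * l + 1) * (z * i) * r ^ (2 * l + 1) * z := by group
          _ = i * r ^ (2 * l + 1) * i⁻¹ * (z * r ^ (2 * l + 1)) * z := by rw [zi, i']; group
          _ = _ := by rw [irn, zr, inv_mul_cancel_left, zz]
      rw [pow_three', e3, one_mul, mul_inv_eq_one, ← ej'] at e2
      have : g * j * g⁻¹ = z := by
        calc _ = r ^ l * ((r ^ l)⁻¹ * g * j * ((r ^ l)⁻¹ * g)⁻¹) * (r ^ l)⁻¹ := by group
          _ = _ := by rw [e2, ← zr, mul_inv_cancel_right]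
      exact this ▸ ci z zX zi
    · have e2 : z * (g * j * g⁻¹) = g * j * g⁻¹ * z := by
        rw [ej, ← mul_assoc, zi, mul_assoc, mul_assoc, ← pow_one r, zr]
      have := ci _ (mul_mem (mul_mem (inv_mem hn) hj') hn) (by
        calc _ = n⁻¹ * (g * j * g⁻¹ * (n * i * n⁻¹)) * n := by group
          _ = _ := by rw [← e1, ← e2, e1]; group)
      have := mul_mem (mul_mem hn' this) (inv_mem hn')
      convert this using 1
      group
  intro g hg
  refine mem_nrm fun a ha => ?_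
  have hb := mul_mem hg (hA (mul_mem ha ha))
  convert prod _ _ (inv _ hb (main _ hb)) (inv _ hg (main _ hg)) using 1
  calc _ = g * (a * j) * g⁻¹ * (g * j * g⁻¹)⁻¹ := by group
    _ = _ := by rw [← cj a ha]; group

end Cfsg.Agent.H77.N9
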