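import Cfsg.Agent.H35.RfQ
import Cfsg.Agent.H49.XSDual

/-! Project RF: consequences in the centralizer of the central involution. -/

set_option autoImplicit false

namespace Cfsg.Agent.H77.RfCq

open Subgroup Cfsg.Agent.H35.RF Cfsg.Agent.H18.Rf Cfsg.Agent.H18.MaxOff
open scoped commutatorElement

universe u

theorem cq : CqStmt.{u} := by
  intro G _ _ V z W R ω Q h
  have va := h.vc.toVa
  have xs := h.lx.toXS
  have QR : Q ≤ R := h.ql.sup ▸ le_sup_left
  have QM : Q ≤ MM V z := QR.trans va.RM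
  have Vz : V ≤ C1 z := fun v hv => mem_centralizer_singleton_iff.2
    (comm_of_sq va.el hv (va.WV va.zW))
  have V2 : IsPGroup 2 V := pg_of_sq va.el
  refine ⟨fun c _ hc => xs.mem_of_conj h.lx.cQ fun q hq => ?_, fun c _ hc => ?_, ?_⟩
  · rcases xs.mem_Z.1 (hc q hq) with e | e
    · left
      rw [commutatorElement_def] at e
      exact mul_inv_eq_one.1 e
    · right
      rw [commutatorElement_def] at e
      rw [xs.cen q hq, ← e]
      group
  · have VC : V ≤ CC W := fun v hv => mem_centralizer_iff.2 fun w hw =>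
      comm_of_sq va.el (va.WV hw) hv
    have C2 : IsPGroup 2 (CC W) := by
      rintro ⟨d, hd⟩
      have hd' : ∀ w ∈ W, w * d = d * w := mem_centralizer_iff.1 hd
      have dz : d ∈ C1 z := mem_centralizer_singleton_iff.2 (hd' z va.zW).symm
      have dQ := h.lx.nz dz
      have key : d * d ∈ CC Q := mem_centralizer_iff.2 fun q hq => by
        have hq : q ∈ Q := hq
        have xQ : d * q * d⁻¹ * q⁻¹ ∈ Q :=
          Q.mul_mem ((mem_normalizer_iff.1 dQ q).1 hq) (Q.inv_mem hq)
        have xC : d * q * d⁻¹ * q⁻¹ ∈ CC W := mem_centralizer_iff.2 fun w hw => by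
          have hw : w ∈ W := hw
          have h1 : q⁻¹ * w * q ∈ W := by
            have := (mem_normalizer_iff.1 (inv_mem (va.nW (QM hq))) w).1 hw
            rwa [inv_inv] at this
          have h2 := hd' _ h1
          have h3 := hd' _ hw
          have h4 : d⁻¹ * (q⁻¹ * w * q) = (q⁻¹ * w * q) * d⁻¹ := by
            rw [inv_mul_eq_iff_eq_mul, ← mul_assoc, ← h2, mul_inv_cancel_right]
          calc w * (d * q * d⁻¹ * q⁻¹) = (w * d) * q * d⁻¹ * q⁻¹ := by group
            _ = d * q * ((q⁻¹ * w * q) * d⁻¹) * q⁻¹ := by rw [h3]; group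
            _ = d * q * d⁻¹ * q⁻¹ * w := by rw [← h4]; group
        have xV : d * q * d⁻¹ * q⁻¹ ∈ V := h.vc.nw ⟨(QM xQ).1, xC⟩
        have xW : d * q * d⁻¹ * q⁻¹ ∈ W := h.ql.inf ▸ ⟨xQ, xV⟩
        have h5 := hd' _ xW
        have h6 := va.el _ xV
        generalize hx : d * q * d⁻¹ * q⁻¹ = x at h5 h6
        have h7 : d * q = x * q * d := by rw [← hx]; group
        calc q * (d * d) = (x * x) * q * d * d := by rw [h6]; group
          _ = x * (x * q * d) * d := by group
          _ = (x * d) * (q * d) := by rw [← h7]; group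
          _ = d * (x * q * d) := by rw [h5]; group
          _ = d * d * q := by rw [← h7]; group
      refine ⟨3, Subtype.ext ?_⟩
      have := xs.pow_four (h.lx.cQ key)
      rw [← pow_two, ← pow_mul] at this
      simpa using this
    have CV : CC W = V := le_antisymm
      (fun d hd => h.vc.nw ⟨h.wc.le_norm C2 VC hd, hd⟩) VC
    refine mem_norm_of_le fun a ha => ?_
    rw [← CV] at ha ⊢
    refine mem_centralizer_iff.2 fun w hw => ?_
    have hw : w ∈ W := hw
    have h1 : c⁻¹ * w * c ∈ W := by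
      have := (mem_normalizer_iff.1 (inv_mem hc) w).1 hw
      rwa [inv_inv] at this
    have h2 := mem_centralizer_iff.1 ha _ h1
    calc w * (c * a * c⁻¹) = c * (c⁻¹ * w * c * a) * c⁻¹ := by group
      _ = c * a * c⁻¹ * w := by rw [h2]; group
  · have : Fact (Nat.Prime 2) := ⟨Nat.prime_two⟩
    obtain ⟨P, hP⟩ := (V2.comap_subtype (K := C1 z)).exists_le_sylow
    let P' : Subgroup G := (P : Subgroup (C1 z)).map (C1 z).subtype
    have P2 : IsPGroup 2 P' := P.isPGroup'.map _
    have VP : V ≤ P' := fun v hv => ⟨⟨v, Vz hv⟩, hP hv, rfl⟩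
    have PM : P' ≤ MM V z := le_inf (h.wc.le_norm P2 VP) (map_subtype_le _)
    obtain ⟨m, hm, hM⟩ := va.syl
    obtain ⟨k, hk⟩ := IsPGroup.iff_card.1 P.isPGroup'
    have cP : Nat.card P' = 2 ^ k := by
      rw [← hk]; exact card_map_of_injective (C1 z).subtype_injective
    have hi : Odd (P : Subgroup (C1 z)).index :=
      Nat.odd_iff.2 (Nat.two_dvd_ne_zero.1 P.not_dvd_index)
    have e := (P : Subgroup (C1 z)).card_mul_index
    rw [hk] at e
    have d1 : 2 ^ k ∣ 2 ^ 21 * m := by rw [← cP, ← hM]; exact card_dvd_of_le PM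
    have d2 : 2 ^ 21 ∣ 2 ^ k * (P : Subgroup (C1 z)).index := by
      rw [e]
      exact (Dvd.intro _ hM.symm).trans (card_dvd_of_le inf_le_right)
    have l1 : k ≤ 21 := (Nat.pow_dvd_pow_iff_le_right one_lt_two).1
      (Nat.Coprime.dvd_of_dvd_mul_right (Nat.Coprime.pow_left _ (Nat.coprime_two_left.2 hm)) d1)
    have l2 : 21 ≤ k := (Nat.pow_dvd_pow_iff_le_right one_lt_two).1
      (Nat.Coprime.dvd_of_dvd_mul_right (Nat.Coprime.pow_left _ (Nat.coprime_two_left.2 hi)) d2)
    exact ⟨_, hi, by rw [← e, le_antisymm l1 l2]⟩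

end Cfsg.Agent.H77.RfCq
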