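import Cfsg.Agent.H77.CkG
import Cfsg.Agent.H77.SgDefs2
import Cfsg.Agent.H91.SgPalg
import Cfsg.Agent.H88.SgPolyB
import Cfsg.Agent.H22.SgBlock0
import Cfsg.Agent.H91.SgStr2
import Cfsg.Agent.H16.SgUc0
import Cfsg.Agent.H91.SgE1
import Cfsg.Agent.H16.SgSmall
import Cfsg.Agent.H11.SgExc
import Cfsg.Agent.H60.SgSpec
import Cfsg.Agent.H28.SgCnt
import Cfsg.Agent.H32.SgNu
import Cfsg.Agent.H80.SgAgl
import Cfsg.Agent.H4.SgLines
import Cfsg.Agent.H22.SgFin
import Cfsg.Agent.H72.SgCt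
import Cfsg.Agent.H8.SgTri
import Cfsg.Agent.H62.SgNof
import Cfsg.Agent.H7.SgPart
import Cfsg.Agent.H51.SgCntP
import Cfsg.Agent.H91.SgNuV
import Cfsg.Agent.H11.SgNu8
import Cfsg.Agent.H32.ExtField

/-!
The normaliser in `SL_n(q)` of a field of degree `n`, `n ≥ 7` prime, is a maximal subgroup.
-/

set_option autoImplicit false

namespace Cfsg.Agent.H77.Sg

open Cfsg Module Matrix Cfsg.Geo

universe u v

theorem str0 : Str0.{u, v} := H91.SgStr2.str (H88.SgP.poly H91.SgPalg.palg)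

theorem small0 : Small0.{u, v} :=
  H16.SgSmall.small H16.SgUc0.uc (H91.SgE1.e1 H22.SgBlock0.block str0 H16.SgUc0.uc)

theorem cnt0 : Cnt0.{u, v} :=
  H51.SgCntP.cnt0 (H28.SgCnt.cntV str0 H16.SgUc0.uc small0 H11.SgX.exc H7.SgP.part H60Spec.spec)
    str0 H16.SgUc0.uc small0 H11.SgX.exc H60Spec.spec

/-- An overgroup in `SL` of the field normaliser contains all transvections. -/
theorem tv_mem {F K : Type u} [Field F] [Field K] [Algebra F K] [Finite F] [Finite K]
    (M : Subgroup (K ≃ₗ[F] K)) (hp : (finrank F K).Prime) (h7 : 7 ≤ finrank F K)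
    (hM : ∀ g ∈ M, LinearMap.det (g : K →ₗ[F] K) = 1)
    (hN : ∀ g : K ≃ₗ[F] K, LinearMap.det (g : K →ₗ[F] K) = 1 → Nm g → g ∈ M)
    (h : ∃ g ∈ M, ¬ Nm g) (v : K) (φ : K →ₗ[F] F) (e : φ v = 0) :
    ∃ g ∈ M, ∀ w, g w = w + φ w • v := by
  let X : Subgroup (K ≃ₗ[F] K) :=
    { carrier := {g | ∃ m ∈ M, ∃ c : F, c ≠ 0 ∧ ∀ x, g x = c • m x}
      one_mem' := ⟨1, M.one_mem, 1, one_ne_zero, by simp⟩
      mul_mem' := by
        rintro g g' ⟨m, hm, c, hc, e⟩ ⟨m', hm', c', hc', e'⟩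
        exact ⟨m * m', M.mul_mem hm hm', c * c', mul_ne_zero hc hc', fun x => by
          simp [e, e', mul_smul]⟩
      inv_mem' := by
        rintro g ⟨m, hm, c, hc, e⟩
        exact ⟨m⁻¹, M.inv_mem hm, c⁻¹, inv_ne_zero hc, fun x => g.injective (by
          rw [e (c⁻¹ • m⁻¹ x)]; simp [smul_smul, hc])⟩ }
  have hX : Two X := two_of H72.SgCt.ct cnt0 (H32.SgNu.nuP H22.SgBlock0.block)
    (H11.SgN.nu8 H22.SgBlock0.block) H91.SgNuV.nuV (H22.SgFin.fin H80.SgAgl.agl H4.SgLines.lines)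
    M X hp h7 hM hN (fun _ => Iff.rfl) (by
      obtain ⟨g, hg, h⟩ := h
      exact ⟨g, ⟨g, hg, 1, one_ne_zero, by simp⟩, h⟩)
  obtain ⟨g, ⟨m, hm, c, hc, e1⟩, e2⟩ := Ck.tv_of_two H8.SgTri.tri H62.SgNof.nof (by omega) X hX
    (-v) φ (by simp [e])
  have k1 : ∀ (k : ℕ) w, (g ^ k) w = c ^ k • (m ^ k) w := by
    intro k
    induction k with
    | zero => simp
    | succ k ih => intro w; simp [pow_succ', ih, e1, mul_smul]
  have k2 : ∀ (k : ℕ) w, (g ^ k) w = w - ((k : F) * φ w) • v := by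
    intro k
    induction k with
    | zero => simp
    | succ k ih =>
      intro w
      rw [pow_succ', LinearEquiv.mul_apply, ih, e2]
      simp only [map_sub, map_smul, e, smul_eq_mul, mul_zero, sub_zero, Nat.cast_succ]
      module
  have := Fintype.ofFinite F
  refine ⟨m ^ (Fintype.card F - 1), M.pow_mem hm _, fun w => ?_⟩
  have a := k1 (Fintype.card F - 1) w
  rw [FiniteField.pow_card_sub_one_eq_one c hc, one_smul, k2,
    Nat.cast_sub Fintype.card_pos, FiniteField.cast_card_eq_zero] at a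
  rw [← a]; module

theorem exists_not_Nm {F K : Type*} [Field F] [Field K] [Algebra F K] (h3 : 3 ≤ finrank F K) :
    ∃ (v : K) (φ : K →ₗ[F] F), φ v = 0 ∧ ∀ g : K ≃ₗ[F] K, (∀ w, g w = w + φ w • v) → ¬ Nm g := by
  classical
  have : FiniteDimensional F K := .of_finrank_pos (by omega)
  obtain ⟨a, ha⟩ := H32.exists_notMem_range (F := F) (K := K) (by omega)
  obtain ⟨x, hx⟩ : ∃ x, x ∉ Submodule.span F {(1 : K), a} := by
    by_contra c
    push Not at c
    have h1 := finrank_span_le_card (R := F) ({(1 : K), a} : Set K)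
    rw [(Submodule.eq_top_iff'.2 c), finrank_top, Set.toFinset_insert, Set.toFinset_singleton] at h1
    have := Finset.card_le_two (a := (1 : K)) (b := a)
    omega
  obtain ⟨φ, h1, h2⟩ := Submodule.exists_dual_map_eq_bot_of_notMem hx inferInstance
  have h0 : ∀ y ∈ Submodule.span F {(1 : K), a}, φ y = 0 := fun y hy => by
    have := Submodule.mem_map_of_mem (f := φ) hy
    rwa [h2] at this
  have e1 : φ 1 = 0 := h0 _ (Submodule.subset_span (by simp))
  have e2 : φ a = 0 := h0 _ (Submodule.subset_span (by simp))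
  refine ⟨1, φ, e1, fun g hg hN => ?_⟩
  obtain ⟨a', ha'⟩ := hN a
  have e3 : a' = a := by simpa [hg, e1, e2] using (ha' 1).symm
  have e4 := ha' x
  rw [hg, hg, e3, mul_add, add_right_inj, mul_smul_comm, mul_one] at e4
  refine ha (φ (a * x) / φ x) ?_
  rw [Algebra.algebraMap_eq_smul_one, div_eq_inv_mul, mul_smul, e4, smul_smul,
    inv_mul_cancel₀ h1, one_smul]

variable {ι : Type} [Fintype ι] [DecidableEq ι] {F : Type u} [Field F]

/-- The normaliser in `SL_n` of a field of matrices of prime degree `n ≥ 7` is maximal. -/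
theorem singer_max [Finite F] (hp : (Fintype.card ι).Prime) (h7 : 7 ≤ Fintype.card ι)
    {K : Subalgebra F (Matrix ι ι F)} (hK : IsFieldSubalgebra (Fintype.card ι) K) :
    IsMaximalIn (specialLinear ι F) (subalgebraNormalizer K ⊓ specialLinear ι F) := by
  let _ : Field K := (H32.isField_of_isFieldSubalgebra hp.pos hK).toField
  have hrk : finrank F K = Fintype.card ι := hK.finrank_eq
  have : Nonempty ι := Fintype.card_pos_iff.1 hp.pos
  obtain ⟨v₀, hv₀⟩ := exists_ne (0 : ι → F)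
  let e₀ : K →ₗ[F] (ι → F) := (LinearMap.toSpanSingleton K (ι → F) v₀).restrictScalars F
  have inj : Function.Injective e₀ := smul_left_injective K hv₀
  let e : K ≃ₗ[F] (ι → F) := e₀.linearEquivOfInjective inj (by simp [hrk])
  have em : ∀ a x : K, e (a * x) = (a : Matrix ι ι F) *ᵥ e x := fun a x => mul_smul a x v₀
  let Φ : GL ι F → K ≃ₗ[F] K := fun g =>
    (e.trans (Matrix.toLinearEquiv' (g : Matrix ι ι F) g.invertible)).trans e.symm
  have hΦ : ∀ g x, e (Φ g x) = (g : Matrix ι ι F) *ᵥ e x := fun g x => e.apply_symm_apply _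
  have hd : ∀ (g : GL ι F) (h : K ≃ₗ[F] K), (∀ x, e (h x) = (g : Matrix ι ι F) *ᵥ e x) →
      LinearMap.det (h : K →ₗ[F] K) = (g : Matrix ι ι F).det := fun g h a => by
    rw [← LinearMap.det_toLin', ← LinearMap.det_conj (h : K →ₗ[F] K) e]
    congr 1
    refine LinearMap.ext fun y => ?_
    simp [a]
  have hn : ∀ (g : GL ι F) (h : K ≃ₗ[F] K), (∀ x, e (h x) = (g : Matrix ι ι F) *ᵥ e x) →
      (Nm h ↔ ∀ k ∈ K, H25.cj g k ∈ K) := fun g h a => by
    refine ⟨fun b k hk => ?_, fun b k => ⟨⟨_, b k k.2⟩, fun x => e.injective ?_⟩⟩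
    · obtain ⟨a', ha'⟩ := b ⟨k, hk⟩
      have : H25.cj g k = a' := H25.mat_ext_mulVec fun y => by
        obtain ⟨x, rfl⟩ := (h.trans e).surjective y
        have := congrArg e (ha' x)
        rw [a, em, em] at this
        rw [LinearEquiv.trans_apply, ← this, a, H25.cj_mulVec]
      rw [this]; exact a'.2
    · rw [a, em, em, a, H25.cj_mulVec]
  have hg : ∀ h : K ≃ₗ[F] K, ∃ g : GL ι F, ∀ x, e (h x) = (g : Matrix ι ι F) *ᵥ e x := fun h =>
    ⟨H25.glOfEquiv ((e.symm.trans h).trans e), fun x => by simp [H25.glOfEquiv_mulVec]⟩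
  have nm : ∀ (g : GL ι F) (h : K ≃ₗ[F] K), (∀ x, e (h x) = (g : Matrix ι ι F) *ᵥ e x) → Nm h →
      g ∈ subalgebraNormalizer K := fun g h a b => by
    obtain ⟨N, hN, -⟩ := (H51.SgKit.kit F K (hrk ▸ hp)).sub
    have b' : Nm h⁻¹ := (hN _).1 (N.inv_mem ((hN h).2 b))
    rw [H25.mem_subalgebraNormalizer]
    refine fun k => ⟨(hn g h a).1 b k, fun c => ?_⟩
    have := (hn g⁻¹ h⁻¹ fun x => by
      rw [← H25.gl_inv_mulVec g (e (h⁻¹ x)), ← a]; simp).1 b' _ c
    rwa [H25.cj_inv_cj] at this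
  refine H32.isMaximalIn_of_forall inf_le_right (fun a => ?_) fun M h1 h2 g g1 g2 => ?_
  · obtain ⟨v, φ, ev, b⟩ := exists_not_Nm (F := F) (K := K) (by omega)
    let t : K ≃ₗ[F] K := LinearEquiv.transvection ev
    obtain ⟨g, c⟩ := hg t
    have : g ∈ specialLinear ι F := by
      rw [H32.mem_specialLinear_iff, ← hd g t c]
      simp [t, LinearMap.transvection.det, ev]
    exact b t (fun w => rfl) ((hn g t c).2 fun k hk => ((a this).1 k).1 hk)
  · let M' : Subgroup (K ≃ₗ[F] K) :=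
      { carrier := {h | ∃ g ∈ M, ∀ x, e (h x) = (g : Matrix ι ι F) *ᵥ e x}
        one_mem' := ⟨1, M.one_mem, by simp⟩
        mul_mem' := by
          rintro h h' ⟨g, a, b⟩ ⟨g', a', b'⟩
          exact ⟨g * g', M.mul_mem a a', fun x => by simp [b, b']⟩
        inv_mem' := by
          rintro h ⟨g, a, b⟩
          exact ⟨g⁻¹, M.inv_mem a, fun x => by
            rw [← H25.gl_inv_mulVec g (e (h⁻¹ x)), ← b]; simp⟩ }
    refine H32.specialLinear_le_of_endMonoid fun u f hu => ?_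
    obtain ⟨h, ⟨k, k1, k2⟩, k3⟩ := tv_mem M' (hrk ▸ hp) (hrk ▸ h7)
      (by rintro h ⟨g, a, b⟩; rw [hd g h b]; exact (H32.mem_specialLinear_iff g).1 (h2 a))
      (fun h a b => by
        obtain ⟨g, c⟩ := hg h
        exact ⟨g, h1 ⟨nm g h c b, (H32.mem_specialLinear_iff g).2 (by rw [← hd g h c, a])⟩, c⟩)
      ⟨Φ g, ⟨g, g1, hΦ g⟩, fun b => g2 ⟨nm g _ (hΦ g) b, h2 g1⟩⟩
      (e.symm u) (f.comp (e : K →ₗ[F] (ι → F))) (by simpa using hu)
    refine ⟨k, k1, LinearMap.ext fun y => ?_⟩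
    obtain ⟨x, rfl⟩ := e.surjective y
    rw [Matrix.toLin'_apply, ← k2, k3]
    simp

theorem le_card_of_isFieldSubalgebra [Nonempty ι] {r : ℕ} (hr : 0 < r)
    {K : Subalgebra F (Matrix ι ι F)} (hK : IsFieldSubalgebra r K) : r ≤ Fintype.card ι := by
  let _ : Field K := (H32.isField_of_isFieldSubalgebra hr hK).toField
  obtain ⟨v₀, hv₀⟩ := exists_ne (0 : ι → F)
  have := LinearMap.finrank_le_finrank_of_injective
    (f := (LinearMap.toSpanSingleton K (ι → F) v₀).restrictScalars F) (smul_left_injective K hv₀)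
  rwa [hK.finrank_eq, Module.finrank_fintype_fun_eq_card] at this

/-- The normaliser in `SL_n`, `n ≥ 7`, of a field of matrices of prime degree is maximal. -/
theorem field_max [Finite F] (h7 : 7 ≤ Fintype.card ι) {r : ℕ} (hr : r.Prime)
    {K : Subalgebra F (Matrix ι ι F)} (hK : IsFieldSubalgebra r K) :
    IsMaximalIn (specialLinear ι F) (subalgebraNormalizer K ⊓ specialLinear ι F) := by
  have : Nonempty ι := Fintype.card_pos_iff.1 (by omega)
  rcases (le_card_of_isFieldSubalgebra hr.pos hK).eq_or_lt with rfl | h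
  · exact singer_max hr h7 hK
  · exact H32.isMaximalIn_subalgebraNormalizer hr h hK

end Cfsg.Agent.H77.Sg
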