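import Cfsg.Agent.H77.T1Z

/-!
Overgroups of `Ω₃(q) ⊗ Ω(W)` for `W` of Witt index one: the stabiliser of `U ⊗ z` preserves the
tensor decomposition.
-/

set_option autoImplicit false
set_option linter.unusedSectionVars false

namespace Cfsg.Agent.H77

open Module TensorProduct QuadraticMap H30 H36 H27
open H79 hiding polar_self' IsHyp

variable {F U W : Type*} [Field F] [AddCommGroup U] [Module F U] [AddCommGroup W] [Module F W]
  [FiniteDimensional F U] [FiniteDimensional F W]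
  {Q₁ : QuadraticForm F U} {Q₂ : QuadraticForm F W} {Q : QuadraticForm F (U ⊗[F] W)}
  {X : Subgroup (End F (U ⊗[F] W))ˣ} {z z' z₂ : W} {u u' : U} {g g' n n' : End F (U ⊗[F] W)}
  {ξ η : U →ₗ[F] U ⊗[F] W}

theorem eE_smul (u x : U) (t : F) : eE Q₁ u (t • x) =
    1 + t • sk (polarBilin Q₁) u x - (t * t * Q₁ x) • ro (polarBilin Q₁) u u := by
  rw [eE, Q_smul]
  congr 2
  exact LinearMap.ext fun w => by simp [smul_sub, smul_smul, mul_comm t]

theorem rT_mul_eq_one {α α' : End F U} (e : α * α' = 1) : α.rTensor W * α'.rTensor W = 1 := by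
  rw [← LinearMap.rTensor_mul, e, End.one_eq_id, LinearMap.rTensor_id, End.one_eq_id]

theorem lT_mul_eq_one {β β' : End F W} (e : β * β' = 1) : β.lTensor U * β'.lTensor U = 1 := by
  rw [← LinearMap.lTensor_mul, e, End.one_eq_id, LinearMap.lTensor_id, End.one_eq_id]

/-- An endomorphism normalising a root subgroup of `Ω(U) ⊗ 1` modulo `1 ⊗ End W` centralises it. -/
theorem t1_comm (h2 : (2 : F) ≠ 0) (h5 : ∃ t : F, t ≠ 0 ∧ t * t ≠ 1)
    (hQ : (polarBilin Q₁).Nondegenerate) (h : H30.IsHyp Q₁ u u') {x : U} (hx : x ∈ hperp Q₁ u u')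
    (hxQ : Q₁ x ≠ 0) (e : g * g' = 1) (e' : g' * g = 1) (hg : ∀ t : F, ∃ β : End F W,
      g * (eE Q₁ u (t • x)).rTensor W * g' = TensorProduct.map (eE Q₁ u (t • x)) β) :
    g * (ro (polarBilin Q₁) u u).rTensor W = (ro (polarBilin Q₁) u u).rTensor W * g := by
  set A := g * (sk (polarBilin Q₁) u x).rTensor W * g' with hA
  set B := g * (ro (polarBilin Q₁) u u).rTensor W * g' with hB
  choose β hβ using hg
  have h1 : ∀ t y w, y ⊗ₜ w + t • A (y ⊗ₜ w) - (t * t * Q₁ x) • B (y ⊗ₜ w) =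
      eE Q₁ u (t • x) y ⊗ₜ β t w := fun t y w => by
    rw [← map_tmul, ← hβ, eE_smul]
    simp only [hA, hB, LinearMap.rTensor_sub, LinearMap.rTensor_add, LinearMap.rTensor_smul,
      End.mul_apply, End.one_eq_id, LinearMap.rTensor_id, LinearMap.sub_apply, map_sub,
      LinearMap.add_apply, LinearMap.id_apply, map_add, LinearMap.smul_apply, map_smul,
      ← End.mul_apply g g', e]
  have hux : polar Q₁ u x = 0 := by rw [polar_comm, hx.1]
  have h3 : ∀ t w, β t w = w := fun t w => by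
    set b₁ := cL (polarBilin Q₁) W u' (A (u ⊗ₜ w))
    set b₂ := cL (polarBilin Q₁) W u' (B (u ⊗ₜ w))
    have a1 : ∀ t, β t w = w + t • b₁ - (t * t * Q₁ x) • b₂ := fun t => by
      simpa [eE_apply, h.polar_left, hux, h.pol] using
        (congrArg (cL (polarBilin Q₁) W u') (h1 t u w)).symm
    obtain ⟨a2, a3⟩ := t1_quartic h2 h5 (a := 0) (b := u' ⊗ₜ b₁ + x ⊗ₜ w - A (u' ⊗ₜ w))
      (c := x ⊗ₜ b₁ - Q₁ x • u' ⊗ₜ b₂ - Q₁ x • u ⊗ₜ w + Q₁ x • B (u' ⊗ₜ w))
      (d := -Q₁ x • (x ⊗ₜ b₂ + u ⊗ₜ b₁)) (e := (Q₁ x * Q₁ x) • u ⊗ₜ[F] b₂) fun t => by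
        have := h1 t u' w
        simp only [a1, eE_apply, h.pol', polar_smul_right', polar_comm Q₁ u' x, hx.2, Q_smul,
          one_smul, mul_zero, zero_smul, sub_zero, add_tmul, sub_tmul, tmul_add, tmul_sub,
          tmul_smul, ← smul_tmul'] at this
        linear_combination (norm := module) -this
    have a4 : b₂ = 0 := tmul_left_inj hQ h.left_ne_zero (by simpa [hxQ] using a3)
    have a5 : b₁ = 0 := tmul_left_inj hQ h.left_ne_zero (by simpa [hxQ, a4] using a2)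
    simp [a1, a4, a5]
  have h4 : B = (ro (polarBilin Q₁) u u).rTensor W := TensorProduct.ext' fun y w => by
    refine smul_right_injective _ (mul_ne_zero h2 hxQ) ?_
    have a1 := h1 1 y w
    have a2 := h1 (-1) y w
    simp only [h3, eE_smul, LinearMap.sub_apply, LinearMap.add_apply, sub_tmul, add_tmul,
      End.one_apply, LinearMap.smul_apply, ← smul_tmul'] at a1 a2
    rw [LinearMap.rTensor_tmul]
    linear_combination (norm := module) -a1 - a2
  rw [← h4, hB, mul_assoc _ g', e', mul_one, ← hB, h4]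

namespace T1

variable (hS : T1 Q₁ Q₂ Q X)
include hS

theorem cR_fix (hg : InG X g) (hfix : ∀ x, g (x ⊗ₜ z) = x ⊗ₜ z) (p : U ⊗[F] W) :
    cR (polarBilin Q₂) U z (g p) = cR (polarBilin Q₂) U z p := by
  rw [← sub_eq_zero]
  refine hS.nd₁.1 _ fun x => ?_
  rw [map_sub, LinearMap.sub_apply, ← tB_cR, ← tB_cR, ← hS.iso' hg p, hfix, sub_self]

theorem qr_perp (hn : QR (polarBilin Q₂) X z n) (p : U ⊗[F] W) :
    cR (polarBilin Q₂) U z (n p) = 0 := by
  simpa using hS.cR_fix hn.mem (fun x => by simp [hn.kill]) p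

theorem triple {n'' : End F (U ⊗[F] W)} (h1 : QR (polarBilin Q₂) X z n)
    (h2 : QR (polarBilin Q₂) X z n') (h3 : QR (polarBilin Q₂) X z n'') :
    n * n' * n'' = 0 := LinearMap.ext fun p => h1.kill' (h2.into _ (hS.qr_perp h3 p))

theorem xi_perp (hz : Q₂ z = 0) (hz0 : z ≠ 0) (h1 : Xi (polarBilin Q₂) X z ξ) (x : U) :
    cR (polarBilin Q₂) U z (ξ x) = 0 := by
  obtain ⟨n, hn, h1⟩ := h1
  obtain ⟨y, hy⟩ := exists_apply_eq_one' hS.nd₂ hz0
  simpa [hS.qr_perp hn, show polar Q₂ y z = 1 from hy] using cR_sR hz (h1 (x ⊗ₜ y))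

omit hS in
theorem eE_sR (v : W) (p : U ⊗[F] W) :
    (eE Q₂ z v).lTensor U p - p - cR (polarBilin Q₂) U z p ⊗ₜ v ∈ sR F U z := by
  induction p using TensorProduct.induction_on with
  | zero => simp
  | add a b ha hb =>
    convert Submodule.add_mem _ ha hb using 1
    simp only [map_add, add_tmul]
    abel
  | tmul x w =>
    convert tmul_mem_sR ((-polar Q₂ w v - Q₂ v * polar Q₂ w z) • x) z using 1
    simp only [LinearMap.lTensor_tmul, eE_apply, cR_tmul, polarBilin_apply_apply, tmul_add,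
      tmul_sub, tmul_smul, ← smul_tmul']
    module

theorem xi_one (hz : Q₂ z = 0) {v : W} (hv : polar Q₂ z v = 0) :
    Xi (polarBilin Q₂) X z (tm 1 v) :=
  xi_mk (n := (eE Q₂ z v).lTensor U - 1) (by simpa using hS.eE_right hz hv)
    (by simp [eE_apply, hz, hv]) (eE_sR v)

variable [Finite F] (hX : ¬ eichGroup Q ≤ X.comap (oU Q))
include hX

theorem xi_symm (hz : Q₂ z = 0) (hz0 : z ≠ 0) (h1 : Xi (polarBilin Q₂) X z ξ)
    (h2 : Xi (polarBilin Q₂) X z η) (a b : U) : polar Q (ξ a) (η b) = polar Q (η a) (ξ b) := by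
  have a1 := hS.xi_perp hz hz0 h1
  have a2 := hS.xi_perp hz hz0 h2
  obtain ⟨n, hn, h1⟩ := h1
  obtain ⟨n', hn', h2⟩ := h2
  obtain ⟨y, hy⟩ := exists_apply_eq_one' hS.nd₂ hz0
  have h3 := sub_eq_zero.1 (hS.eq_zero_of_sR hX hz hz0 (inG_comm hn.mem hn'.mem
    (hS.triple hn hn' hn) (hS.triple hn hn' hn') (hS.triple hn' hn hn) (hS.triple hn' hn hn'))
    fun p => Submodule.sub_mem _ (hn.into _ (hS.qr_perp hn' p)) (hn'.into _ (hS.qr_perp hn p)))
  have key : ∀ {n n' : End F (U ⊗[F] W)}, QR (polarBilin Q₂) X z n → QR (polarBilin Q₂) X z n' →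
      ∀ {ξ η : U →ₗ[F] U ⊗[F] W}, (∀ p, n p - ξ (cR (polarBilin Q₂) U z p) ∈ sR F U z) →
      (∀ p, n' p - η (cR (polarBilin Q₂) U z p) ∈ sR F U z) →
      (∀ x, cR (polarBilin Q₂) U z (η x) = 0) →
      polar Q (η a) (ξ b) = -polar Q ((n * n') (a ⊗ₜ y)) (b ⊗ₜ y) :=
    fun {n n'} hn hn' {ξ η} h1 h2 h4 => by
      have b1 := skew3 (hS.iso' hn.mem) (n' (a ⊗ₜ y)) (b ⊗ₜ y)
      have b2 := TC.tB_sR (f := polarBilin Q₁) (hS.qr_perp hn (b ⊗ₜ y))
        (hn.into _ (hS.qr_perp hn' (a ⊗ₜ y)))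
      have b3 := TC.tB_sR (f := polarBilin Q₁) (hS.qr_perp hn (b ⊗ₜ y)) (h2 (a ⊗ₜ y))
      have b4 := TC.tB_sR (f := polarBilin Q₁) (h4 a) (h1 (b ⊗ₜ y))
      simp only [cR_tmul, hy, one_smul, ← hS.pol, polar_sub_right] at b1 b2 b3 b4
      rw [End.mul_apply]
      linear_combination b1 - b2 - b3 - b4 - polar_comm Q (n (n' (a ⊗ₜ y))) (n (b ⊗ₜ y)) -
        polar_comm Q (n' (a ⊗ₜ y)) (n (b ⊗ₜ y)) + polar_comm Q (η a) (n (b ⊗ₜ y))
  rw [key hn hn' h1 h2 a2, key hn' hn h2 h1 a1, h3]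

theorem exists_tmul (hz : Q₂ z = 0) (hz0 : z ≠ 0) (hξ : Xi (polarBilin Q₂) X z ξ) :
    ∃ v, polar Q₂ z v = 0 ∧ ∀ x, ξ x - x ⊗ₜ v ∈ sR F U z := by
  have h2 := hS.two
  have h1 : ∀ u, Q₁ u = 0 → cL (polarBilin Q₁) W u (ξ u) ∈ F ∙ z := fun u hu => by
    by_cases hu0 : u = 0
    · simp [hu0]
    obtain ⟨u', h⟩ := exists_isHyp hS.nd₁ hu hu0
    obtain ⟨x, hx, hxQ, -⟩ := t1_dec hS.nd₁ hS.three₁ h
    have hux : polar Q₁ u x = 0 := by rw [polar_comm, hx.1]
    refine hS.one z _ hz hz0 ?_ ?_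
    · rw [polar_comm, ← polarBilin_apply_apply, cL_cR, hS.xi_perp hz hz0 hξ, LinearMap.map_zero₂]
    set S := (sk (polarBilin Q₁) u x).rTensor W with hS'
    set R := (ro (polarBilin Q₁) u u).rTensor W with hR
    have := (t1_quartic h2 hS.five (M := F) (a := polar Q (ξ u') (ξ u) - polar Q (ξ u') (ξ u))
      (b := polar Q (S (ξ u') - ξ x) (ξ u) - polar Q (ξ u') (S (ξ u)))
      (c := polar Q (-S (ξ x) - Q₁ x • ξ u - Q₁ x • R (ξ u')) (ξ u) +
        Q₁ x * polar Q (ξ u') (R (ξ u))) (d := Q₁ x * polar Q (R (ξ x) - S (ξ u)) (ξ u))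
      (e := Q₁ x * Q₁ x * polar Q (R (ξ u)) (ξ u)) fun t => by
        have a1 : polar Q₁ u (t • x) = 0 := by simp [hux]
        have := hS.xi_symm hX hz hz0 (TC.xi_conj (g' := (eE Q₁ u (-(t • x))).rTensor W) (z₂ := z)
          (γ := eE Q₁ u (-(t • x))) hξ (hS.eE_left hu a1) (rT_mul_eq_one (eE_mul_neg hu a1))
          (fun x => tmul_mem_sR _ _) (fun x => tmul_mem_sR _ _) (cR_rTensor _ z)) hξ u' u
        rw [LinearMap.comp_apply, LinearMap.comp_apply, LinearMap.comp_apply, LinearMap.comp_apply,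
          eE_apply, eE_apply, eE_smul] at this
        simp only [polar_neg_right, polar_smul_right', h.pol', h.polar_left, hux, hx.2,
          polar_comm Q₁ u' x, QuadraticMap.map_neg, Q_smul, LinearMap.rTensor_sub,
          LinearMap.rTensor_add, LinearMap.rTensor_smul, End.one_eq_id, LinearMap.rTensor_id,
          LinearMap.sub_apply, LinearMap.add_apply, LinearMap.id_apply, LinearMap.smul_apply,
          map_add, map_sub, map_smul, map_neg, ← hS', ← hR, polar_add_left, polar_sub_left,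
          polar_smul_left', polar_neg_left, polar_add_right, polar_sub_right, smul_eq_mul,
          zero_smul, smul_zero, sub_zero, add_zero, one_smul, mul_zero, neg_zero] at this ⊢
        linear_combination this).2
    rw [hR, rTensor_ro, polar_comm, hS.pol, tB_cL, polarBilin_apply_apply, polar_self'] at this
    simpa [h2, hxQ] using this
  have h3 : ∀ y, polar Q₂ z y = 0 → ∃ c : F, ∀ x, cR (polarBilin Q₂) U y (ξ x) = c • x :=
    fun y hy => by
      obtain ⟨μ, hμ⟩ := hS.big.quad_eq (polarBilin Q₁ ∘ₗ cR (polarBilin Q₂) U y ∘ₗ ξ) fun u hu => by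
        obtain ⟨c, hc⟩ := Submodule.mem_span_singleton.1 (h1 u hu)
        simp only [LinearMap.comp_apply, ← cL_cR, ← hc]
        simp [hy]
      refine ⟨μ / 2, fun a => sub_eq_zero.1 (hS.nd₁.1 _ fun b => mul_left_cancel₀ h2 ?_)⟩
      have a1 := hS.xi_symm hX hz hz0 hξ (hS.xi_one hz hy) a b
      have a2 := hμ (a + b)
      rw [polar_comm Q (tm _ _ _), hS.pol, hS.pol, tm_apply, tm_apply, tB_cR, tB_cR] at a1
      simp only [map_add, LinearMap.add_apply, hμ, Q_add] at a2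
      simp only [LinearMap.comp_apply, End.one_apply, map_sub, map_smul, LinearMap.sub_apply,
        LinearMap.smul_apply, smul_eq_mul, polarBilin_apply_apply] at a1 a2 ⊢
      field_simp
      linear_combination a1 + a2
  obtain ⟨z', hz'⟩ := exists_apply_eq_one hS.nd₂ hz0
  obtain ⟨v, hv⟩ := exists_eq_tmul_of_cR hS.nd₁ hS.nd₂
    (ξ - tm (cR (polarBilin Q₂) U z' ∘ₗ ξ) z) fun y => by
      obtain ⟨c, hc⟩ := h3 (y - polar Q₂ z y • z') (by simp [show polar Q₂ z z' = 1 from hz'])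
      exact ⟨c, fun x => by simpa using hc x⟩
  obtain ⟨u, hu⟩ := exists_nonsingular hS.nd₁ hS.three₁.ge
  refine ⟨v, ?_, fun x => by simpa [← hv] using tmul_mem_sR _ _⟩
  simpa [hS.xi_perp hz hz0 hξ, hz, ne_zero_of_Q_ne_zero hu, eq_comm (a := (0 : U)),
    polar_comm Q₂ v z] using congrArg (cR (polarBilin Q₂) U z) (hv u)

/-- The unipotent radical of the stabiliser of `U ⊗ z` meets `X` in a root subgroup of `Ω(W)`. -/
theorem eq_eE (hz : Q₂ z = 0) (hz0 : z ≠ 0) (hn : QR (polarBilin Q₂) X z n) :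
    ∃ v, polar Q₂ z v = 0 ∧ 1 + n = (eE Q₂ z v).lTensor U := by
  obtain ⟨z', hz'⟩ := exists_apply_eq_one' hS.nd₂ hz0
  obtain ⟨v, hv, h1⟩ := hS.exists_tmul hX hz hz0 (hn.xi hz')
  obtain ⟨k, hk, e1, e2⟩ := inG_exists_inv (hS.eE_right hz hv)
  have h2 := hS.eq_zero_of_sR hX hz hz0 (n := (1 + n) * k - 1) (by simpa using hn.mem.mul hk)
    fun p => by
      have a1 := hn.into (k p - cR (polarBilin Q₂) U z (k p) ⊗ₜ z') (by rw [map_sub]; simp [hz'])
      convert Submodule.sub_mem _ (Submodule.add_mem _ a1 (h1 (cR (polarBilin Q₂) U z (k p))))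
        (eE_sR (Q₂ := Q₂) v (k p)) using 1
      simp only [LinearMap.sub_apply, End.mul_apply, LinearMap.add_apply, End.one_apply, map_sub,
        LinearMap.comp_apply, LinearMap.flip_apply, mk_apply,
        show (eE Q₂ z v).lTensor U (k p) = p from LinearMap.congr_fun e1 p]
      abel
  refine ⟨v, hv, ?_⟩
  have := congrArg (· * (eE Q₂ z v).lTensor U) (sub_eq_zero.1 h2)
  simpa only [mul_assoc, e2, mul_one, one_mul] using this

omit hX [Finite F] in
theorem exists_cR (hz₂0 : z₂ ≠ 0) (hg : InG X g) (e : g * g' = 1)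
    (h : ∀ x, g (x ⊗ₜ z) ∈ sR F U z₂) :
    ∃ γ : End F U, ∀ p, cR (polarBilin Q₂) U z (g' p) = γ (cR (polarBilin Q₂) U z₂ p) := by
  obtain ⟨y, hy⟩ := exists_apply_eq_one' hS.nd₂ hz₂0
  refine ⟨cR (polarBilin Q₂) U z ∘ₗ g' ∘ₗ (TensorProduct.mk F U W).flip y, fun p =>
    sub_eq_zero.1 (hS.nd₁.1 _ fun b => ?_)⟩
  have := TC.tB_sR (f := polarBilin Q₁) (h := polarBilin Q₂) (z := z₂)
    (p := g (g' (p - cR (polarBilin Q₂) U z₂ p ⊗ₜ y)))
    (by rw [← End.mul_apply, e, End.one_apply, map_sub, cR_tmul, hy, one_smul, sub_self]) (h b)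
  rwa [hS.iso' hg, tB_cR, map_sub, map_sub] at this

/-- Elements mapping `U ⊗ z` to `U ⊗ z₂` preserve the tensor decomposition. -/
theorem exists_eq_map_of_sR (hz : Q₂ z = 0) (hz0 : z ≠ 0) (hz₂ : Q₂ z₂ = 0) (hz₂0 : z₂ ≠ 0)
    (hg : InG X g) (h1 : ∀ x, g (x ⊗ₜ z) ∈ sR F U z₂) :
    ∃ (α : End F U) (β : End F W), g = TensorProduct.map α β := by
  obtain ⟨g', hg', e1, e2⟩ := inG_exists_inv hg
  have e2' : ∀ p, g' (g p) = p := LinearMap.congr_fun e2
  have e1' : ∀ p, g (g' p) = p := LinearMap.congr_fun e1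
  obtain ⟨y, hy⟩ := exists_apply_eq_one' hS.nd₂ hz0
  obtain ⟨y₂, k⟩ := exists_isHyp hS.nd₂ hz₂ hz₂0
  let δ : End F U := cR (polarBilin Q₂) U y₂ ∘ₗ g ∘ₗ (TensorProduct.mk F U W).flip z
  have a1 : ∀ x, g (x ⊗ₜ z) = δ x ⊗ₜ z₂ := fun x => by
    obtain ⟨s, hs⟩ := mem_sR.1 (h1 x)
    simp [δ, hs, k.pol]
  have h2 : ∀ x, g' (x ⊗ₜ z₂) ∈ sR F U z := fun x => by
    obtain ⟨x, rfl⟩ := LinearMap.injective_iff_surjective.1 (show Function.Injective δ from
      fun a b e => tmul_right_inj hS.nd₂ hz0 (by rw [← e2' (a ⊗ₜ z), a1, e, ← a1, e2'])) x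
    rw [← a1, e2']
    exact tmul_mem_sR _ _
  obtain ⟨γ, hγ⟩ := hS.exists_cR hz₂0 hg e1 h1
  obtain ⟨γ', hγ'⟩ := hS.exists_cR hz0 hg' e2 h2
  have a2 : ∀ a, γ (γ' a) = a := fun a => by
    have := hγ (g (a ⊗ₜ y))
    rw [hγ', e2', cR_tmul, hy, one_smul] at this
    exact this.symm
  have a3 : ∀ a, γ' (γ a) = a := fun a => by
    have := hγ' (g' (a ⊗ₜ y₂))
    rw [hγ, e1', cR_tmul, polarBilin_apply_apply, k.pol', one_smul] at this
    exact this.symm
  have a4 : ∀ v, polar Q₂ z v = 0 → ∃ v', polar Q₂ z₂ v' = 0 ∧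
      ∀ x, g (γ x ⊗ₜ v) - x ⊗ₜ v' ∈ sR F U z₂ := fun v hv =>
    hS.exists_tmul hX hz₂ hz₂0 (TC.xi_conj (hS.xi_one hz hv) hg e1 h1 h2 hγ)
  obtain ⟨m, hm⟩ : ∃ m : F, ∀ a b, polar Q₁ (γ a) (γ b) = m * polar Q₁ a b := by
    obtain ⟨v, hv, hzv⟩ := exists_nonsingular_orth hS.nd₂ hS.three₂ hz
    obtain ⟨v', b1, b2⟩ := a4 v hzv
    refine ⟨Q₂ v' / Q₂ v, fun a b => ?_⟩
    obtain ⟨s, hs⟩ := mem_sR.1 (b2 a)
    obtain ⟨s', hs'⟩ := mem_sR.1 (b2 b)
    have := hS.iso' hg (γ a ⊗ₜ v) (γ b ⊗ₜ v)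
    rw [eq_add_of_sub_eq hs, eq_add_of_sub_eq hs'] at this
    simp only [map_add, LinearMap.add_apply, tB_tmul, polarBilin_apply_apply, b1, k.polar_left,
      polar_comm Q₂ v' z₂, polar_self'] at this
    field_simp
    exact mul_left_cancel₀ hS.two (by linear_combination -this)
  have a5 : ∀ a b, polar Q₁ (γ a) b = m * polar Q₁ a (γ' b) := fun a b => by rw [← hm, a2]
  have a6 : ∀ x, g (x ⊗ₜ z) = (m • γ' x) ⊗ₜ z₂ := fun x => by
    rw [a1]
    congr 1
    refine sub_eq_zero.1 (hS.nd₁.2 _ fun a => ?_)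
    have := hS.iso' hg (g' (a ⊗ₜ y₂)) (x ⊗ₜ z)
    rw [e1', a1, tB_cR, tB_cR, hγ] at this
    simpa [k.pol', a5, sub_eq_zero] using this
  have a7 : ∀ a, Q₁ a = m * Q₁ (γ' a) := fun a => mul_left_cancel₀ hS.two (by
    have := hm (γ' a) (γ' a)
    rw [a2, polar_self', polar_self'] at this
    linear_combination this)
  have hm0 : m ≠ 0 := fun e => by
    obtain ⟨a, ha⟩ := exists_nonsingular hS.nd₁ hS.three₁.ge
    exact ha (by rw [a7, e, zero_mul])
  have a8 : ∀ u x, Q₁ u = 0 → polar Q₁ u x = 0 → InG X ((γ' * eE Q₁ u x * γ).rTensor W) :=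
    fun u x hu hx => by
      convert hS.eE_left (u := γ' u) (x := m • γ' x) (by simpa [hm0, hu] using (a7 u).symm)
        (by rw [polar_smul_right', ← a5, a2, hx]) using 2
      ext w
      simp only [End.mul_apply, eE_apply, map_sub, map_add, map_smul, a3, a5, a7 x, Q_smul,
        polar_smul_right']
      module
  have b1 : γ * γ' = 1 := LinearMap.ext a2
  have b2 : γ' * γ = 1 := LinearMap.ext a3
  have key : ∀ u x, Q₁ u = 0 → polar Q₁ u x = 0 → ∃ β : End F W, γ.rTensor W * g *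
      (eE Q₁ u x).rTensor W * (g' * γ'.rTensor W) = TensorProduct.map (eE Q₁ u x) β := by
    intro u x hu hx
    have c1 := eE_mul_neg hu hx
    have c2 : ∀ a, eE Q₁ u x (eE Q₁ u (-x) a) = a := LinearMap.congr_fun c1
    have c3 : (γ' * eE Q₁ u x * γ).rTensor W * (γ' * eE Q₁ u (-x) * γ).rTensor W = 1 :=
      rT_mul_eq_one (by simp only [mul_assoc, ← mul_assoc γ γ', b1, one_mul,
        ← mul_assoc (eE Q₁ u x), c1, b2])
    have c4 : ∀ q, cR (polarBilin Q₂) U z q = 0 →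
        (g * (eE Q₁ u x).rTensor W - (γ' * eE Q₁ u x * γ).rTensor W * g) q ∈ sR F U z₂ :=
      fun q hq => perp_induction hy ((sR F U z₂).comap
        (g * (eE Q₁ u x).rTensor W - (γ' * eE Q₁ u x * γ).rTensor W * g)).toAddSubgroup
        (fun a v hv => by
          obtain ⟨v', -, d1⟩ := a4 v (by rwa [polar_comm])
          obtain ⟨s, hs⟩ := mem_sR.1 (d1 (γ' a))
          have d2 := d1 (γ' (eE Q₁ u x a))
          rw [a2] at hs d2
          convert Submodule.sub_mem _ d2 (tmul_mem_sR ((γ' * eE Q₁ u x * γ) s) z₂) using 1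
          simp [eq_add_of_sub_eq hs, a2, sub_sub, add_comm]) hq
    obtain ⟨v, -, hv⟩ := hS.eq_eE hX hz₂ hz₂0
      (n := g * (eE Q₁ u x).rTensor W * g' * (γ' * eE Q₁ u (-x) * γ).rTensor W - 1)
      ⟨by simpa using ((hg.mul (hS.eE_left hu hx)).mul hg').mul (a8 u (-x) hu (by simp [hx])),
        fun a => by
          have := a6 (m⁻¹ • eE Q₁ u (-x) (γ a))
          rw [map_smul, smul_inv_smul₀ hm0] at this
          simp only [LinearMap.sub_apply, End.mul_apply, LinearMap.rTensor_tmul, End.one_apply,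
            ← this, e2']
          rw [map_smul, c2, a6, map_smul, smul_inv_smul₀ hm0, a3, sub_self],
        fun p hp => by
          have := c4 (g' ((γ' * eE Q₁ u (-x) * γ).rTensor W p))
            (by rw [hγ, cR_rTensor, hp, map_zero, map_zero])
          rwa [LinearMap.sub_apply, End.mul_apply _ g, e1', ← End.mul_apply (LinearMap.rTensor _ _),
            c3] at this⟩
    refine ⟨eE Q₂ z₂ v, ?_⟩
    have c5 : (γ' * eE Q₁ u (-x) * γ).rTensor W * (γ' * eE Q₁ u x * γ).rTensor W = 1 :=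
      mul_eq_one_comm.1 c3
    have := congrArg (fun k => γ.rTensor W * (k * (γ' * eE Q₁ u x * γ).rTensor W) * γ'.rTensor W) hv
    simp only [add_sub_cancel, mul_assoc _ (LinearMap.rTensor W (γ' * eE Q₁ u (-x) * γ)), c5,
      mul_one] at this
    rw [← mul_assoc, mul_assoc _ g, mul_assoc _ _ g', this]
    exact TensorProduct.ext' fun a w => by simp [a2]
  have b3 : γ.rTensor W * g * (g' * γ'.rTensor W) = 1 := by
    rw [mul_assoc, ← mul_assoc g, e1, one_mul, rT_mul_eq_one b1]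
  let C : Submodule F (End F U) :=
    { carrier := {a | γ.rTensor W * g * a.rTensor W = a.rTensor W * (γ.rTensor W * g)}
      add_mem' := fun {a b} ha hb => by
        simp only [Set.mem_ofPred_eq, LinearMap.rTensor_add, mul_add, add_mul] at ha hb ⊢
        rw [ha, hb]
      zero_mem' := by simp
      smul_mem' := fun c a ha => by
        simp only [Set.mem_ofPred_eq, LinearMap.rTensor_smul, mul_smul_comm, smul_mul_assoc] at ha ⊢
        rw [ha] }
  obtain ⟨β, hβ⟩ := H27.exists_eq_lTensor hS.nd₁ (γ.rTensor W * g) fun y =>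
    ro_mem_of_singular hS.nd₁ hS.big.hyp C (fun a ha b hb => by
      change _ * _ = _ * _ at ha hb ⊢
      rw [LinearMap.rTensor_mul, ← mul_assoc, ha, mul_assoc, hb, ← mul_assoc]) (fun u hu => by
        change _ * _ = _ * _
        by_cases hu0 : u = 0
        · simp [hu0, show ro (polarBilin Q₁) 0 0 = 0 from LinearMap.ext fun x => by simp]
        obtain ⟨u', h⟩ := exists_isHyp hS.nd₁ hu hu0
        obtain ⟨x, hx, hxQ, -⟩ := t1_dec hS.nd₁ hS.three₁ h
        exact t1_comm hS.two hS.five hS.nd₁ h hx hxQ b3 (mul_eq_one_comm.1 b3) fun t =>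
          key u _ hu (by simp [polar_comm Q₁ u x, hx.1])) y y
  refine ⟨γ', β, ?_⟩
  rw [← LinearMap.rTensor_comp_lTensor, ← hβ, ← End.mul_eq_comp, ← mul_assoc, rT_mul_eq_one b2,
    one_mul]

end T1

end Cfsg.Agent.H77
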