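import Cfsg.Agent.H77.T1R
import Cfsg.Agent.H77.C3TPoly

/-!
Overgroups of `Ω₃(q) ⊗ Ω(W)` for `W` of Witt index one: weak closure of the root subgroups of
`Ω(W)`, and an invariant form of degree four.
-/

set_option autoImplicit false
set_option linter.unusedSectionVars false

namespace Cfsg.Agent.H77

open Module TensorProduct QuadraticMap H30 H36 H27
open H79 hiding polar_self' IsHyp

variable {F U W : Type*} [Field F] [AddCommGroup U] [Module F U] [AddCommGroup W] [Module F W]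
  [FiniteDimensional F U] [FiniteDimensional F W]
  {Q₁ : QuadraticForm F U} {Q₂ : QuadraticForm F W} {Q : QuadraticForm F (U ⊗[F] W)}
  {X : Subgroup (End F (U ⊗[F] W))ˣ} {z z' z₂ v : W} {u u' : U} {g g' k : End F (U ⊗[F] W)}
  {α : End F U} {β : End F W}

theorem t1_sub_pow_card [Fintype F] [Nontrivial U] {a b : End F U} (h : Commute a b) :
    (a - b) ^ Fintype.card F = a ^ Fintype.card F - b ^ Fintype.card F := by
  obtain ⟨p, _⟩ := CharP.exists F
  obtain ⟨n, hp, hn⟩ := FiniteField.card F p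
  have := Fact.mk hp
  have := charP_of_injective_algebraMap' (A := End F U) F p
  rw [hn, sub_pow_char_pow_of_commute _ _ h]

/-- The first factor of a unipotent isometry `α ⊗ β` is unipotent up to a scalar. -/
theorem t1_unip [Finite F] (h2 : (2 : F) ≠ 0) {f : LinearMap.BilinForm F U}
    {h : LinearMap.BilinForm F W} (hf : f.Nondegenerate) (hh : h.Nondegenerate) [Nontrivial U]
    [Nontrivial W] (hiso : ∀ p q, tB f h (map α β p) (map α β q) = tB f h p q)
    (h3 : (map α β - 1 : End F (U ⊗[F] W)) ^ 3 = 0) : ∃ μ : F, μ ≠ 0 ∧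
      (∀ a b, f (α a) (α b) = μ * μ * f a b) ∧ (α - μ • 1) ^ finrank F U = 0 := by
  have := Fintype.ofFinite F
  obtain ⟨w, hw⟩ := exists_ne (0 : W)
  obtain ⟨w', hw'⟩ := exists_apply_eq_one hh hw
  obtain ⟨x, hx⟩ := exists_ne (0 : U)
  obtain ⟨x', hx'⟩ := exists_apply_eq_one hf hx
  have : Nontrivial (U ⊗[F] W) := ⟨⟨_, _, tmul_ne_zero hf hx hw⟩⟩
  have hq : 3 ≤ Fintype.card F := by
    obtain ⟨k, hk⟩ := two_ne_zero_iff_odd_card.1 h2
    have := Fintype.one_lt_card (α := F)
    omega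
  have h4 : ∀ a b, f (α a) (α b) * h (β w) (β w') = f a b := fun a b => by
    simpa [hw'] using hiso (a ⊗ₜ w) (b ⊗ₜ w')
  have h5 : h (β w) (β w') ≠ 0 := fun e => by simpa [e, hx'] using h4 x x'
  have h6 := t1_sub_pow_card (Commute.one_right (map α β : End F (U ⊗[F] W)))
  rw [pow_eq_zero_of_le hq h3, one_pow, TensorProduct.map_pow, eq_comm, sub_eq_zero] at h6
  have h7 : ∀ a, h ((β ^ Fintype.card F) w) w' • (α ^ Fintype.card F) a = a := fun a => by
    simpa [hw'] using congrArg (cR h U w') (LinearMap.congr_fun h6 (a ⊗ₜ w))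
  generalize h ((β ^ Fintype.card F) w) w' = c at h7
  have hc : c ≠ 0 := fun e => hx (by rw [← h7 x, e, zero_smul])
  have h8 : α ^ Fintype.card F = c⁻¹ • 1 := LinearMap.ext fun a => by
    rw [LinearMap.smul_apply, eq_inv_smul_iff₀ hc, h7, End.one_apply]
  have h9 : ∀ n : ℕ, f ((α ^ n) x) ((α ^ n) x') * h (β w) (β w') ^ n = 1 := fun n => by
    induction n with
    | zero => simpa using hx'
    | succ n ih => rw [pow_succ', End.mul_apply, End.mul_apply, pow_succ', ← mul_assoc, h4, ih]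
  have h10 := h9 (Fintype.card F)
  simp only [h8, FiniteField.pow_card, LinearMap.smul_apply, End.one_apply, map_smul, hx',
    smul_eq_mul, mul_one] at h10
  refine ⟨c⁻¹, inv_ne_zero hc, fun a b => mul_right_cancel₀ h5 ?_, ?_⟩
  · rw [h4, mul_right_comm, h10, one_mul]
  · rw [← LinearMap.ker_eq_top, eq_top_iff]
    refine le_trans ?_ (End.ker_pow_le_ker_pow_finrank _ (Fintype.card F))
    rw [t1_sub_pow_card ((Commute.one_right α).smul_right _), h8, smul_pow, one_pow,
      FiniteField.pow_card, sub_self, LinearMap.ker_zero]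

/-- A unipotent similarity of a three-dimensional space is scalar or has a cyclic vector. -/
theorem t1_cyclic (hQ : (polarBilin Q₁).Nondegenerate) (h2 : (2 : F) ≠ 0) (h3 : finrank F U = 3)
    {μ : F} (hμ : μ ≠ 0) (hα : ∀ a b, polar Q₁ (α a) (α b) = μ * μ * polar Q₁ a b)
    (hn : (α - μ • 1) ^ 3 = 0) : α = μ • 1 ∨ ∃ y, ∀ Y : Submodule F U, y ∈ Y →
      (∀ a ∈ Y, α a ∈ Y) → Y = ⊤ := by
  obtain ⟨A, rfl⟩ : ∃ A, α = A + μ • 1 := ⟨α - μ • 1, by simp⟩
  rw [add_sub_cancel_right] at hn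
  have hn' : ∀ a, A (A (A a)) = 0 := fun a => by
    simpa [pow_succ] using LinearMap.congr_fun hn a
  by_cases h : ∃ y, A (A y) ≠ 0
  · obtain ⟨y, hy⟩ := h
    refine Or.inr ⟨y, fun Y h1 h4 => ?_⟩
    have h5 : ∀ a ∈ Y, A a ∈ Y := fun a ha => by
      simpa using Y.sub_mem (h4 a ha) (Y.smul_mem μ ha)
    have h6 : LinearIndependent F ![y, A y, A (A y)] := by
      rw [Fintype.linearIndependent_iff]
      intro c hc
      simp only [Fin.sum_univ_three, Matrix.cons_val_zero, Matrix.cons_val_one,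
        Matrix.cons_val] at hc
      have a1 : c 0 = 0 := by simpa [hn', hy] using congrArg (fun a => A (A a)) hc
      have a2 : c 1 = 0 := by simpa [hn', hy, a1] using congrArg A hc
      have a3 : c 2 = 0 := by simpa [hy, a1, a2] using hc
      intro i
      fin_cases i
      exacts [a1, a2, a3]
    rw [eq_top_iff, ← h6.span_eq_top_of_card_eq_finrank' (by simp [h3]), Submodule.span_le]
    rintro _ ⟨i, rfl⟩
    fin_cases i
    exacts [h1, h5 _ h1, h5 _ (h5 _ h1)]
  push Not at h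
  refine Or.inl (add_eq_right.2 (LinearMap.ext fun a => by_contra fun ha => ?_))
  have h4 : ∀ a b, μ * (polar Q₁ (A a) b + polar Q₁ a (A b)) + polar Q₁ (A a) (A b) = 0 :=
    fun a b => by
      have := hα a b
      simp only [LinearMap.add_apply, LinearMap.smul_apply, End.one_apply, polar_add_left,
        polar_add_right, polar_smul_left', polar_smul_right'] at this
      linear_combination this
  have h5 : ∀ a b, polar Q₁ (A a) (A b) = 0 := fun a b => by simpa [h, hμ] using h4 a (A b)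
  have h6 : ∀ a b, polar Q₁ (A a) b + polar Q₁ a (A b) = 0 := fun a b => by
    simpa [h5, hμ] using h4 a b
  have h7 : ∀ a, Q₁ (A a) = 0 := fun a => by simpa [polar_self', h2] using h5 a a
  obtain ⟨u', k⟩ := exists_isHyp hQ (h7 a) ha
  obtain ⟨c, hc⟩ := Submodule.mem_span_singleton.1 (t1_one hQ h3 _ _ (h7 a) ha (h5 a u') (h7 u'))
  have h8 := h6 u' u'
  have h9 := h6 a u'
  rw [← hc, polar_smul_left', polar_smul_right', k.pol, k.pol'] at h8
  rw [← hc, show c = 0 from mul_left_cancel₀ h2 (by linear_combination h8), k.pol] at h9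
  simp at h9

theorem eE_sub_one_sq (hz : Q₂ z = 0) (hv : polar Q₂ z v = 0) :
    (eE Q₂ z v - 1) * (eE Q₂ z v - 1) = -(2 * Q₂ v) • ro (polarBilin Q₂) z z := by
  ext w
  simp [eE_apply, hz, hv, polar_comm Q₂ v z, smul_smul, mul_comm]

theorem lT_sub_one (β : End F W) : β.lTensor U - 1 = (β - 1).lTensor U := by
  rw [LinearMap.lTensor_sub, End.one_eq_id (M := W), LinearMap.lTensor_id, End.one_eq_id]

/-- Averaging over the conjugates of an invariant function. -/
theorem avg_eq {G M T R : Type*} [AddCommGroup G] [Fintype G] [Monoid M] [MulAction M T]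
    [CommRing R] {P : M → Prop} {C : T → R} {S : Finset (T → R)}
    (hS : ∀ D, D ∈ S ↔ ∃ g, P g ∧ D = fun τ => C (g • τ)) (h1 : P 1) (e : G → M) (e0 : e 0 = 1)
    (eadd : ∀ s t, e (s + t) = e s * e t) (hP : ∀ g s, P g → P (g * e s))
    (hC : ∀ s τ, C (e s • τ) = C τ) (free : ∀ g s, P g → s ≠ 0 →
      (∀ τ, C ((g * e s) • τ) = C (g • τ)) → ∀ τ, C (g • τ) = C τ)
    {τ : T} (hτ : ∀ g, P g → ∑ s, C ((g * e s) • τ) = 0) : ∑ D ∈ S, D τ = C τ := by
  classical
  have a0 : ∀ D : T → R, (fun τ => D (e 0 • τ)) = D := fun D => by simp [e0]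
  have a1 : ∀ s t (D : T → R), (fun τ => D (e (s + t) • τ)) = fun τ => D (e t • e s • τ) :=
    fun s t D => by simp only [add_comm s t, eadd, mul_smul]
  rw [← Finset.add_sum_erase S _ ((hS C).2 ⟨1, h1, by simp⟩), add_eq_left]
  refine sum_eq_zero_of_orbits (fun s (D : T → R) τ => D (e s • τ)) a0 a1 _ _ (fun D hD s => ?_)
    fun D hD => ?_
  all_goals
    rw [Finset.mem_erase, hS] at hD
    obtain ⟨hne, g, hg, rfl⟩ := hD
  · rw [Finset.mem_erase, hS]
    refine ⟨fun h => hne (funext fun τ => ?_), g * e s, hP g s hg, by simp only [mul_smul]⟩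
    have := congrFun h (e (-s) • τ)
    rwa [hC, ← mul_smul (e s), ← eadd, add_neg_cancel, e0, one_smul] at this
  · refine (sum_orbit_eq (fun s (D : T → R) τ => D (e s • τ)) a0 a1 (fun τ => C (g • τ))
      (fun _ => (1 : R)) (fun s => ?_) fun D => D τ).trans
      (by simpa only [one_mul, mul_smul] using hτ g hg)
    refine Finset.sum_eq_single_of_mem 0 (by simp [e0]) fun t ht h => ?_
    exact (hne (funext (free g t hg h fun τ => by
      simpa only [mul_smul] using congrFun (Finset.mem_filter.1 ht).2 τ))).elim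

section Form

variable (f : LinearMap.BilinForm F U) (h : LinearMap.BilinForm F W)

/-- The partial trace of a rank one operator. -/
noncomputable def tPhi : U ⊗[F] W →ₗ[F] U ⊗[F] W →ₗ[F] End F W :=
  (LinearMap.llcomp F W U W).compl₁₂ (cL f W).flip (cR h.flip U).flip

/-- A form of degree four whose stabiliser preserves the tensor decomposition. -/
noncomputable def tC : U ⊗[F] W →ₗ[F] U ⊗[F] W →ₗ[F] U ⊗[F] W →ₗ[F] U ⊗[F] W →ₗ[F] F :=
  (tPhi f h).compr₂ (LinearMap.llcomp F _ _ _ (tB f h) ∘ₗ LinearMap.lTensorHom U)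

variable {f h}

theorem tC_apply (a b c d : U ⊗[F] W) : tC f h a b c d = tB f h ((tPhi f h a b).lTensor U c) d :=
  rfl

theorem tPhi_tmul (x y : U) (w w' : W) : tPhi f h (x ⊗ₜ w) (y ⊗ₜ w') = f x y • ro h w w' := by
  ext v
  simp [tPhi, smul_smul, mul_comm]

theorem tC_map (hiso : ∀ p q, tB f h (map α β p) (map α β q) = tB f h p q) (a b c d : U ⊗[F] W) :
    tC f h (map α β a) (map α β b) (map α β c) (map α β d) = tC f h a b c d := by
  induction a using TensorProduct.induction_on with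
  | zero => simp
  | add p q hp hq => simp only [map_add, LinearMap.add_apply, hp, hq]
  | tmul x₁ w₁ =>
  induction b using TensorProduct.induction_on with
  | zero => simp
  | add p q hp hq => simp only [map_add, LinearMap.add_apply, hp, hq]
  | tmul x₂ w₂ =>
  induction c using TensorProduct.induction_on with
  | zero => simp
  | add p q hp hq => simp only [map_add, LinearMap.add_apply, hp, hq]
  | tmul x₃ w₃ =>
  induction d using TensorProduct.induction_on with
  | zero => simp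
  | add p q hp hq => simp only [map_add, hp, hq]
  | tmul x₄ w₄ =>
  have h1 := hiso (x₁ ⊗ₜ w₃) (x₂ ⊗ₜ w₂)
  have h2 := hiso (x₃ ⊗ₜ w₁) (x₄ ⊗ₜ w₄)
  simp only [map_tmul, tC_apply, tPhi_tmul, LinearMap.lTensor_tmul, tB_tmul, LinearMap.smul_apply,
    ro_apply, map_smul, smul_eq_mul] at h1 h2 ⊢
  linear_combination (f (α x₃) (α x₄) * h (β w₁) (β w₄)) * h1 + (f x₁ x₂ * h w₃ w₂) * h2

theorem exists_eq_map_of_tC [Nontrivial U] [Nontrivial W] (hf : f.Nondegenerate)
    (hh : h.Nondegenerate) (e1 : g * g' = 1) (hiso : ∀ p q, tB f h (g p) (g q) = tB f h p q)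
    (hC : ∀ a b c d, tC f h (g a) (g b) (g c) (g d) = tC f h a b c d) :
    ∃ (α : End F U) (β : End F W), g = TensorProduct.map α β := by
  obtain ⟨x, hx⟩ := exists_ne (0 : U)
  obtain ⟨x', hx'⟩ := exists_apply_eq_one hf hx
  refine exists_eq_map_of_lTensor hh e1 (mul_eq_one_comm.1 e1) fun w w' =>
    ⟨tPhi f h (g (x ⊗ₜ w)) (g (x' ⊗ₜ w')), LinearMap.ext fun c => sub_eq_zero.1
      ((tB_nondegenerate hf hh).1 _ fun d => ?_)⟩
  have := hC (x ⊗ₜ w) (x' ⊗ₜ w') c (g' d)
  rw [tC_apply, tC_apply, tPhi_tmul, hx', one_smul, ← hiso _ (g' d), ← End.mul_apply g g', e1]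
    at this
  rw [map_sub, LinearMap.sub_apply, End.mul_apply, End.mul_apply, sub_eq_zero]
  exact this.symm

end Form

theorem eE_add (hz : Q₂ z = 0) {v' : W} (hv : polar Q₂ z v = 0) (hv' : polar Q₂ z v' = 0) :
    eE Q₂ z (v + v') = eE Q₂ z v * eE Q₂ z v' := by
  rw [← eich_eq_eE hz hv, ← eich_eq_eE hz hv', ← eich_eq_eE hz (by simp [hv, hv']),
    ← eich_mul hz hv hv']
  rfl

theorem VDeg.bilin' {A M N P : Type*} [AddCommGroup A] [Module F A] [FiniteDimensional F A]
    [AddCommGroup M] [Module F M] [FiniteDimensional F M] [AddCommGroup N] [Module F N]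
    [AddCommGroup P] [Module F P] {m n : ℕ} {γ : A → M} {γ' : A → N} (B : M →ₗ[F] N →ₗ[F] P)
    (h : VDeg F m γ) (h' : VDeg F n γ') : VDeg F (m + n) (fun s => B (γ s) (γ' s)) :=
  fun φ => h.bilin (B.compr₂ φ) h'

theorem vdeg_eE (h2 : (2 : F) ≠ 0) (N : Submodule F W) (p : U ⊗[F] W) :
    VDeg F 2 (fun s : N => (eE Q₂ z s).lTensor U p) ∧
      (cR (polarBilin Q₂) U z p = 0 → VDeg F 1 (fun s : N => (eE Q₂ z s).lTensor U p)) := by
  let L : N →ₗ[F] U ⊗[F] W := (TensorProduct.mk F U W (cR (polarBilin Q₂) U z p) -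
    (TensorProduct.mk F U W).flip z ∘ₗ (cR (polarBilin Q₂) U).flip p) ∘ₗ N.subtype
  have h1 : ∀ s : N, (eE Q₂ z s).lTensor U p = p + L s +
      polar Q₂ s s • -(2 : F)⁻¹ • cR (polarBilin Q₂) U z p ⊗ₜ[F] z := fun s => by
    rw [eE, LinearMap.lTensor_sub, LinearMap.lTensor_add, LinearMap.lTensor_smul, polar_self']
    simp only [LinearMap.sub_apply, LinearMap.add_apply, LinearMap.smul_apply, lTensor_sk,
      lTensor_ro, End.one_eq_id, LinearMap.lTensor_id, LinearMap.id_apply, L, LinearMap.comp_apply,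
      mk_apply, LinearMap.flip_apply, Submodule.subtype_apply]
    match_scalars <;> field_simp
  have h3 : VDeg F 1 fun s : N => p + L s := (VDeg.const p).add (VDeg.linear L)
  refine ⟨?_, fun h => by simpa only [h1, h, zero_tmul, smul_zero, add_zero] using h3⟩
  simp only [h1]
  refine (h3.mono (by omega)).add ?_
  simpa only [LinearMap.toSpanSingleton_apply, polarBilin_apply_apply, Submodule.subtype_apply] using
    ((VDeg.linear N.subtype).bilin' (polarBilin Q₂) (VDeg.linear N.subtype)).map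
      (LinearMap.toSpanSingleton F _ (-(2 : F)⁻¹ • cR (polarBilin Q₂) U z p ⊗ₜ[F] z))

namespace T1

variable (hS : T1 Q₁ Q₂ Q X) [Finite F] (hX : ¬ eichGroup Q ≤ X.comap (oU Q))
include hS hX

theorem exists_eq_map_of_lT (hz : Q₂ z = 0) (hz0 : z ≠ 0) (hv : polar Q₂ z v = 0) (hvQ : Q₂ v ≠ 0)
    (hg : InG X g) (h : (eE Q₂ z v).lTensor U * g = g * β.lTensor U) :
    ∃ (α : End F U) (β : End F W), g = TensorProduct.map α β := by
  obtain ⟨g', -, e1, -⟩ := inG_exists_inv hg
  have h1 : (eE Q₂ z v - 1).lTensor U * g = g * (β - 1).lTensor U := by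
    rw [← lT_sub_one, ← lT_sub_one, sub_mul, mul_sub, h, one_mul, mul_one]
  have h2 : ∀ p, g (((β - 1) * (β - 1)).lTensor U p) =
      -(2 * Q₂ v) • cR (polarBilin Q₂) U z (g p) ⊗ₜ z := fun p => by
    rw [← lTensor_ro, ← LinearMap.smul_apply, ← LinearMap.lTensor_smul, ← eE_sub_one_sq hz hv,
      ← End.mul_apply, ← End.mul_apply, LinearMap.lTensor_mul, LinearMap.lTensor_mul, ← mul_assoc,
      ← h1, mul_assoc, ← h1, mul_assoc]
  obtain ⟨x, hx⟩ := exists_nonsingular hS.nd₁ hS.three₁.ge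
  obtain ⟨w, hw⟩ : ∃ w, ((β - 1) * (β - 1)) w ≠ 0 := by
    by_contra! H
    obtain ⟨y, hy⟩ := exists_apply_eq_one' hS.nd₂ hz0
    have := h2 (g' (x ⊗ₜ y))
    rw [show (β - 1) * (β - 1) = 0 from LinearMap.ext H, ← End.mul_apply g g', e1, End.one_apply,
      cR_tmul, hy] at this
    simp [hS.two, hvQ, tmul_ne_zero hS.nd₁ (ne_zero_of_Q_ne_zero hx) hz0] at this
  refine hS.exists_eq_map_of_sR hX ?_ hw hz hz0 hg fun x => ?_
  · have := hS.iso g hg (x ⊗ₜ ((β - 1) * (β - 1)) w)
    rw [← LinearMap.lTensor_tmul, h2, LinearMap.lTensor_tmul, Q_smul, hS.Q_tm, hS.Q_tm, hz] at this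
    simpa [hS.two, hx] using this
  · rw [← LinearMap.lTensor_tmul, h2]
    exact Submodule.smul_mem _ _ (tmul_mem_sR _ _)

/-- Weak closure of the root subgroups of `Ω(W)`. -/
theorem weak (h4 : finrank F W = 4) (hz : Q₂ z = 0) (hz0 : z ≠ 0) (hv : polar Q₂ z v = 0)
    (hvQ : Q₂ v ≠ 0) (hg : InG X g) (h : (eE Q₂ z v).lTensor U * g = g * map α β) :
    ∃ (α : End F U) (β : End F W), g = TensorProduct.map α β := by
  obtain ⟨g', hg', e1, e2⟩ := inG_exists_inv hg
  have e1' : ∀ p, g (g' p) = p := LinearMap.congr_fun e1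
  have h1 : map α β = g' * (eE Q₂ z v).lTensor U * g := by rw [mul_assoc, h, ← mul_assoc, e2, one_mul]
  have : Nontrivial U := nontrivial_of_finrank_pos (R := F) (by have := hS.three₁; omega)
  have : Nontrivial W := nontrivial_of_finrank_pos (R := F) (by omega)
  obtain ⟨μ, hμ, h2, h3⟩ := t1_unip hS.two hS.nd₁ hS.nd₂ (α := α) (β := β)
    (hS.iso' (h1 ▸ (hg'.mul (hS.eE_right hz hv)).mul hg)) (by
      have a1 : map α β - 1 = g' * (eE Q₂ z v - 1).lTensor U * g := by
        rw [← lT_sub_one, mul_sub, sub_mul, mul_one, e2, h1]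
      have a2 : (eE Q₂ z v - 1) * ((eE Q₂ z v - 1) * (eE Q₂ z v - 1)) = 0 := by
        rw [eE_sub_one_sq hz hv]
        ext w
        simp [eE_apply, hz, hv]
      simp only [a1, pow_succ, pow_zero, one_mul, mul_assoc, ← mul_assoc g g', e1]
      simp only [← mul_assoc (LinearMap.lTensor _ _), ← LinearMap.lTensor_mul, a2,
        LinearMap.lTensor_zero, zero_mul, mul_zero])
  rcases t1_cyclic hS.nd₁ hS.two hS.three₁ hμ h2 (hS.three₁ ▸ h3) with rfl | ⟨y, hy⟩
  · refine hS.exists_eq_map_of_lT hX hz hz0 hv hvQ hg (β := μ • β) (h.trans ?_)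
    congr 1
    exact TensorProduct.ext' fun x w => by simp [smul_tmul]
  have h5 : ∀ a p, cL (polarBilin Q₁) W (α a) (map α β p) =
      (μ * μ) • β (cL (polarBilin Q₁) W a p) := fun a p => by
    induction p using TensorProduct.induction_on with
    | zero => simp
    | add p q hp hq => simp only [map_add, hp, hq, smul_add]
    | tmul x w => simp [h2, mul_smul]
  obtain ⟨v', a1, a2, a3⟩ := exists_nonsingular_orth₄ hS.nd₂ hS.two h4.ge hvQ hv
  obtain ⟨z', k⟩ := exists_isHyp hS.nd₂ hz hz0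
  have := LinearMap.finrank_le_finrank_of_injective (f := cL (polarBilin Q₁) W y ∘ₗ g' ∘ₗ
    ((TensorProduct.mk F U W).flip z).coprod ((TensorProduct.mk F U W).flip v'))
    ((injective_iff_map_eq_zero _).2 fun ⟨a, b⟩ hab => by
      have b1 : map α β (g' (a ⊗ₜ z + b ⊗ₜ v')) = g' (a ⊗ₜ z + b ⊗ₜ v') := by
        simp [h1, e1', eE_apply, hz, hv, polar_comm Q₂ v', a2, a3]
      have b2 := hy (LinearMap.ker ((cL (polarBilin Q₁) W).flip (g' (a ⊗ₜ[F] z + b ⊗ₜ[F] v')))) hab
        fun c hc => by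
          rw [LinearMap.mem_ker, LinearMap.flip_apply] at hc ⊢
          rw [← b1, h5, hc, map_zero, smul_zero]
      have b3 := congrArg g (eq_zero_of_cL hS.nd₁ hS.nd₂ fun c => Submodule.eq_top_iff'.1 b2 c)
      rw [e1', map_zero] at b3
      have b4 : b = 0 := by
        simpa [a2, polar_self', hS.two, a1] using congrArg (cR (polarBilin Q₂) U v') b3
      exact Prod.ext (by simpa [b4, k.pol] using congrArg (cR (polarBilin Q₂) U z') b3) b4)
  simp only [finrank_prod, hS.three₁, h4] at this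
  omega

/-- Every proper overgroup of `Ω₃(q) ⊗ Ω₄⁻(q)` in `Ω₁₂⁻(q)` preserves the tensor decomposition. -/
theorem exists_eq_map (h4 : finrank F W = 4) (hg : InG X g) :
    ∃ (α : End F U) (β : End F W), g = TensorProduct.map α β := by
  classical
  have := Fintype.ofFinite F
  have : Nontrivial U := nontrivial_of_finrank_pos (R := F) (by have := hS.three₁; omega)
  have : Nontrivial W := nontrivial_of_finrank_pos (R := F) (by omega)
  have : Finite (U ⊗[F] W) := Module.finite_of_finite F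
  have : Finite W := Module.finite_of_finite F
  have hq : 5 ≤ Fintype.card F := by
    obtain ⟨t, h0, h1⟩ := hS.five
    obtain ⟨k, hk⟩ := two_ne_zero_iff_odd_card.1 hS.two
    rw [ne_eq, mul_self_eq_one_iff, not_or] at h1
    have := Finset.card_le_univ ({0, 1, -1, t} : Finset F)
    rw [Finset.card_insert_of_notMem (by simp [h0.symm]), Finset.card_insert_of_notMem (by
      simp [Ne.symm h1.1, show (1 : F) ≠ -1 from fun e => hS.two (by linear_combination e)]),
      Finset.card_pair (Ne.symm h1.2)] at this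
    omega
  let C : (U ⊗[F] W) × (U ⊗[F] W) × (U ⊗[F] W) × (U ⊗[F] W) → F := fun τ =>
    tC (polarBilin Q₁) (polarBilin Q₂) τ.1 τ.2.1 τ.2.2.1 τ.2.2.2
  let S := (Set.toFinite {D | ∃ g, InG X g ∧ D = fun τ => C (g • τ)}).toFinset
  have hS' : ∀ D, D ∈ S ↔ ∃ g, InG X g ∧ D = fun τ => C (g • τ) := fun D => by simp [S]
  have h1 : ∀ {g}, InG X g → ∀ (α : End F U) (β : End F W), g = map α β → ∀ τ, C (g • τ) = C τ := by
    rintro _ hg α β rfl τ
    exact tC_map (hS.iso' hg) _ _ _ _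
  have key : ∀ {z z'}, H30.IsHyp Q₂ z z' → ∀ a b c d, cR (polarBilin Q₂) U z d = 0 →
      ∑ D ∈ S, D (a, b, c, d) = C (a, b, c, d) := fun {z z'} k a b c d hd => by
    have := Fintype.ofFinite (hperp Q₂ z z')
    have h2 : ∀ s : hperp Q₂ z z', polar Q₂ z s = 0 := fun s => by rw [polar_comm, s.2.1]
    have h3 := fun s => hS.eE_right k.left (h2 s)
    refine avg_eq hS' (inG_one X) (fun s : hperp Q₂ z z' => (eE Q₂ z s).lTensor U)
      (TensorProduct.ext' fun x w => by simp [eE_apply])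
      (fun s t => by rw [Submodule.coe_add, eE_add k.left (h2 s) (h2 t), LinearMap.lTensor_mul])
      (fun g s hg => hg.mul (h3 s)) (fun s => h1 (h3 s) _ _ rfl) (fun g s hg hs h => ?_)
      fun g hg => ?_
    · obtain ⟨g', hg', e1, e2⟩ := inG_exists_inv hg
      have a1 := (hg.mul (h3 s)).mul hg'
      obtain ⟨k', -, e3, -⟩ := inG_exists_inv a1
      obtain ⟨α, β, a2⟩ := exists_eq_map_of_tC hS.nd₁ hS.nd₂ e3 (hS.iso' a1) fun a b c d => by
        have := h (g' • (a, b, c, d))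
        rwa [← mul_smul, ← mul_smul, e1, one_smul] at this
      obtain ⟨α', β', a3⟩ := hS.weak hX h4 k.left k.left_ne_zero (h2 s) (fun a3 => hs (by
        obtain ⟨c, hc⟩ := Submodule.mem_span_singleton.1
          (hS.one z s k.left k.left_ne_zero (h2 s) a3)
        have := s.2.2
        rw [← hc, polar_smul_left', k.pol, mul_one] at this
        exact Subtype.ext (by rw [← hc, this, zero_smul, Submodule.coe_zero]))) hg'
        (by rw [← a2, ← mul_assoc, ← mul_assoc, e2, one_mul])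
      intro τ
      rw [← h1 hg' _ _ a3, ← mul_smul, e2, one_smul]
    · have a1 := fun p : U ⊗[F] W => (vdeg_eE (Q₂ := Q₂) (z := z) hS.two (hperp Q₂ z z') p).1.map g
      have : FiniteDimensional F (U ⊗[F] W →ₗ[F] U ⊗[F] W →ₗ[F] F) := inferInstance
      refine ((((a1 a).bilin' (tC (polarBilin Q₁) (polarBilin Q₂)) (a1 b)).bilin' LinearMap.id
        (a1 c)).bilin LinearMap.id (((vdeg_eE hS.two _ d).2 hd).map g)).sum_eq_zero ?_
      have := k.finrank_hperp
      rw [show finrank F (hperp Q₂ z z') = 2 by omega]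
      omega
  obtain ⟨z, z', k⟩ := exists_isHyp_of_three_le hS.nd₂ hS.three₂
  have h2 : ∀ τ, ∑ D ∈ S, D τ = C τ := fun ⟨a, b, c, d⟩ => by
    have a1 := key k a b c (d - cR (polarBilin Q₂) U z d ⊗ₜ z') (by simp [k.pol'])
    have a2 := key k.symm a b c (cR (polarBilin Q₂) U z d ⊗ₜ z') (by simp [k.right])
    have a3 : ∀ D ∈ S, D (a, b, c, d) = D (a, b, c, d - cR (polarBilin Q₂) U z d ⊗ₜ z') +
        D (a, b, c, cR (polarBilin Q₂) U z d ⊗ₜ z') := fun D hD => by
      obtain ⟨g, -, rfl⟩ := (hS' D).1 hD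
      simp [C]
    rw [Finset.sum_congr rfl a3, Finset.sum_add_distrib, a1, a2]
    simp [C]
  obtain ⟨g', hg', e1, e2⟩ := inG_exists_inv hg
  refine exists_eq_map_of_tC hS.nd₁ hS.nd₂ e1 (hS.iso' hg) fun a b c d => ?_
  refine ((h2 (g • (a, b, c, d))).symm.trans ?_).trans (h2 (a, b, c, d))
  refine Finset.sum_bij' (fun D _ τ => D (g • τ)) (fun D _ τ => D (g' • τ)) (fun D hD => ?_)
    (fun D hD => ?_) (fun D _ => ?_) (fun D _ => ?_) fun D _ => rfl
  · obtain ⟨k, hk, rfl⟩ := (hS' D).1 hD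
    exact (hS' _).2 ⟨_, hk.mul hg, by simp only [mul_smul]⟩
  · obtain ⟨k, hk, rfl⟩ := (hS' D).1 hD
    exact (hS' _).2 ⟨_, hk.mul hg', by simp only [mul_smul]⟩
  · simp only [← mul_smul, e1, one_smul]
  · simp only [← mul_smul, e2, one_smul]

end T1

/-- The stabiliser in `Ω₁₂⁻(q)` of a tensor decomposition of type `O₃(q) ⊗ O₄⁻(q)` is maximal for
odd `q ≥ 5`. -/
theorem isMaximalIn_tensor_three_four {F : Type*} [Field F] [Fintype F] {ι : Type} [Fintype ι]
    [DecidableEq ι] {f₁ : (Fin 3 → F) → (Fin 3 → F) → F} {f₂ : (Fin 4 → F) → (Fin 4 → F) → F}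
    (hodd : Odd (Fintype.card F)) (hq : 5 ≤ Fintype.card F) {Q : (ι → F) → F}
    (hQ : Geo.IsNondegenerateQuadraticForm Q) (h4 : ¬ Geo.IsPlusTypeOn (fun v => f₂ v v) ⊤)
    (e : ι ≃ Fin 3 × Fin 4) (P : GL ι F) (hf₁ : Geo.IsSymmetricForm f₁)
    (hf₂ : Geo.IsSymmetricForm f₂) (hT : Geo.IsTensorFormStructure id (polar Q) f₁ f₂ e P) :
    Geo.IsMaximalIn (Geo.omegaGL Q) (Geo.tensorProductSubgroup 3 4 e P ⊓ Geo.omegaGL Q) := by
  obtain ⟨Q, -, rfl⟩ := exists_quadraticForm_of_geo hQ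
  have h2 : (2 : F) ≠ 0 := two_ne_zero_iff_odd_card.2 hodd
  obtain ⟨c, hc, h⟩ := exists_tenFrame_form hf₁.bilinear hf₂.bilinear hT
  have hnd := geoBilin_nondegenerate hf₁.bilinear hf₁.nondegenerate
  have e₁ := polarBilin_halfQ (h := c • geoBilin hf₁.bilinear) h2 fun x y => by
    simp [geoBilin_apply, hf₁.symm x]
  have e₂ := polarBilin_halfQ (h := geoBilin hf₂.bilinear) h2 hf₂.symm
  have hv₂ : ∀ v, halfQ (geoBilin hf₂.bilinear) v = 0 → f₂ v v = 0 := fun v hv => by
    simpa [halfQ, h2, geoBilin_apply] using hv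
  generalize halfQ (c • geoBilin hf₁.bilinear) = Q₁ at e₁
  generalize halfQ (geoBilin hf₂.bilinear) = Q₂ at e₂ hv₂
  have hf : (polarBilin Q₁).Nondegenerate := e₁ ▸
    ⟨fun x hx => hnd.1 x fun y => by simpa [hc] using hx y,
      fun x hx => hnd.2 x fun y => by simpa [hc] using hx y⟩
  have hh : (polarBilin Q₂).Nondegenerate :=
    e₂ ▸ geoBilin_nondegenerate hf₂.bilinear hf₂.nondegenerate
  have hpol : ∀ p q, polar (Q.comp (tenFrame e P).toLinearMap) p q =
      tB (polarBilin Q₁) (polarBilin Q₂) p q := fun p q => by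
    rw [e₁, e₂, ← h]
    simp [polar]
  have hQ : (polarBilin (Q.comp (tenFrame e P).toLinearMap)).Nondegenerate := by
    convert tB_nondegenerate hf hh
    exact LinearMap.ext₂ hpol
  have h3 : finrank F (Fin 3 → F) = 3 := by simp
  have h5 : finrank F (Fin 4 → F) = 4 := by simp
  have h6 : 3 ≤ finrank F ((Fin 3 → F) ⊗[F] (Fin 4 → F)) := by
    rw [finrank_tensorProduct, h3, h5]
    omega
  refine isMaximalIn_tensor e P ?_ hQ ?_ fun X h7 h8 h9 g => T1.exists_eq_map
    ⟨h2, exists_mul_self_ne_one h2 (by omega), hf, h3, hh, by omega,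
      fun u d hu hu0 hud hd => by_contra fun hd0 => ?_,
      hpol, h7, fun σ hσ => h8 _ (map_mem_eichGroup h2 hf hQ h3.ge h6
        ((oTensor h2 hpol).comp (MonoidHom.inl _ _)) hσ) _ _ rfl, fun σ hσ => h8 _
        (map_mem_eichGroup h2 hh hQ (by omega) h6
          ((oTensor h2 hpol).comp (MonoidHom.inr _ _)) hσ) _ _ rfl⟩ h9 h5
  · rw [Fintype.card_congr e, Fintype.card_prod, Fintype.card_fin, Fintype.card_fin]
    omega
  · obtain ⟨u, hu0, hu⟩ := exists_singular Q₁ h3.ge
    obtain ⟨z, z', k⟩ := exists_isHyp_of_three_le hh (by omega)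
    obtain ⟨v, hv, hvQ⟩ := (k.nondegOn_hperp hh).exists_Q_ne_zero
      (ne_bot_of_finrank_pos (by have := k.finrank_hperp; omega))
    exact ⟨_, _, eich_ne_map hf hpol hu0 (fun x => by rw [Q_tmul h2 hpol, k.left, mul_zero])
      (H79.polarBilin_isRefl _ _ _ hv.1) hv.1 k.polar_left k.pol' (H79.polarBilin_isRefl _ _ _ hv.2)
      (fun c e => hvQ (by rw [e, Q_smul, k.left, mul_zero])) (y := u) (by simp [hu]) hu0⟩
  · have a1 : ∀ w ∈ Submodule.span F {u, d}, Q₂ w = 0 := fun w hw => by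
      obtain ⟨a, b, rfl⟩ := Submodule.mem_span_pair.1 hw
      simp [Q_add, Q_smul, hu, hd, hud]
    have a2 : finrank F (Submodule.span F {u, d}) = 2 := by
      have := finrank_span_eq_card
        ((LinearIndependent.pair_iff' hu0).2 fun a e => hd0 (Submodule.mem_span_singleton.2 ⟨a, e⟩))
      rwa [Matrix.range_cons_cons_empty] at this
    exact h4 ⟨_, le_top, fun w hw => hv₂ w (a1 w hw), by rw [a2, finrank_top, h5]⟩

end Cfsg.Agent.H77
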