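import Cfsg.Agent.H79.TenO

/-!
Overgroups of `Ω₃(q) ⊗ Ω(W)` for `W` of Witt index one: the centre of the unipotent radical of the
stabiliser of `U ⊗ z`.
-/

set_option autoImplicit false
set_option linter.unusedSectionVars false

namespace Cfsg.Agent.H77

open Module TensorProduct QuadraticMap H30 H36 H27
open H79 hiding polar_self' IsHyp

variable {F U W : Type*} [Field F] [AddCommGroup U] [Module F U] [AddCommGroup W] [Module F W]
  [FiniteDimensional F U] [FiniteDimensional F W]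

theorem t1_dec {Q : QuadraticForm F U} (hQ : (polarBilin Q).Nondegenerate) (h3 : finrank F U = 3)
    {u u' : U} (h : H30.IsHyp Q u u') : ∃ x ∈ hperp Q u u', Q x ≠ 0 ∧
      ∀ a, ∃ r s t : F, a = r • u + s • u' + t • x := by
  have h1 : finrank F (hperp Q u u') = 1 := by have := h.finrank_hperp; omega
  obtain ⟨x, hx, hxQ⟩ := (h.nondegOn_hperp hQ).exists_Q_ne_zero (ne_bot_of_finrank_pos (by omega))
  refine ⟨x, hx, hxQ, fun a => ?_⟩
  obtain ⟨r, s, w, hw, rfl⟩ := h.exists_decomp a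
  obtain ⟨t, ht⟩ := (finrank_eq_one_iff_of_nonzero' (⟨x, hx⟩ : hperp Q u u')
    fun e => ne_zero_of_Q_ne_zero hxQ (congrArg Subtype.val e)).1 h1 ⟨w, hw⟩
  exact ⟨r, s, t, by rw [← show t • x = w from congrArg Subtype.val ht]⟩

theorem t1_one {Q : QuadraticForm F U} (hQ : (polarBilin Q).Nondegenerate) (h3 : finrank F U = 3)
    (u v : U) (hu : Q u = 0) (hu0 : u ≠ 0) (huv : polar Q u v = 0) (hv : Q v = 0) : v ∈ F ∙ u := by
  obtain ⟨u', h⟩ := exists_isHyp hQ hu hu0
  obtain ⟨x, hx, hxQ, h1⟩ := t1_dec hQ h3 h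
  obtain ⟨r, s, t, rfl⟩ := h1 v
  rw [polar_comm, h.polar_comb_left _ _ (Submodule.smul_mem _ t hx)] at huv
  rw [h.Q_comb _ _ (Submodule.smul_mem _ t hx), huv, Q_smul] at hv
  have : t = 0 := by simpa [hxQ] using hv
  simp [huv, this, Submodule.smul_mem]

theorem t1_trans {Q : QuadraticForm F U} (hQ : (polarBilin Q).Nondegenerate) (h3 : 3 ≤ finrank F U)
    {u v : U} (hu : Q u = 0) (hu0 : u ≠ 0) (hv : Q v = 0) (hv0 : v ≠ 0) :
    ∃ σ ∈ eichGroup Q, ∃ c : F, c ≠ 0 ∧ σ.1 u = c • v := by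
  obtain ⟨e, he, h1, h2⟩ : ∃ e, Q e = 0 ∧ polar Q u e ≠ 0 ∧ polar Q v e ≠ 0 := by
    by_cases h : polar Q u v = 0
    · exact exists_singular_not_orth hQ hu hu0 hv0 h
    have h1 := exists_isHyp_smul hu hv h
    obtain ⟨x, hx, hxQ⟩ := (h1.nondegOn_hperp hQ).exists_Q_ne_zero
      (ne_bot_of_finrank_pos (by have := h1.finrank_hperp; omega))
    refine ⟨_, (h1.Q_comb (-Q x) 1 hx).trans (by ring), ?_, fun h2 => ?_⟩
    · rw [polar_comm, h1.polar_comb_left _ _ hx]
      exact one_ne_zero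
    · have := h1.polar_comb_right (-Q x) 1 hx
      rw [polar_comm] at h2
      rw [polar_smul_right', h2, mul_zero] at this
      exact hxQ (neg_eq_zero.1 this.symm)
  rw [polar_comm] at h1 h2
  obtain ⟨w, -, hw⟩ := (exists_isHyp_smul he hu h1).exists_eich_apply (exists_isHyp_smul he hv h2)
  refine ⟨_, eich_mem_eichGroup e w, polar Q e u * (polar Q e v)⁻¹, by simp [h1, h2], ?_⟩
  rw [mul_smul, ← hw, map_smul, smul_inv_smul₀ h1]

theorem t1_quartic {M : Type*} [AddCommGroup M] [Module F M] (h2 : (2 : F) ≠ 0)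
    (h5 : ∃ t : F, t ≠ 0 ∧ t * t ≠ 1) {a b c d e : M}
    (h : ∀ t : F, a + t • b + (t * t) • c + (t * t * t) • d + (t * t * t * t) • e = 0) :
    d = 0 ∧ e = 0 := by
  obtain ⟨t, ht0, ht⟩ := h5
  refine ⟨smul_right_injective M (mul_ne_zero (mul_ne_zero h2 ht0) (sub_ne_zero.2 ht)) ?_,
    smul_right_injective M (mul_ne_zero (mul_ne_zero h2 (mul_ne_zero ht0 ht0))
      (sub_ne_zero.2 ht)) ?_⟩
  · linear_combination (norm := module) h t - h (-t) - t • h 1 + t • h (-1)
  · linear_combination (norm := module) h t + h (-t) - (t * t) • h 1 - (t * t) • h (-1) +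
      (2 * (t * t - 1)) • h 0

theorem t1_lin {Q : QuadraticForm F U} {e e' : U} (h : H30.IsHyp Q e e') (A : AddSubgroup W)
    (L : U →ₗ[F] W) (hL : ∀ y, Q y = 0 → L y ∈ A) (y : U) : L y ∈ A := by
  let N : Submodule F U :=
    { carrier := {y | ∀ c : F, L (c • y) ∈ A}
      add_mem' := fun ha hb c => by
        rw [smul_add, map_add]
        exact A.add_mem (ha c) (hb c)
      zero_mem' := fun c => by simp
      smul_mem' := fun c a ha d => by
        rw [smul_smul]
        exact ha _ }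
  simpa using mem_of_singular h ⊤ N trivial trivial
    (fun y _ hy c => hL _ (by rw [Q_smul, hy, mul_zero])) (Submodule.mem_top (x := y)) 1

/-- A group of isometries of `U ⊗ W` containing `Ω(U) ⊗ Ω(W)`, where `U` has dimension three and
`W` has Witt index one. -/
structure T1 (Q₁ : QuadraticForm F U) (Q₂ : QuadraticForm F W) (Q : QuadraticForm F (U ⊗[F] W))
    (X : Subgroup (End F (U ⊗[F] W))ˣ) : Prop where
  two : (2 : F) ≠ 0
  five : ∃ t : F, t ≠ 0 ∧ t * t ≠ 1
  nd₁ : (polarBilin Q₁).Nondegenerate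
  three₁ : finrank F U = 3
  nd₂ : (polarBilin Q₂).Nondegenerate
  three₂ : 3 ≤ finrank F W
  one : ∀ z v, Q₂ z = 0 → z ≠ 0 → polar Q₂ z v = 0 → Q₂ v = 0 → v ∈ F ∙ z
  pol : ∀ p q, polar Q p q = tB (polarBilin Q₁) (polarBilin Q₂) p q
  iso : ∀ g, InG X g → ∀ p, Q (g p) = Q p
  left : ∀ σ ∈ eichGroup Q₁, InG X (σ.1.toLinearMap.rTensor W)
  right : ∀ σ ∈ eichGroup Q₂, InG X (σ.1.toLinearMap.lTensor U)

variable {Q₁ : QuadraticForm F U} {Q₂ : QuadraticForm F W} {Q : QuadraticForm F (U ⊗[F] W)}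
  {X : Subgroup (End F (U ⊗[F] W))ˣ} {z z' : W} {u u' : U} {g g' n n' : End F (U ⊗[F] W)}

namespace T1

variable (hS : T1 Q₁ Q₂ Q X)
include hS

theorem eE_left {u x : U} (hu : Q₁ u = 0) (hx : polar Q₁ u x = 0) :
    InG X ((eE Q₁ u x).rTensor W) := eich_eq_eE hu hx ▸ hS.left _ (eich_mem_eichGroup u x)

theorem eE_right {v : W} (hz : Q₂ z = 0) (hv : polar Q₂ z v = 0) :
    InG X ((eE Q₂ z v).lTensor U) := eich_eq_eE hz hv ▸ hS.right _ (eich_mem_eichGroup z v)

theorem Q_tm (x : U) (w : W) : Q (x ⊗ₜ w) = 2 * Q₁ x * Q₂ w := Q_tmul hS.two hS.pol x w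

theorem pol_tm (x y : U) (w w' : W) :
    polar Q (x ⊗ₜ w) (y ⊗ₜ w') = polar Q₁ x y * polar Q₂ w w' := by
  rw [hS.pol, tB_tmul, polarBilin_apply_apply, polarBilin_apply_apply]

theorem nondeg : (polarBilin Q).Nondegenerate := by
  convert tB_nondegenerate hS.nd₁ hS.nd₂
  exact LinearMap.ext₂ hS.pol

theorem tens_mem {σ : O Q₁} (hσ : σ ∈ eichGroup Q₁) {τ : O Q₂} (hτ : τ ∈ eichGroup Q₂) :
    oTensor hS.two hS.pol (σ, τ) ∈ X.comap (oU Q) :=
  InG.mem ((hS.left σ hσ).mul (hS.right τ hτ)) (TensorProduct.ext' fun _ _ => rfl)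

variable [Finite F]

theorem big : Big Q₁ :=
  ⟨hS.nd₁, hS.two, hS.three₁.ge, Or.inr hS.five, exists_isHyp_of_three_le hS.nd₁ hS.three₁.ge⟩

/-- One long root subgroup inside `U ⊗ z` generates everything. -/
theorem le_of_root (hu : Q₁ u = 0) (hu0 : u ≠ 0) (hz : Q₂ z = 0) (hz0 : z ≠ 0)
    (hr : ∀ x, polar Q₁ u x = 0 → eich Q (u ⊗ₜ z) (x ⊗ₜ z) ∈ X.comap (oU Q)) :
    eichGroup Q ≤ X.comap (oU Q) := by
  set M := X.comap (oU Q) with hM
  have h2 := hS.two
  have s0 : ∀ u₂ z₂ x, Q₁ u₂ = 0 → u₂ ≠ 0 → Q₂ z₂ = 0 → z₂ ≠ 0 → polar Q₁ u₂ x = 0 →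
      eich Q (u₂ ⊗ₜ z₂) (x ⊗ₜ z₂) ∈ M := fun u₂ z₂ x a1 a2 a3 a4 a5 => by
    obtain ⟨σ, hσ, c, hc, b1⟩ := t1_trans hS.nd₁ hS.three₁.ge hu hu0 a1 a2
    obtain ⟨τ, hτ, d, hd, b2⟩ := t1_trans hS.nd₂ hS.three₂ hz hz0 a3 a4
    have := eich_conj_mem (hS.tens_mem hσ hτ) (hr ((c * d * d)⁻¹ • σ.1.symm x) (by
      rw [polar_smul_right', ← O_polar σ, b1, LinearEquiv.apply_symm_apply, polar_smul_left', a5,
        mul_zero, mul_zero]))
    change eich Q (σ.1 u ⊗ₜ τ.1 z) (σ.1 _ ⊗ₜ τ.1 z) ∈ M at this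
    rw [b1, b2, map_smul, LinearEquiv.apply_symm_apply, tmul_smul, tmul_smul, ← smul_tmul',
      ← smul_tmul', smul_smul, eich_smul_left (mul_ne_zero hd hc), smul_smul, smul_smul] at this
    rwa [show d * c * d * (c * d * d)⁻¹ = 1 by field_simp, one_smul] at this
  have hQ : ∀ {u : U} (w : W), Q₁ u = 0 → Q (u ⊗ₜ w) = 0 := fun w h => by simp [hS.Q_tm, h]
  have step : ∀ {u : U} {z : W} (hu : Q₁ u = 0) {k : O Q}, k ∈ M → k.1 (u ⊗ₜ z) = u ⊗ₜ z →
      ∀ {y}, y ∈ eichAddSubgroup M (hQ z hu) → k.1 y - y ∈ eichAddSubgroup M (hQ z hu) :=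
    fun hu k hk e y hy => AddSubgroup.sub_mem _
      ⟨by rw [← e, O_polar, hy.1], e ▸ eich_conj_mem hk hy.2⟩ hy
  have s1 : ∀ {u : U} {z : W} (hu : Q₁ u = 0), u ≠ 0 → Q₂ z = 0 → z ≠ 0 → ∀ w,
      u ⊗ₜ w ∈ eichAddSubgroup M (hQ z hu) := fun {u z} hu hu0 hz hz0 => by
    have huu : polar Q₁ u u = 0 := by rw [polar_self', hu, mul_zero]
    obtain ⟨z', h⟩ := exists_isHyp hS.nd₂ hz hz0
    refine t1_lin h _ (TensorProduct.mk F U W u) fun w hw => ?_
    by_cases h1 : polar Q₂ z w = 0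
    · obtain ⟨c, rfl⟩ := Submodule.mem_span_singleton.1 (hS.one z w hz hz0 h1 hw)
      exact ⟨by simp [hS.pol_tm, huu], by
        rw [mk_apply, tmul_smul, eich_smul_self]; exact M.one_mem⟩
    obtain ⟨x, hx, h3⟩ := exists_nonsingular_orth hS.nd₁ hS.three₁.ge hu
    have h4 : polar Q (u ⊗ₜ w) (x ⊗ₜ w) = 0 := by simp [hS.pol_tm, h3]
    have := step hu (s0 u w x hu hu0 hw (by rintro rfl; simp at h1) h3)
      (eich_apply_of_orth (by simp [hS.pol_tm, huu]) (by simp [hS.pol_tm, h3]))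
      (y := (-(2 * Q₁ x * polar Q₂ z w)⁻¹ • x) ⊗ₜ z) ⟨by simp [hS.pol_tm, h3],
        s0 u z _ hu hu0 hz hz0 (by simp [h3])⟩
    rw [eich_apply (hQ w hu) h4] at this
    simp only [hS.pol_tm, polar_smul_left', polar_comm Q₁ x u, h3, polar_self', mul_zero, zero_mul,
      zero_smul, add_zero, sub_zero, sub_sub_cancel_left, ← neg_smul] at this
    rwa [show -(-(2 * Q₁ x * polar Q₂ z w)⁻¹ * (2 * Q₁ x) * polar Q₂ z w) = 1 by field_simp,
      one_smul] at this
  have full : ∀ {u u' : U} {z z' : W}, H30.IsHyp Q₁ u u' → H30.IsHyp Q₂ z z' →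
      FullAt M (u ⊗ₜ z) := fun {u u' z z'} h k => by
    have s2 : ∀ y, Q₁ y = 0 → ∀ v ∈ hperp Q₂ z z', y ⊗ₜ v ∈ eichAddSubgroup M (hQ z h.left) :=
      fun y hy v hv => by
        by_cases h1 : polar Q₁ u y = 0
        · obtain ⟨c, rfl⟩ := Submodule.mem_span_singleton.1
            (t1_one hS.nd₁ hS.three₁ u y h.left h.left_ne_zero h1 hy)
          rw [smul_tmul]
          exact s1 h.left h.left_ne_zero k.left k.left_ne_zero _
        have a1 := s1 hy (by rintro rfl; simp at h1) k.left k.left_ne_zero ((polar Q₁ u y)⁻¹ • v)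
        have := step h.left a1.2 (eich_apply_of_orth (by simp [hS.pol_tm, k.polar_left])
          (by simp [hS.pol_tm, polar_comm Q₂ z, hv.1]))
          (s1 h.left h.left_ne_zero k.left k.left_ne_zero z')
        rw [eich_apply (hQ z hy) a1.1] at this
        rw [hQ _ hy] at this
        simpa [hS.pol_tm, k.pol', polar_comm Q₂ z' v, hv.2, h1] using this
    have s3 : ∀ y, ∀ v ∈ hperp Q₂ z z', y ⊗ₜ v ∈ eichAddSubgroup M (hQ z h.left) := fun y v hv =>
      t1_lin h _ ((TensorProduct.mk F U W).flip v) (fun y hy => s2 y hy v hv) y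
    have s4 : ∀ y, y ⊗ₜ z ∈ eichAddSubgroup M (hQ z h.left) := fun y => by
      obtain ⟨v, hv, hvQ⟩ := (k.nondegOn_hperp hS.nd₂).exists_Q_ne_zero
        (ne_bot_of_finrank_pos (by have := k.finrank_hperp; have := hS.three₂; omega))
      have := step h.left (hS.tens_mem (one_mem _) (eich_mem_eichGroup z v))
        (show u ⊗ₜ (eich Q₂ z v).1 z = _ by rw [eich_apply_self])
        (s3 y (-(2 * Q₂ v)⁻¹ • v) (Submodule.smul_mem _ _ hv))
      change y ⊗ₜ (eich Q₂ z v).1 _ - _ ∈ _ at this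
      rw [eich_apply_of_orth_left k.left (by rw [polar_comm]; exact hv.1) (by simp [hv.1]),
        tmul_sub, sub_sub_cancel_left, polar_smul_left', polar_self',
        show -(2 * Q₂ v)⁻¹ * (2 * Q₂ v) = -1 by field_simp] at this
      simpa [tmul_neg] using this
    have s5 : ∀ p, cR (polarBilin Q₂) U z p = 0 → p ∈ eichAddSubgroup M (hQ z h.left) :=
      fun p hp => perp_induction k.pol' _ (fun x v hv => by
        obtain ⟨a, b, w, hw, rfl⟩ := k.exists_decomp v
        rw [polarBilin_apply_apply, k.polar_comb_left _ _ hw] at hv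
        rw [hv, zero_smul, add_zero, tmul_add, ← smul_tmul]
        exact AddSubgroup.add_mem _ (s4 _) (s3 _ _ hw)) hp
    have s6 : ∀ x, polar Q₁ u x = 0 → x ⊗ₜ z' ∈ eichAddSubgroup M (hQ z h.left) := fun x hx => by
      have := step h.left (s0 u z' x h.left h.left_ne_zero k.right k.right_ne_zero hx)
        (eich_apply_of_orth (by simp [hS.pol_tm, h.polar_left]) (by simp [hS.pol_tm, hx])) (s4 u')
      rw [eich_apply (hQ z' h.left) (by simp [hS.pol_tm, hx])] at this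
      have a1 := AddSubgroup.add_mem _ this
        (s1 h.left h.left_ne_zero k.left k.left_ne_zero (polar Q₁ u' x • z'))
      simp only [hS.pol_tm, h.pol', k.pol, hS.Q_tm, k.right, mul_zero, zero_smul,
        sub_zero, mul_one, one_smul, tmul_smul] at a1
      convert a1 using 1
      abel
    refine ⟨hQ z h.left, fun w hw => ?_⟩
    rw [polar_comm, hS.pol, tB_cR, polarBilin_apply_apply, polar_comm] at hw
    have := AddSubgroup.add_mem _ (s6 _ hw) (s5 (w - cR (polarBilin Q₂) U z w ⊗ₜ z')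
      (by simp [k.pol']))
    rw [add_sub_cancel] at this
    exact this.2
  obtain ⟨u', h⟩ := exists_isHyp hS.nd₁ hu hu0
  obtain ⟨z', k⟩ := exists_isHyp hS.nd₂ hz hz0
  exact (full h k).eichGroup_le hS.nondeg (full h.symm k.symm) (by simp [hS.pol_tm, h.pol, k.pol])

omit [Finite F] in
theorem iso' (hg : InG X g) (p q : U ⊗[F] W) : tB (polarBilin Q₁) (polarBilin Q₂) (g p) (g q) =
    tB (polarBilin Q₁) (polarBilin Q₂) p q := by
  simp only [← hS.pol, polar, ← map_add, hS.iso g hg]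

omit [Finite F] in
theorem symm (p q : U ⊗[F] W) : tB (polarBilin Q₁) (polarBilin Q₂) p q =
    tB (polarBilin Q₁) (polarBilin Q₂) q p := by rw [← hS.pol, ← hS.pol, polar_comm]

omit [Finite F] hS in
theorem cR_sR (hz : Q₂ z = 0) {p : U ⊗[F] W} (hp : p ∈ sR F U z) :
    cR (polarBilin Q₂) U z p = 0 := by
  obtain ⟨x, rfl⟩ := mem_sR.1 hp
  simp [hz]

variable (hX : ¬ eichGroup Q ≤ X.comap (oU Q))
include hX

/-- The centre of the unipotent radical meets `X` trivially. -/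
theorem eq_zero_of_sR (hz : Q₂ z = 0) (hz0 : z ≠ 0) (hn : InG X (1 + n))
    (hr : ∀ p, n p ∈ sR F U z) : n = 0 := by
  obtain ⟨z', k⟩ := exists_isHyp hS.nd₂ hz hz0
  have h2 := hS.two
  let zE : End F U → End F (U ⊗[F] W) := fun D => tm D z ∘ₗ cR (polarBilin Q₂) U z
  let D : End F U := cR (polarBilin Q₂) U z' ∘ₗ n ∘ₗ (TensorProduct.mk F U W).flip z'
  have h1 : n = zE D := LinearMap.ext fun p => by
    have a1 : cR (polarBilin Q₂) U z (p - cR (polarBilin Q₂) U z p ⊗ₜ z') = 0 := by simp [k.pol']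
    have : n (p - cR (polarBilin Q₂) U z p ⊗ₜ z') = 0 :=
      (tB_nondegenerate hS.nd₁ hS.nd₂).1 _ fun q => by
        have := skew3 (hS.iso' hn) (p - cR (polarBilin Q₂) U z p ⊗ₜ z') q
        rwa [TC.tB_sR a1 (hr q), TC.tB_sR (cR_sR hz (hr _)) (hr q), add_zero, add_zero] at this
    rw [map_sub, sub_eq_zero] at this
    obtain ⟨s, hs⟩ := mem_sR.1 (hr (cR (polarBilin Q₂) U z p ⊗ₜ z'))
    simp [this, zE, D, hs, k.pol]
  have h4 : ∀ a b, polar Q₁ (D a) b = -polar Q₁ a (D b) := fun a b => by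
    have := skew3 (hS.iso' hn) (a ⊗ₜ z') (b ⊗ₜ z')
    rw [h1] at this
    simp only [zE, LinearMap.comp_apply, cR_tmul, polarBilin_apply_apply, k.pol', one_smul,
      tm_apply, tB_tmul, k.pol, k.polar_left] at this
    linear_combination this
  have h5 : ∀ a, polar Q₁ (D a) a = 0 := fun a => mul_left_cancel₀ h2 (by
    linear_combination h4 a a + polar_comm Q₁ (D a) a)
  let A : AddSubgroup (End F U) :=
    { carrier := {D | InG X (1 + zE D)}
      add_mem' := fun {a b} ha hb => by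
        change InG X _
        convert ha.mul hb using 1
        exact LinearMap.ext fun p => by
          simp [zE, k.polar_left, add_tmul, add_comm, add_left_comm]
      zero_mem' := by
        change InG X _
        convert inG_one X using 1
        exact LinearMap.ext fun p => by simp [zE]
      neg_mem' := fun {a} ha => inG_inv ha (LinearMap.ext fun p => by
        simp [zE, k.polar_left, neg_tmul]) }
  have hD : D ∈ A := by
    change InG X _
    rwa [← h1]
  have hA : ∀ u x, Q₁ u = 0 → polar Q₁ u x = 0 → eE Q₁ u x * D * eE Q₁ u (-x) ∈ A :=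
    fun u x hu hx => by
      have := inG_conj (hS.eE_left hu hx) (g' := (eE Q₁ u (-x)).rTensor W) (by
        rw [← LinearMap.rTensor_mul, eE_mul_neg hu hx, End.one_eq_id, LinearMap.rTensor_id,
          End.one_eq_id]) hD
      change InG X _
      convert this using 1
      exact LinearMap.ext fun p => by simp [zE, cR_rTensor]
  have key : ∀ u x, Q₁ u = 0 → u ≠ 0 → polar Q₁ u x = 0 → Q₁ x ≠ 0 → polar Q₁ (D u) x = 0 := by
    intro u x hu hu0 hx hxQ
    by_contra hne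
    have huu : polar Q₁ u u = 0 := by rw [polar_self', hu, mul_zero]
    set y := Q₁ x • D u - polar Q₁ (D u) x • x with hy
    have b1 : polar Q₁ u y = 0 := by simp [hy, hx, polar_comm Q₁ u (D u), h5]
    have b2 : ∀ t : F, (t * t) • (2 : F) • sk (polarBilin Q₁) u y ∈ A := fun t => by
      have a1 := hA u (t • x) hu (by simp [hx])
      have a2 := hA u (-(t • x)) hu (by simp [hx])
      rw [neg_neg] at a2
      convert A.sub_mem (A.add_mem hD hD) (A.add_mem a1 a2) using 1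
      ext v
      simp only [hy, eE_apply, LinearMap.add_apply, LinearMap.smul_apply, LinearMap.sub_apply,
        sk_apply, End.mul_apply, map_sub, map_add, map_smul, map_neg, polarBilin_apply_apply, h5,
        h4 v u, h4 x u, polar_smul_right', polar_comm Q₁ x (D u), polar_neg_right, Q_smul,
        QuadraticMap.map_neg]
      module
    have b3 : ∀ c : F, c • sk (polarBilin Q₁) u y ∈ A := fun c => by
      convert A.sub_mem (b2 ((c / 2 + 1) / 2)) (b2 ((c / 2 - 1) / 2)) using 1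
      rw [← sub_smul, smul_smul]
      congr 1
      field_simp
      ring
    refine hX (hS.le_of_root hu hu0 hz hz0 fun x₂ hx₂ => ?_)
    obtain ⟨u', h⟩ := exists_isHyp hS.nd₁ hu hu0
    obtain ⟨x₀, a1, -, a3⟩ := t1_dec hS.nd₁ hS.three₁ h
    obtain ⟨r, s, t, rfl⟩ := a3 x₂
    obtain ⟨r', s', t', a4⟩ := a3 y
    rw [polar_comm, h.polar_comb_left _ _ (Submodule.smul_mem _ t a1)] at hx₂
    have a5 := b1
    rw [a4, polar_comm, h.polar_comb_left _ _ (Submodule.smul_mem _ t' a1)] at a5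
    have a6 : t' ≠ 0 := fun e => by
      have := congrArg (polar Q₁ · x) a4
      simp [hy, e, a5, hx, hne, sub_eq_zero, hxQ, mul_comm, two_mul] at this
    rw [show r • u + s • u' + t • x₀ = (t / t') • y + (r - t / t' * r') • u by
      rw [a4, hx₂, a5]; match_scalars <;> field_simp <;> ring, add_tmul, ← smul_tmul' (r - _),
      eich_add_smul]
    refine InG.mem (b3 (t / t')) ?_
    change (eich Q _ _).1.toLinearMap = _
    rw [eich_eq_eE (by simp [hS.Q_tm, hu]) (by simp [hS.pol_tm, k.polar_left])]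
    refine LinearMap.ext fun p => ?_
    rw [eE_apply, hS.Q_tm, hz]
    simp [zE, hS.pol, tB_cR, sub_tmul, smul_sub, smul_smul, mul_comm, ← smul_tmul']
  obtain ⟨u, u', h⟩ := hS.big.hyp
  obtain ⟨x, a1, a2, a3⟩ := t1_dec hS.nd₁ hS.three₁ h
  have b1 := key u x h.left h.left_ne_zero (by rw [polar_comm, a1.1]) a2
  have b2 := key u' x h.right h.right_ne_zero (by rw [polar_comm, a1.2]) a2
  have b3 := key (-Q₁ x • u + (1 : F) • u' + x) (x - (2 * Q₁ x) • u)
    ((h.Q_comb _ _ a1).trans (by ring)) (fun e => by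
      have := h.polar_comb_left (-Q₁ x) 1 a1
      rw [e, polar_zero_left] at this
      exact zero_ne_one this)
    (by simp [h.polar_left, h.pol', polar_comm Q₁ u x, polar_comm Q₁ u' x, a1.1, a1.2])
    (by simpa [Q_sub, Q_smul, h.left, a1.1] using a2)
  have b4 : polar Q₁ (D x) u = 0 := by rw [h4, polar_comm, b1, neg_zero]
  have b5 : polar Q₁ (D x) u' = 0 := by rw [h4, polar_comm, b2, neg_zero]
  have b6 : polar Q₁ (D u') u = 0 := by simpa [b1, b2, b4, h5, h2, a2] using b3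
  have b7 : polar Q₁ (D u) u' = 0 := by rw [h4, polar_comm, b6, neg_zero]
  have b8 : D = 0 := LinearMap.ext fun a => hS.nd₁.1 _ fun b => by
    obtain ⟨r, s, t, rfl⟩ := a3 a
    obtain ⟨r', s', t', rfl⟩ := a3 b
    simp [b1, b2, b4, b5, b6, b7, h5]
  rw [h1, b8]
  exact LinearMap.ext fun p => by simp [zE]

end T1

end Cfsg.Agent.H77
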